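import Mathlib
import Cfsg.Agent.H64.JzDefs
import Cfsg.Agent.H58.Q46.Final
import Cfsg.Agent.S2950
import Cfsg.Agent.Helper55.UqMaxL
import Cfsg.Agent.H59.SoConj
import Cfsg.Agent.H63.SnIfV
import Cfsg.Agent.H14.Basic
import Cfsg.Agent.H14.Thompson

/-!
helper62: piece JZ-SC of helper64's project JZ (S2951 / S2952): `sc : StSC`.
If `T = S` and there is a second `J(S)`-component outside `L`, the conclusion holds.
-/

set_option autoImplicit false
set_option linter.unusedVariables false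
set_option linter.unusedSimpArgs false
set_option linter.style.haveILetI false
open Cfsg

namespace Cfsg.Agent.H62.Jz

open Cfsg.Agent.H64.Jz

universe u

section
variable {G : Type u} [Group G]

theorem sup_mem_mul (A B C : Subgroup G) (hA : A ≤ C) (hB : B ≤ C)
    (hC : ∀ x ∈ C, ∀ y ∈ C, x * y = y * x) :
    ∀ g ∈ A ⊔ B, ∃ a ∈ A, ∃ b ∈ B, g = a * b := by
  intro g hg
  have hg' : g ∈ Subgroup.closure ((A : Set G) ∪ (B : Set G)) := by
    rw [Subgroup.closure_union, Subgroup.closure_eq, Subgroup.closure_eq]; exact hg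
  induction hg' using Subgroup.closure_induction with
  | mem x hx =>
    rcases hx with hx | hx
    · exact ⟨x, hx, 1, B.one_mem, (mul_one x).symm⟩
    · exact ⟨1, A.one_mem, x, hx, (one_mul x).symm⟩
  | one => exact ⟨1, A.one_mem, 1, B.one_mem, (mul_one 1).symm⟩
  | mul x y _ _ ihx ihy =>
    obtain ⟨a, ha, b, hb, hab⟩ := ihx (by
      rw [← Subgroup.closure_eq A, ← Subgroup.closure_eq B, ← Subgroup.closure_union]; assumption)
    obtain ⟨a', ha', b', hb', hab'⟩ := ihy (by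
      rw [← Subgroup.closure_eq A, ← Subgroup.closure_eq B, ← Subgroup.closure_union]; assumption)
    refine ⟨a * a', A.mul_mem ha ha', b * b', B.mul_mem hb hb', ?_⟩
    have h := hC b (hB hb) a' (hA ha')
    rw [hab, hab']
    calc a * b * (a' * b') = a * (b * a') * b' := by group
      _ = a * (a' * b) * b' := by rw [h]
      _ = a * a' * (b * b') := by group
  | inv x _ ihx =>
    obtain ⟨a, ha, b, hb, hab⟩ := ihx (by
      rw [← Subgroup.closure_eq A, ← Subgroup.closure_eq B, ← Subgroup.closure_union]; assumption)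
    refine ⟨a⁻¹, A.inv_mem ha, b⁻¹, B.inv_mem hb, ?_⟩
    have h := hC a⁻¹ (hA (A.inv_mem ha)) b⁻¹ (hB (B.inv_mem hb))
    rw [hab, mul_inv_rev, h]

theorem card_sup_le [Finite G] (A B C : Subgroup G) (hA : A ≤ C) (hB : B ≤ C)
    (hC : ∀ x ∈ C, ∀ y ∈ C, x * y = y * x) :
    Nat.card ↥(A ⊔ B) ≤ Nat.card ↥A * Nat.card ↥B := by
  rw [← Nat.card_prod]
  let f : ↥A × ↥B → ↥(A ⊔ B) := fun p =>
    ⟨p.1.1 * p.2.1, Subgroup.mul_mem _ ((le_sup_left : A ≤ A ⊔ B) p.1.2)
      ((le_sup_right : B ≤ A ⊔ B) p.2.2)⟩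
  apply Nat.card_le_card_of_surjective f
  rintro ⟨g, hg⟩
  obtain ⟨a, ha, b, hb, hab⟩ := sup_mem_mul A B C hA hB hC g hg
  exact ⟨(⟨a, ha⟩, ⟨b, hb⟩), Subtype.ext hab.symm⟩

theorem card_mul_le_of_inf_bot [Finite G] (A B C : Subgroup G) (hA : A ≤ C) (hB : B ≤ C)
    (hAB : A ⊓ B = ⊥) : Nat.card ↥A * Nat.card ↥B ≤ Nat.card ↥C := by
  rw [← Nat.card_prod]
  let f : ↥A × ↥B → ↥C := fun p => ⟨p.1.1 * p.2.1, C.mul_mem (hA p.1.2) (hB p.2.2)⟩
  apply Nat.card_le_card_of_injective f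
  rintro ⟨⟨a, ha⟩, ⟨b, hb⟩⟩ ⟨⟨a', ha'⟩, ⟨b', hb'⟩⟩ h
  have h1 : a * b = a' * b' := congrArg (fun c : ↥C => c.1) h
  have h2 : a'⁻¹ * a = b' * b⁻¹ := by
    calc a'⁻¹ * a = a'⁻¹ * (a * b) * b⁻¹ := by group
      _ = a'⁻¹ * (a' * b') * b⁻¹ := by rw [h1]
      _ = b' * b⁻¹ := by group
  have h3 : a'⁻¹ * a ∈ A ⊓ B :=
    ⟨A.mul_mem (A.inv_mem ha') ha, h2 ▸ B.mul_mem hb' (B.inv_mem hb)⟩
  rw [hAB, Subgroup.mem_bot] at h3
  have h4 : a = a' := by
    calc a = a' * (a'⁻¹ * a) := by group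
      _ = a' := by rw [h3, mul_one]
  subst h4
  have h5 : b = b' := mul_left_cancel h1
  subst h5
  rfl

theorem finset_card_le [Finite G] (Z0 : Subgroup G) (s : Finset G) (hs : ∀ y ∈ s, y ∈ Z0) :
    s.card ≤ Nat.card ↥Z0 := by
  have h1 : Nat.card ↥Z0 = (Z0 : Set G).ncard := Nat.card_coe_set_eq (Z0 : Set G)
  rw [h1, ← Set.ncard_coe_finset]
  exact Set.ncard_le_ncard (fun y hy => hs y (Finset.mem_coe.mp hy)) (Set.toFinite _)

theorem enum2 [Finite G] (Z : Subgroup G) (h2 : Nat.card ↥Z = 2) (a : G) (ha : a ∈ Z)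
    (h1a : (1 : G) ≠ a) : ∀ x ∈ Z, x = 1 ∨ x = a := by
  classical
  intro x hx
  by_contra hne
  push Not at hne
  have hc : ({1, a, x} : Finset G).card = 3 := by
    rw [Finset.card_insert_of_notMem, Finset.card_pair (Ne.symm hne.2)]
    simp only [Finset.mem_insert, Finset.mem_singleton, not_or]
    exact ⟨h1a, Ne.symm hne.1⟩
  have hle := finset_card_le Z ({1, a, x} : Finset G) (by
    intro y hy
    simp only [Finset.mem_insert, Finset.mem_singleton] at hy
    rcases hy with rfl | rfl | rfl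
    · exact Z.one_mem
    · exact ha
    · exact hx)
  omega

theorem enum4 [Finite G] (Z : Subgroup G) (h4 : Nat.card ↥Z = 4) (a b c : G) (ha : a ∈ Z)
    (hb : b ∈ Z) (hc : c ∈ Z) (h1a : (1 : G) ≠ a) (h1b : (1 : G) ≠ b) (h1c : (1 : G) ≠ c)
    (hab : a ≠ b) (hac : a ≠ c) (hbc : b ≠ c) :
    ∀ x ∈ Z, x = 1 ∨ x = a ∨ x = b ∨ x = c := by
  classical
  intro x hx
  by_contra hne
  push Not at hne
  obtain ⟨hx1, hxa, hxb, hxc⟩ := hne
  have hcd : ({1, a, b, c, x} : Finset G).card = 5 := by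
    rw [Finset.card_insert_of_notMem, Finset.card_insert_of_notMem,
      Finset.card_insert_of_notMem, Finset.card_pair (Ne.symm hxc)]
    all_goals
      simp only [Finset.mem_insert, Finset.mem_singleton, not_or]
      first
        | exact ⟨hbc, Ne.symm hxb⟩
        | exact ⟨hab, hac, Ne.symm hxa⟩
        | exact ⟨h1a, h1b, h1c, Ne.symm hx1⟩
  have hle := finset_card_le Z ({1, a, b, c, x} : Finset G) (by
    intro y hy
    simp only [Finset.mem_insert, Finset.mem_singleton] at hy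
    rcases hy with rfl | rfl | rfl | rfl | rfl
    · exact Z.one_mem
    · exact ha
    · exact hb
    · exact hc
    · exact hx)
  omega

theorem omegaCenter_le_omegaCenter_thompson [Finite G] (S : Subgroup G) :
    omegaCenterOf S ≤ omegaCenterOf (thompsonSubgroupOf 2 S) := by
  unfold omegaCenterOf omegaOne
  apply Subgroup.closure_mono
  rintro x ⟨hx1, hx2⟩
  have hxS : x ∈ S := hx1.1
  have hxC : x ∈ Subgroup.centralizer (S : Set G) := hx1.2
  obtain ⟨A, hA⟩ := Cfsg.Agent.H14.maxElementaryAbelian_nonempty (G := ↥S) 2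
  have hxA : (⟨x, hxS⟩ : ↥S) ∈ A := by
    apply Cfsg.Agent.H14.mem_of_mem_center_of_pow_eq_one hA
    · rw [Subgroup.mem_centralizer_iff]
      intro a _
      apply Subtype.ext
      exact (Subgroup.mem_centralizer_iff.mp hxC) a.1 a.2
    · apply Subtype.ext
      exact hx2
  have hxJ : x ∈ thompsonSubgroupOf 2 S := by
    unfold thompsonSubgroupOf
    exact ⟨⟨x, hxS⟩, (le_sSup hA : A ≤ thompsonSubgroup 2 ↥S) hxA, rfl⟩
  refine ⟨⟨hxJ, ?_⟩, hx2⟩
  exact Subgroup.centralizer_le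
    (SetLike.coe_subset_coe.mpr (Cfsg.Agent.H14.thompsonSubgroupOf_le 2 S)) hxC

theorem omegaCenterOf_ne_bot' [Finite G] (P : Subgroup G) (hP : IsPGroup 2 ↥P) (hne : P ≠ ⊥) :
    omegaCenterOf P ≠ ⊥ := by
  haveI : Fact (Nat.Prime 2) := ⟨Nat.prime_two⟩
  haveI : Nontrivial ↥P := (Subgroup.nontrivial_iff_ne_bot P).mpr hne
  haveI := hP.center_nontrivial
  have hZ : IsPGroup 2 ↥(Subgroup.center ↥P) := hP.to_subgroup _
  have hdvd : 2 ∣ Nat.card ↥(Subgroup.center ↥P) := by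
    obtain ⟨k, hk⟩ := hZ.exists_card_eq
    have hk0 : k ≠ 0 := by
      rintro rfl
      rw [pow_zero] at hk
      have := (Subgroup.center ↥P).one_lt_card_iff_ne_bot.mpr
        ((Subgroup.nontrivial_iff_ne_bot _).mp inferInstance)
      omega
    rw [hk]
    exact dvd_pow_self 2 hk0
  obtain ⟨w, hw⟩ := exists_prime_orderOf_dvd_card' 2 hdvd
  have hw1 : ((w : ↥P) : G) ∈ omegaCenterOf P := by
    apply Cfsg.Agent.H63.Sn.omegaCenterOf_mem P (w : ↥P).2
    · refine Subgroup.mem_centralizer_iff.mpr ?_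
      intro a ha
      have h1 := Subgroup.mem_center_iff.mp w.2 ⟨a, ha⟩
      exact congrArg Subtype.val h1
    · have h1 : w ^ 2 = 1 := by
        have := pow_orderOf_eq_one w
        rw [hw] at this; exact this
      have h2 := congrArg (fun x : ↥(Subgroup.center ↥P) => ((x : ↥P) : G)) h1
      simpa using h2
  intro hbot
  rw [hbot, Subgroup.mem_bot] at hw1
  have h3 : w = 1 := by
    apply Subtype.ext
    apply Subtype.ext
    simpa using hw1
  rw [h3, orderOf_one] at hw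
  omega

theorem jcomp_not_le_normalizer [Finite G] (T K : Subgroup G) (hTp : IsPGroup 2 ↥T)
    (hK : IsJComponent T K) : ¬ K ≤ Subgroup.normalizer (T : Set G) := by
  intro hKN
  haveI : Fact (Nat.Prime 2) := ⟨Nat.prime_two⟩
  obtain ⟨_, h2, h3, _, _, _⟩ := hK
  have hc : ⁅K, thompsonSubgroupOf 2 T⁆ ≤ thompsonSubgroupOf 2 T := by
    rw [Subgroup.commutator_le]
    intro k hk j hj
    have hkN := hKN hk
    have hmap : T.map (MulAut.conj k).toMonoidHom = T := by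
      ext x
      constructor
      · rintro ⟨y, hy, rfl⟩
        exact (Subgroup.mem_normalizer_iff.mp hkN y).mp hy
      · intro hx
        refine ⟨k⁻¹ * x * k, ?_, ?_⟩
        · apply (Subgroup.mem_normalizer_iff.mp hkN (k⁻¹ * x * k)).mpr
          have e : k * (k⁻¹ * x * k) * k⁻¹ = x := by group
          rw [e]; exact hx
        · simp only [MulEquiv.toMonoidHom_eq_coe, MonoidHom.coe_coe, MulAut.conj_apply]
          group
    have hJ : (thompsonSubgroupOf 2 T).map (MulAut.conj k).toMonoidHom =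
        thompsonSubgroupOf 2 T := by
      rw [Cfsg.Agent.H14.thompsonSubgroupOf_conj 2 k T, hmap]
    have hmem : k * j * k⁻¹ ∈ (thompsonSubgroupOf 2 T).map (MulAut.conj k).toMonoidHom :=
      ⟨j, hj, by simp [MulAut.conj_apply]⟩
    rw [hJ] at hmem
    rw [commutatorElement_def]
    exact Subgroup.mul_mem _ hmem (Subgroup.inv_mem _ hj)
  rw [h2] at hc
  have hKT : K ≤ T := hc.trans (Cfsg.Agent.H14.thompsonSubgroupOf_le 2 T)
  have hKp : IsPGroup 2 ↥K := hTp.to_le hKT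
  obtain ⟨n, hn⟩ := hKp.exists_card_eq
  have hdvd : (pCoreOf 2 K).relIndex K ∣ Nat.card ↥K := Subgroup.relIndex_dvd_card _ _
  rw [h3, hn] at hdvd
  have := Nat.Prime.dvd_of_dvd_pow Nat.prime_three hdvd
  omega

theorem dvd4 : ∀ n : ℕ, n ≤ 4 → n ∣ 4 → n ≠ 1 → n ≠ 4 → n = 2 := by decide

theorem sc_core [Finite G] (S Z0 Z Z1 Z1' W W' L K' : Subgroup G)
    (hsup : Z1 ⊔ W = Z0) (hsup' : Z1' ⊔ W' = Z0)
    (hWc : Nat.card ↥W = 2) (hWc' : Nat.card ↥W' = 2)
    (hcomm : ∀ x ∈ Z0, ∀ y ∈ Z0, x * y = y * x)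
    (hZle : Z ≤ Z0) (hZne : Z ≠ ⊥)
    (hZfix : ∀ z ∈ Z, ∀ s ∈ S, s * z * s⁻¹ = z)
    (hZ0Z : ∀ x ∈ Z0, (∀ s ∈ S, s * x * s⁻¹ = x) → x ∈ Z)
    (hSnorm : ∀ s ∈ S, ∀ x ∈ Z0, s * x * s⁻¹ ∈ Z0)
    (hSL : S ≤ L)
    (hU : ∀ y ∈ Z1, y ≠ 1 → Subgroup.centralizer {y} ≤ L)
    (hK'c : ∀ y ∈ Z1', K' ≤ Subgroup.centralizer {y})
    (hK'L : ¬ K' ≤ L)
    (hF3 : ∀ z ∈ Z, z ≠ 1 → (∀ z' ∈ Z, z' = 1 ∨ z' = z) → z ∉ Z1 ∧ z ∉ Z1') :
    Z = Z0 ∧ (Nat.card ↥Z0 = 2 ∨ Nat.card ↥Z0 = 4) := by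
  have hZ1 : Z1 ≤ Z0 := hsup ▸ le_sup_left
  have hW : W ≤ Z0 := hsup ▸ le_sup_right
  have hZ1' : Z1' ≤ Z0 := hsup' ▸ le_sup_left
  have hW' : W' ≤ Z0 := hsup' ▸ le_sup_right
  have hinf : Z1 ⊓ Z1' = ⊥ := by
    rw [eq_bot_iff]
    intro y hy
    rw [Subgroup.mem_bot]
    by_contra hy1
    exact hK'L ((hK'c y hy.2).trans (hU y hy.1 hy1))
  have c0le : Nat.card ↥Z0 ≤ Nat.card ↥Z1 * 2 := by
    have h := card_sup_le Z1 W Z0 hZ1 hW hcomm
    rw [hsup, hWc] at h; exact h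
  have c0le' : Nat.card ↥Z0 ≤ Nat.card ↥Z1' * 2 := by
    have h := card_sup_le Z1' W' Z0 hZ1' hW' hcomm
    rw [hsup', hWc'] at h; exact h
  have cmul : Nat.card ↥Z1 * Nat.card ↥Z1' ≤ Nat.card ↥Z0 :=
    card_mul_le_of_inf_bot Z1 Z1' Z0 hZ1 hZ1' hinf
  have hpos1 : 0 < Nat.card ↥Z1 := Nat.card_pos
  have hpos1' : 0 < Nat.card ↥Z1' := Nat.card_pos
  have hpos0 : 0 < Nat.card ↥Z0 := Nat.card_pos
  have hev : 2 ∣ Nat.card ↥Z0 := by rw [← hWc]; exact Subgroup.card_dvd_of_le hW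
  have hc1 : Nat.card ↥Z1 ≤ 2 := by
    by_contra h
    push Not at h
    have h3 := Nat.mul_le_mul_right (Nat.card ↥Z1') (show 3 ≤ Nat.card ↥Z1 from h)
    omega
  have hc1' : Nat.card ↥Z1' ≤ 2 := by
    by_contra h
    push Not at h
    have h3 := Nat.mul_le_mul_left (Nat.card ↥Z1) (show 3 ≤ Nat.card ↥Z1' from h)
    omega
  have hc0 : Nat.card ↥Z0 = 2 ∨ Nat.card ↥Z0 = 4 := by omega
  refine ⟨?_, hc0⟩
  apply le_antisymm hZle
  by_contra hnot
  have hex : ∃ x0 ∈ Z0, ∃ s ∈ S, s * x0 * s⁻¹ ≠ x0 := by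
    by_contra hno
    push Not at hno
    exact hnot (fun x hx => hZ0Z x hx (hno x hx))
  obtain ⟨x0, hx0, s, hs, hsx⟩ := hex
  obtain ⟨z, hz, hz1⟩ : ∃ z ∈ Z, z ≠ 1 := by
    by_contra hno
    push Not at hno
    exact hZne ((eq_bot_iff).mpr (fun z hz => Subgroup.mem_bot.mpr (hno z hz)))
  have hzZ0 : z ∈ Z0 := hZle hz
  have hσz : s * z * s⁻¹ = z := hZfix z hz s hs
  have hσ1 : s * 1 * s⁻¹ = (1 : G) := by group
  rcases hc0 with h2 | h4
  · rcases enum2 Z0 h2 z hzZ0 (Ne.symm hz1) x0 hx0 with h | h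
    · rw [h] at hsx; exact hsx hσ1
    · rw [h] at hsx; exact hsx hσz
  · have hx0Z : x0 ∉ Z := fun h => hsx (hZfix x0 h s hs)
    have hZlt : Z ≠ Z0 := fun h => hx0Z (h ▸ hx0)
    have hZcard : Nat.card ↥Z = 2 := by
      have hd : Nat.card ↥Z ∣ Nat.card ↥Z0 := Subgroup.card_dvd_of_le hZle
      rw [h4] at hd
      have h1 : Nat.card ↥Z ≠ 1 := fun h => hZne (Subgroup.eq_bot_of_card_eq Z h)
      have h4' : Nat.card ↥Z ≠ 4 :=
        fun h => hZlt (Subgroup.eq_of_le_of_card_ge hZle (by omega))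
      exact dvd4 _ (Nat.le_of_dvd (by norm_num) hd) hd h1 h4'
    have hZenum := enum2 Z hZcard z hz (Ne.symm hz1)
    obtain ⟨hzZ1, hzZ1'⟩ := hF3 z hz hz1 hZenum
    have hc1eq : Nat.card ↥Z1 = 2 := by omega
    have hc1eq' : Nat.card ↥Z1' = 2 := by omega
    obtain ⟨z1, hz1m, hz1ne⟩ : ∃ z1 ∈ Z1, z1 ≠ 1 := by
      by_contra hno
      push Not at hno
      have hb : Z1 = ⊥ := (eq_bot_iff).mpr (fun y hy => Subgroup.mem_bot.mpr (hno y hy))
      rw [hb, Subgroup.card_bot] at hc1eq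
      omega
    obtain ⟨z1', hz1'm, hz1'ne⟩ : ∃ z1' ∈ Z1', z1' ≠ 1 := by
      by_contra hno
      push Not at hno
      have hb : Z1' = ⊥ := (eq_bot_iff).mpr (fun y hy => Subgroup.mem_bot.mpr (hno y hy))
      rw [hb, Subgroup.card_bot] at hc1eq'
      omega
    have hne1 : z1 ≠ z1' := by
      intro h
      have hm : z1 ∈ Z1 ⊓ Z1' := ⟨hz1m, h ▸ hz1'm⟩
      rw [hinf, Subgroup.mem_bot] at hm
      exact hz1ne hm
    have hne2 : z ≠ z1 := fun h => hzZ1 (h ▸ hz1m)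
    have hne3 : z ≠ z1' := fun h => hzZ1' (h ▸ hz1'm)
    have hen := enum4 Z0 h4 z z1 z1' hzZ0 (hZ1 hz1m) (hZ1' hz1'm) (Ne.symm hz1)
      (Ne.symm hz1ne) (Ne.symm hz1'ne) hne2 hne3 hne1
    have hinj : ∀ a b : G, s * a * s⁻¹ = s * b * s⁻¹ → a = b := by
      intro a b h
      calc a = s⁻¹ * (s * a * s⁻¹) * s := by group
        _ = s⁻¹ * (s * b * s⁻¹) * s := by rw [h]
        _ = b := by group
    have hcase : s * z1 * s⁻¹ = z1 → False := by
      intro hfix1
      rcases hen _ (hSnorm s hs z1' (hZ1' hz1'm)) with h | h | h | h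
      · exact hz1'ne (hinj _ _ (h.trans hσ1.symm))
      · exact hne3 (hinj _ _ (hσz.trans h.symm))
      · exact hne1 (hinj _ _ (hfix1.trans h.symm))
      · rcases hen x0 hx0 with e | e | e | e
        · rw [e] at hsx; exact hsx hσ1
        · rw [e] at hsx; exact hsx hσz
        · rw [e] at hsx; exact hsx hfix1
        · rw [e] at hsx; exact hsx h
    rcases hen _ (hSnorm s hs z1 (hZ1 hz1m)) with h | h | h | h
    · exact hz1ne (hinj _ _ (h.trans hσ1.symm))
    · exact hne2 (hinj _ _ (hσz.trans h.symm))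
    · exact hcase h
    · apply hK'L
      intro k hk
      have hkc : z1' * k = k * z1' :=
        Subgroup.mem_centralizer_iff.mp (hK'c z1' hz1'm hk) z1' (Set.mem_singleton z1')
      have hmem : s⁻¹ * k * s ∈ Subgroup.centralizer ({z1} : Set G) := by
        rw [Subgroup.mem_centralizer_iff]
        intro y hy
        rw [Set.mem_singleton_iff] at hy
        rw [hy]
        have e1 : z1 = s⁻¹ * z1' * s := by rw [← h]; group
        rw [e1]
        calc s⁻¹ * z1' * s * (s⁻¹ * k * s) = s⁻¹ * (z1' * k) * s := by group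
          _ = s⁻¹ * (k * z1') * s := by rw [hkc]
          _ = s⁻¹ * k * s * (s⁻¹ * z1' * s) := by group
      have hL := hU z1 hz1m hz1ne hmem
      have hsL : s ∈ L := hSL hs
      have e2 : k = s * (s⁻¹ * k * s) * s⁻¹ := by group
      rw [e2]
      exact L.mul_mem (L.mul_mem hsL hL) (L.inv_mem hsL)

end

/-- JZ-SC. -/
theorem sc : StSC.{u} := by
  intro G _ _ S M T K L hB hTS hK'
  obtain ⟨K', hK'J, hK'L⟩ := hK'
  obtain ⟨hZN, hO, hM, hMJ, hT, hTSle, hK, hLmax, hKJL⟩ := hB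
  obtain ⟨hL2, hNsol, hZ⟩ := hZN
  subst hTS
  have hTp : IsPGroup 2 ↥(S : Subgroup G) := hT.1.1
  have hT1 : (S : Subgroup G) ≠ ⊥ := hT.1.2.1
  have hKJ : IsJComponent (S : Subgroup G) K := hK.1.1
  obtain ⟨L0, hL0max, hL0le, hL0uniq, _, hL0syl⟩ :=
    Cfsg.Agent.S2950.result hL2 hNsol hZ hO S M hM hMJ (S : Subgroup G) hT K hK
  have hLL0 : L = L0 := hL0uniq L hLmax hKJL
  subst hLL0
  have hTL : (S : Subgroup G) ≤ L := hL0syl.1
  obtain ⟨hWc, hsup⟩ :=
    Cfsg.Agent.H58.Q46.s2946 hL2 hNsol hZ (S : Subgroup G) hTp hT1 K hKJ _ rfl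
  obtain ⟨hWc', hsup'⟩ :=
    Cfsg.Agent.H58.Q46.s2946 hL2 hNsol hZ (S : Subgroup G) hTp hT1 K' hK'J _ rfl
  have hJT : thompsonSubgroupOf 2 (S : Subgroup G) ≤ (S : Subgroup G) :=
    Cfsg.Agent.H14.thompsonSubgroupOf_le 2 _
  have hZ0mem : ∀ x ∈ omegaCenterOf (thompsonSubgroupOf 2 (S : Subgroup G)),
      x ∈ thompsonSubgroupOf 2 (S : Subgroup G) ∧
      x ∈ Subgroup.centralizer (thompsonSubgroupOf 2 (S : Subgroup G) : Set G) ∧ x ^ 2 = 1 :=
    fun x hx => Cfsg.Agent.H63.Sn.mem_omegaCenterOf _ hx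
  have aux : ∀ K'' : Subgroup G, IsJComponent (S : Subgroup G) K'' →
      ∀ z ∈ omegaCenterOf (S : Subgroup G),
      (∀ z' ∈ omegaCenterOf (S : Subgroup G), z' = 1 ∨ z' = z) →
      z ∉ (omegaCenterOf (thompsonSubgroupOf 2 (S : Subgroup G)) ⊓
        ((K'' ⊔ thompsonSubgroupOf 2 (S : Subgroup G)) ⊓
          Subgroup.centralizer ((K'' : Set G) ⊔
            (thompsonSubgroupOf 2 (S : Subgroup G) : Set G)))) := by
    intro K'' hK'' z hz hen hzm
    apply jcomp_not_le_normalizer (S : Subgroup G) K'' hTp hK''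
    refine le_trans ?_ (hZ S)
    intro k hk
    rw [Subgroup.mem_centralizer_iff]
    intro h hh
    rcases hen h hh with e | e
    · rw [e]; simp
    · rw [e]
      exact (Subgroup.mem_centralizer_iff.mp hzm.2.2 k (Or.inl hk)).symm
  have hcore := sc_core (S : Subgroup G) _ (omegaCenterOf (S : Subgroup G)) _ _ _ _ L K'
    hsup hsup' hWc hWc'
    (fun x hx y hy =>
      (Subgroup.mem_centralizer_iff.mp (hZ0mem y hy).2.1 x (hZ0mem x hx).1))
    (omegaCenter_le_omegaCenter_thompson _)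
    (omegaCenterOf_ne_bot' _ hTp hT1)
    (by
      intro z hz s hs
      have hc := (Cfsg.Agent.H63.Sn.mem_omegaCenterOf _ hz).2.1
      have h := Subgroup.mem_centralizer_iff.mp hc s hs
      rw [h]; group)
    (by
      intro x hx hfix
      refine Cfsg.Agent.H63.Sn.omegaCenterOf_mem _ (hJT (hZ0mem x hx).1) ?_ (hZ0mem x hx).2.2
      rw [Subgroup.mem_centralizer_iff]
      intro s hs
      calc s * x = s * x * s⁻¹ * s := by group
        _ = x * s := by rw [hfix s hs])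
    (by
      intro s hs x hx
      have hmapZ0 : (omegaCenterOf (thompsonSubgroupOf 2 (S : Subgroup G))).map
          (MulAut.conj s).toMonoidHom = omegaCenterOf (thompsonSubgroupOf 2 (S : Subgroup G)) := by
        rw [← Cfsg.Agent.H59.So.omegaCenterOf_map_conj,
          Cfsg.Agent.H59.So.thompson_map_conj_self hs]
      have hm : s * x * s⁻¹ ∈ (omegaCenterOf (thompsonSubgroupOf 2 (S : Subgroup G))).map
          (MulAut.conj s).toMonoidHom := ⟨x, hx, by simp [MulAut.conj_apply]⟩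
      rw [hmapZ0] at hm
      exact hm)
    hTL
    (by
      intro y hy hy1
      have hyc := hy.2.2
      have hyT : y ∈ (S : Subgroup G) := hJT (hZ0mem y hy.1).1
      have h2loc : IsTwoLocal (Subgroup.normalizer (Subgroup.zpowers y : Set G)) :=
        ⟨Subgroup.zpowers y, hTp.to_le (Subgroup.zpowers_le.mpr hyT),
          Subgroup.zpowers_ne_bot.mpr hy1, rfl⟩
      obtain ⟨L'', hL''max, hL''le⟩ := Cfsg.Agent.Helper55.Uq.maxL _ h2loc
      have hcn : Subgroup.centralizer ({y} : Set G) ≤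
          Subgroup.normalizer (Subgroup.zpowers y : Set G) := by
        intro g hg
        apply Subgroup.centralizer_le_normalizer (Subgroup.zpowers y : Set G)
        rw [Subgroup.mem_centralizer_iff]
        intro h hh
        obtain ⟨n, rfl⟩ := Subgroup.mem_zpowers_iff.mp hh
        have hc : Commute y g :=
          Subgroup.mem_centralizer_iff.mp hg y (Set.mem_singleton y)
        exact (hc.zpow_left n).eq
      have hKJle : K ⊔ thompsonSubgroupOf 2 (S : Subgroup G) ≤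
          Subgroup.centralizer ({y} : Set G) := by
        refine sup_le ?_ ?_
        · intro g hg
          rw [Subgroup.mem_centralizer_iff]
          intro h hh
          rw [Set.mem_singleton_iff] at hh
          rw [hh]
          exact (Subgroup.mem_centralizer_iff.mp hyc g (Or.inl hg)).symm
        · intro g hg
          rw [Subgroup.mem_centralizer_iff]
          intro h hh
          rw [Set.mem_singleton_iff] at hh
          rw [hh]
          exact (Subgroup.mem_centralizer_iff.mp hyc g (Or.inr hg)).symm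
      have hL''eq : L'' = L := hL0uniq L'' hL''max ((hKJle.trans hcn).trans hL''le)
      exact (hcn.trans hL''le).trans (le_of_eq hL''eq))
    (by
      intro y hy k hk
      rw [Subgroup.mem_centralizer_iff]
      intro h hh
      rw [Set.mem_singleton_iff] at hh
      rw [hh]
      exact (Subgroup.mem_centralizer_iff.mp hy.2.2 k (Or.inl hk)).symm)
    hK'L
    (fun z hz hz1 hen => ⟨aux K hKJ z hz hen, aux K' hK'J z hz hen⟩)
  obtain ⟨hZeq, h2 | h4⟩ := hcore
  · exact Or.inl ⟨hZeq, h2⟩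
  · exact Or.inr (Or.inl ⟨hZeq, h4, rfl⟩)

example : ∀ {G : Type u} [Group G] [Finite G] (S : Sylow 2 G) (M T K L : Subgroup G),
  Base S M T K L → T = (S : Subgroup G) →
  (∃ K' : Subgroup G, IsJComponent T K' ∧ ¬ K' ≤ L) → Concl S T L := sc.{u}

example : Cfsg.Agent.H64.Jz.StSC.{u} := sc.{u}

end Cfsg.Agent.H62.Jz

#print axioms Cfsg.Agent.H62.Jz.sc
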