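import Mathlib
import Cfsg.Agent.H42.SpnDefs

/-!
# SPN-KERADD (helper62): kernels on a direct sum of invariant subspaces
-/

set_option autoImplicit false
set_option linter.style.haveILetI false
set_option linter.unusedSimpArgs false
set_option linter.unusedSectionVars false
set_option linter.unusedVariables false

namespace Cfsg.Agent.H62.Spn

open Cfsg.Agent.H42.Spn

universe u v

theorem kerAdd : StKerAdd.{u, v} := by
  intro F _ V _ _ _ S U W hU hW hUW
  rw [Module.End.mem_invtSubmodule_iff_forall_mem_of_mem] at hU hW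
  have hsup : (U ⊔ W) ⊓ LinearMap.ker S = (U ⊓ LinearMap.ker S) ⊔ (W ⊓ LinearMap.ker S) := by
    apply le_antisymm
    · intro x hx
      obtain ⟨hx1, hx2⟩ := Submodule.mem_inf.mp hx
      obtain ⟨a, ha, b, hb, rfl⟩ := Submodule.mem_sup.mp hx1
      rw [LinearMap.mem_ker, map_add] at hx2
      have hSa : S a ∈ U ⊓ W := by
        refine Submodule.mem_inf.mpr ⟨hU a ha, ?_⟩
        have h1 : S a = -S b := by
          rw [eq_neg_iff_add_eq_zero]
          exact hx2
        rw [h1]
        exact W.neg_mem (hW b hb)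
      rw [hUW, Submodule.mem_bot] at hSa
      have hSb : S b = 0 := by
        rw [hSa, zero_add] at hx2
        exact hx2
      exact Submodule.mem_sup.mpr ⟨a, Submodule.mem_inf.mpr ⟨ha, LinearMap.mem_ker.mpr hSa⟩, b,
        Submodule.mem_inf.mpr ⟨hb, LinearMap.mem_ker.mpr hSb⟩, rfl⟩
    · exact sup_le (inf_le_inf_right _ le_sup_left) (inf_le_inf_right _ le_sup_right)
  have hinf : (U ⊓ LinearMap.ker S) ⊓ (W ⊓ LinearMap.ker S) = ⊥ := by
    apply le_antisymm _ bot_le
    rw [← hUW]
    exact inf_le_inf inf_le_left inf_le_left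
  have h := Submodule.finrank_sup_add_finrank_inf_eq (U ⊓ LinearMap.ker S) (W ⊓ LinearMap.ker S)
  rw [hinf, finrank_bot, add_zero] at h
  rw [hsup]
  exact h

end Cfsg.Agent.H62.Spn
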