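import Cfsg.Agent.H7.JyNotin
import Cfsg.Agent.H20.JyPair

/-!
# S2953 / KILL2 glue: 2-locals over `K ⊔ J(T)` lie in `L`

For a configuration `Base S M T K L`:
* `local_le`: every 2-local over `K ⊔ J(T)` lies in `L`;
* `norm_le`: `N_G(U) ≤ L` for every nontrivial 2-subgroup `U` normalized by `K` and `J(T)`;
* `hU`: the hypothesis `hU` of `H28.RKill.rkill4a` (an element of `S` normalizing a nontrivial
  `U ≤ T` which is normalized by `K` and `T` lies in `T`);
* `mem_T_of_norm`: the same for `U` a 2-group normalized by `K` and `J(T)`.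
-/

set_option autoImplicit false
open Cfsg

namespace Cfsg.Agent.H62.Jy

universe u

/-- Every 2-local over `K ⊔ J(T)` lies in `L`. -/
theorem local_le {G : Type u} [Group G] [Finite G] (S : Sylow 2 G) (M T K L : Subgroup G)
    (hB : Cfsg.Agent.H64.Jz.Base S M T K L) (X : Subgroup G) (hX : IsTwoLocal X)
    (hKX : K ⊔ thompsonSubgroupOf 2 T ≤ X) : X ≤ L := by
  obtain ⟨Lm, hLm, hle⟩ := Cfsg.Agent.Helper55.Uq.exists_maximalTwoLocal hX
  have e := Cfsg.Agent.H20.Jy.base_unique S M T K L hB Lm hLm (hKX.trans hle)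
  exact e ▸ hle

/-- `N_G(U) ≤ L` for a nontrivial 2-subgroup `U` normalized by `K` and `J(T)`. -/
theorem norm_le {G : Type u} [Group G] [Finite G] (S : Sylow 2 G) (M T K L : Subgroup G)
    (hB : Cfsg.Agent.H64.Jz.Base S M T K L) (U : Subgroup G) (hU2 : IsPGroup 2 ↥U) (hU : U ≠ ⊥)
    (hKU : K ≤ Subgroup.normalizer (U : Set G))
    (hJU : thompsonSubgroupOf 2 T ≤ Subgroup.normalizer (U : Set G)) :
    Subgroup.normalizer (U : Set G) ≤ L :=
  local_le S M T K L hB _ ⟨U, hU2, hU, rfl⟩ (sup_le hKU hJU)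

/-- An element of `S` normalizing a nontrivial 2-subgroup `U` normalized by `K` and `J(T)` lies
in `T`. -/
theorem mem_T_of_norm {G : Type u} [Group G] [Finite G] (S : Sylow 2 G) (M T K L : Subgroup G)
    (hB : Cfsg.Agent.H64.Jz.Base S M T K L) (U : Subgroup G) (hU2 : IsPGroup 2 ↥U) (hU : U ≠ ⊥)
    (hKU : K ≤ Subgroup.normalizer (U : Set G))
    (hJU : thompsonSubgroupOf 2 T ≤ Subgroup.normalizer (U : Set G))
    (y : G) (hyS : y ∈ (S : Subgroup G)) (hyU : y ∈ Subgroup.normalizer (U : Set G)) : y ∈ T := by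
  have hyL : y ∈ L := norm_le S M T K L hB U hU2 hU hKU hJU hyU
  have h := Cfsg.Agent.H7.JyNotin.inf_eq S M T K L hB
  rw [← h]
  exact ⟨hyS, hyL⟩

/-- The hypothesis `hU` of `H28.RKill.rkill4a`. -/
theorem hU {G : Type u} [Group G] [Finite G] (S : Sylow 2 G) (M T K L : Subgroup G)
    (hB : Cfsg.Agent.H64.Jz.Base S M T K L) :
    ∀ U : Subgroup G, U ≠ ⊥ → U ≤ T → K ≤ Subgroup.normalizer (U : Set G) →
      T ≤ Subgroup.normalizer (U : Set G) →
      ∀ y ∈ (S : Subgroup G), y ∈ Subgroup.normalizer (U : Set G) → y ∈ T := by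
  intro U hU hUT hKU hTU y hyS hyU
  have hTS : T ≤ (S : Subgroup G) := hB.2.2.2.2.2.1
  have hU2 : IsPGroup 2 ↥U := (S.isPGroup'.to_le hTS).to_le hUT
  exact mem_T_of_norm S M T K L hB U hU2 hU hKU
    ((Cfsg.Agent.H14.thompsonSubgroupOf_le 2 T).trans hTU) y hyS hyU

end Cfsg.Agent.H62.Jy

#print axioms Cfsg.Agent.H62.Jy.hU
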