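import Mathlib
import Cfsg.Agent.H95.OhDefs
import Cfsg.Agent.H49.Isom

/-!
helper62: piece S5992-DISC of helper95's project S5992/S5993.  The span of `2 t` pairwise
orthogonal nonsingular vectors is of plus type iff `(-1) ^ t` times its discriminant is a square.
-/

set_option autoImplicit false
set_option linter.style.haveILetI false
set_option linter.unusedVariables false
set_option linter.unusedSimpArgs false

namespace Cfsg.Agent.H62.Oh

open Cfsg.Agent.H45 Cfsg.Agent.H42.Spd Cfsg.Agent.H42.Ti Cfsg.Agent.H14.Ot Cfsg.Agent.H95.Oh Module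

universe u v

/-- Gram determinants in two bases differ by a nonzero square. -/
theorem gram_det_change {F : Type*} [Field F] {W : Type*} [AddCommGroup W] [Module F W]
    {ι ι' : Type*} [Fintype ι] [DecidableEq ι] [Fintype ι'] [DecidableEq ι']
    (β : LinearMap.BilinForm F W) (b : Module.Basis ι F W) (c : Module.Basis ι' F W) :
    ∃ d : F, d ≠ 0 ∧ (Matrix.of fun i j => β (c i) (c j)).det =
      d ^ 2 * (Matrix.of fun i j => β (b i) (b j)).det := by
  classical
  obtain ⟨e, he⟩ : ∃ e : ι' ≃ ι, e = c.indexEquiv b := ⟨_, rfl⟩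
  obtain ⟨c', hc'⟩ : ∃ c' : Module.Basis ι F W, c' = c.reindex e := ⟨_, rfl⟩
  have hP : (b.toMatrix c').det ≠ 0 := by
    have : Invertible (b.toMatrix c') := Module.Basis.invertibleToMatrix b c'
    exact (Matrix.isUnit_det_of_invertible _).ne_zero
  refine ⟨(b.toMatrix c').det, hP, ?_⟩
  have h1 := LinearMap.BilinForm.toMatrix_mul_basis_toMatrix (b := b) c' β
  have h2 : (Matrix.of fun i j => β (b i) (b j)) = LinearMap.BilinForm.toMatrix b β := by
    ext i j
    rw [Matrix.of_apply, LinearMap.BilinForm.toMatrix_apply]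
  have h3 : (Matrix.of fun i j => β (c i) (c j)) =
      Matrix.reindex e.symm e.symm (LinearMap.BilinForm.toMatrix c' β) := by
    ext i j
    rw [Matrix.of_apply, Matrix.reindex_apply, Matrix.submatrix_apply,
      LinearMap.BilinForm.toMatrix_apply, hc', Module.Basis.reindex_apply,
      Module.Basis.reindex_apply]
    simp
  rw [h3, Matrix.det_reindex_self, ← h1, Matrix.det_mul, Matrix.det_mul, Matrix.det_transpose, h2]
  ring

/-- An orthogonal family of nonsingular vectors is linearly independent. -/
theorem ortho_linInd {F : Type u} [Field F] {V : Type v} [AddCommGroup V] [Module F V]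
    (B : V →ₗ[F] V →ₗ[F] F) {ι : Type*} (v : ι → V)
    (ho : ∀ a b, a ≠ b → B (v a) (v b) = 0) (hn : ∀ a, B (v a) (v a) ≠ 0) :
    LinearIndependent F v := by
  classical
  rw [linearIndependent_iff']
  intro s g hg i hi
  have h1 : B (∑ j ∈ s, g j • v j) (v i) = 0 := by
    rw [hg, map_zero, LinearMap.zero_apply]
  rw [map_sum, LinearMap.sum_apply, Finset.sum_eq_single i] at h1
  · rw [map_smul, LinearMap.smul_apply, smul_eq_mul] at h1
    exact (mul_eq_zero.mp h1).resolve_right (hn i)
  · intro j _ hj
    rw [map_smul, LinearMap.smul_apply, ho j i hj, smul_zero]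
  · intro h
    exact absurd hi h

/-- Determinant of a symmetric block matrix with zero upper left block. -/
theorem det_zero_block {F : Type*} [Field F] (t : ℕ) (C D : Matrix (Fin t) (Fin t) F) :
    (Matrix.fromBlocks 0 C C.transpose D).det * (-1) ^ t = C.det ^ 2 := by
  have h1 : Matrix.fromBlocks 0 C C.transpose D * Cfsg.Agent.H49.hypGram t F =
      Matrix.fromBlocks C 0 D C.transpose := by
    rw [Cfsg.Agent.H49.hypGram, Matrix.fromBlocks_multiply]
    simp
  have h2 := congrArg Matrix.det h1
  rw [Matrix.det_mul, Cfsg.Agent.H49.det_hypGram, Matrix.det_fromBlocks_zero₁₂,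
    Matrix.det_transpose] at h2
  rw [h2]
  ring

theorem disc : StDisc.{u, v} := by
  intro F _ _ V _ _ _ B h2 hsym t v ho hn
  classical
  obtain ⟨W, hW⟩ : ∃ W : Submodule F V, W = Submodule.span F (Set.range v) := ⟨_, rfl⟩
  rw [← hW]
  have hli := ortho_linInd B v ho hn
  obtain ⟨bv, hbv⟩ : ∃ bv : Module.Basis (Fin (2 * t)) F W, ∀ a, (bv a : V) = v a := by
    subst hW
    exact ⟨Module.Basis.span hli, fun a => congrArg Subtype.val (Module.Basis.span_apply hli a)⟩
  have hfr : Module.finrank F W = 2 * t := by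
    rw [Module.finrank_eq_card_basis bv, Fintype.card_fin]
  obtain ⟨β, hβ⟩ : ∃ β : LinearMap.BilinForm F W, ∀ x y : W, β x y = B (x : V) (y : V) :=
    ⟨LinearMap.BilinForm.restrict B W, fun x y => rfl⟩
  have hGv : (Matrix.of fun i j => β (bv i) (bv j)) =
      Matrix.diagonal (fun a => B (v a) (v a)) := by
    ext i j
    rw [Matrix.of_apply, hβ, hbv, hbv, Matrix.diagonal_apply]
    split_ifs with h
    · rw [h]
    · exact ho i j h
  have hdetv : (Matrix.of fun i j => β (bv i) (bv j)).det = ∏ a, B (v a) (v a) := by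
    rw [hGv, Matrix.det_diagonal]
  constructor
  · rintro ⟨U, hUW, hTI, hUdim⟩
    have hUt : Module.finrank F U = t := by omega
    obtain ⟨U', hU'⟩ : ∃ U' : Submodule F W, U' = U.comap W.subtype := ⟨_, rfl⟩
    have hU'dim : Module.finrank F U' = t := by
      rw [hU', ← hUt]
      exact (Submodule.comapSubtypeEquivOfLe hUW).finrank_eq
    obtain ⟨C', hC'⟩ := Submodule.exists_isCompl U'
    have hC'dim : Module.finrank F C' = t := by
      have := Submodule.finrank_add_eq_of_isCompl hC'
      omega
    obtain ⟨bU⟩ : Nonempty (Module.Basis (Fin t) F U') :=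
      ⟨Module.finBasisOfFinrankEq F U' hU'dim⟩
    obtain ⟨bC⟩ : Nonempty (Module.Basis (Fin t) F C') :=
      ⟨Module.finBasisOfFinrankEq F C' hC'dim⟩
    obtain ⟨c, hc⟩ : ∃ c : Module.Basis (Fin t ⊕ Fin t) F W, ∀ i, c (Sum.inl i) ∈ U' := by
      refine ⟨(bU.prod bC).map (Submodule.prodEquivOfIsCompl U' C' hC'), ?_⟩
      intro i
      rw [Module.Basis.map_apply, Submodule.coe_prodEquivOfIsCompl']
      simp
    have hzero : ∀ i j, β (c (Sum.inl i)) (c (Sum.inl j)) = 0 := by
      intro i j
      rw [hβ]
      have hi := hc i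
      have hj := hc j
      rw [hU'] at hi hj
      exact hTI _ hi _ hj
    obtain ⟨Cm, hCm⟩ : ∃ Cm : Matrix (Fin t) (Fin t) F,
        Cm = Matrix.of fun i j => β (c (Sum.inl i)) (c (Sum.inr j)) := ⟨_, rfl⟩
    obtain ⟨D, hD⟩ : ∃ D : Matrix (Fin t) (Fin t) F,
        D = Matrix.of fun i j => β (c (Sum.inr i)) (c (Sum.inr j)) := ⟨_, rfl⟩
    have hG : (Matrix.of fun i j => β (c i) (c j)) = Matrix.fromBlocks 0 Cm Cm.transpose D := by
      ext i j
      rcases i with i | i <;> rcases j with j | j
      · rw [Matrix.of_apply, Matrix.fromBlocks_apply₁₁, hzero, Matrix.zero_apply]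
      · rw [Matrix.of_apply, Matrix.fromBlocks_apply₁₂, hCm, Matrix.of_apply]
      · rw [Matrix.of_apply, Matrix.fromBlocks_apply₂₁, hCm, Matrix.transpose_apply,
          Matrix.of_apply, hβ, hβ, hsym]
      · rw [Matrix.of_apply, Matrix.fromBlocks_apply₂₂, hD, Matrix.of_apply]
    obtain ⟨d, hd, hdet⟩ := gram_det_change β bv c
    rw [hG, hdetv] at hdet
    have h3 := det_zero_block t Cm D
    rw [hdet] at h3
    apply (Cfsg.Agent.H49.isSquare_sq_mul_iff hd _).mp
    exact ⟨Cm.det, by linear_combination h3⟩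
  · rintro ⟨s, hs⟩
    obtain ⟨Q, hQ⟩ : ∃ Q : QuadraticForm F W, ∀ x, Q x = β x x :=
      ⟨LinearMap.BilinMap.toQuadraticMap β, fun x => rfl⟩
    have hβsym : ∀ x y : W, β x y = β y x := by
      intro x y
      rw [hβ, hβ, hsym]
    have hpol : ∀ x y, QuadraticMap.polar ⇑Q x y = 2 * β x y := by
      intro x y
      unfold QuadraticMap.polar
      simp only [hQ, map_add, LinearMap.add_apply]
      rw [hβsym y x]
      ring
    have hβnd : ∀ x : W, (∀ y, β x y = 0) → x = 0 := by
      intro x hx
      have key : ∀ a, β x (bv a) = bv.repr x a * B (v a) (v a) := by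
        intro a
        conv_lhs => rw [← bv.sum_repr x]
        rw [map_sum, LinearMap.sum_apply, Finset.sum_eq_single a]
        · rw [map_smul, LinearMap.smul_apply, smul_eq_mul, hβ, hbv]
        · intro b _ hb
          rw [map_smul, LinearMap.smul_apply, hβ, hbv, hbv, ho b a hb, smul_zero]
        · intro h
          exact absurd (Finset.mem_univ a) h
      have h0 : bv.repr x = 0 := by
        ext a
        have h1 := key a
        rw [hx] at h1
        exact (mul_eq_zero.mp h1.symm).resolve_right (hn a)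
      exact (LinearEquiv.map_eq_zero_iff _).mp h0
    have hQnd : ∀ x, (∀ y, QuadraticMap.polar ⇑Q x y = 0) → x = 0 := by
      intro x hx
      apply hβnd
      intro y
      have h1 := hx y
      rw [hpol] at h1
      exact (mul_eq_zero.mp h1).resolve_left h2
    have hnd : (QuadraticMap.polarBilin Q).Nondegenerate :=
      ⟨fun x h => hQnd x (fun y => by simpa using h y),
        fun x h => hQnd x (fun y => by
          rw [QuadraticMap.polar_comm]
          simpa using h y)⟩
    rcases Cfsg.Agent.H49.even_standard_gram hfr Q hnd with ⟨b, hb0, hbg⟩ | ⟨b, ζ, hζ, hb0, hbg⟩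
    · obtain ⟨S, hS⟩ : ∃ S : Submodule F W,
          S = Submodule.span F (Set.range fun i : Fin t => b (Sum.inl i)) := ⟨_, rfl⟩
      have hz : ∀ i j : Fin t, β (b (Sum.inl i)) (b (Sum.inl j)) = 0 := by
        intro i j
        have h1 := hbg (Sum.inl i) (Sum.inl j)
        rw [hpol] at h1
        have h3 : Cfsg.Agent.H49.hypGram t F (Sum.inl i) (Sum.inl j) = 0 := by
          simp [Cfsg.Agent.H49.hypGram]
        rw [h3] at h1
        exact (mul_eq_zero.mp h1).resolve_left h2
      have h1 : ∀ j : Fin t, S ≤ LinearMap.ker (β.flip (b (Sum.inl j))) := by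
        intro j
        rw [hS, Submodule.span_le]
        rintro _ ⟨i, rfl⟩
        show β.flip (b (Sum.inl j)) (b (Sum.inl i)) = 0
        rw [LinearMap.BilinForm.flip_apply]
        exact hz i j
      have h3 : ∀ x ∈ S, S ≤ LinearMap.ker (β x) := by
        intro x hx
        rw [hS, Submodule.span_le]
        rintro _ ⟨j, rfl⟩
        have := h1 j hx
        rw [LinearMap.mem_ker, LinearMap.BilinForm.flip_apply] at this
        exact this
      have hSdim : Module.finrank F S = t := by
        rw [hS]
        show Module.finrank F (Submodule.span F (Set.range (⇑b ∘ Sum.inl))) = t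
        rw [finrank_span_eq_card (b.linearIndependent.comp _ Sum.inl_injective),
          Fintype.card_fin]
      refine ⟨S.map W.subtype, Submodule.map_subtype_le W S, ?_, ?_⟩
      · rintro _ ⟨x, hx, rfl⟩ _ ⟨y, hy, rfl⟩
        have := h3 x hx hy
        rw [LinearMap.mem_ker, hβ] at this
        exact this
      · rw [hfr, (Submodule.equivSubtypeMap W S).symm.finrank_eq, hSdim]
    · exfalso
      have hcard : Fintype.card ((Fin (t - 1) ⊕ Fin (t - 1)) ⊕ Fin 2) = 2 * t := by
        rw [← hfr, Module.finrank_eq_card_basis b]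
      simp only [Fintype.card_sum, Fintype.card_fin] at hcard
      have ht1 : 1 ≤ t := by omega
      obtain ⟨d, hd, hdet⟩ := gram_det_change β bv b
      rw [hdetv] at hdet
      have hM : Cfsg.Agent.H49.minusGram (t - 1) F 1 ζ =
          (2 : F) • (Matrix.of fun i j => β (b i) (b j)) := by
        ext i j
        rw [← hbg, hpol, Matrix.smul_apply, Matrix.of_apply, smul_eq_mul]
      have h4 := congrArg Matrix.det hM
      rw [Cfsg.Agent.H49.det_minusGram, Matrix.det_smul, hdet] at h4
      simp only [Fintype.card_sum, Fintype.card_fin] at h4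
      apply Cfsg.Agent.H49.not_isSquare_of_no_root h2 hζ
      have hE2 : ((-1 : F) ^ (t - 1)) * ((-1 : F) ^ (t - 1)) = 1 := by
        rw [← mul_pow]
        norm_num
      have hpow : (-1 : F) ^ t = -((-1) ^ (t - 1)) := by
        have h5 : (-1 : F) ^ t = (-1) ^ (t - 1 + 1) := by
          congr 1
          omega
        rw [h5, pow_succ]
        ring
      have hs' : -((-1 : F) ^ (t - 1)) * ∏ a, B (v a) (v a) = s * s := by
        rw [← hs, hpow]
      have h2pow : (2 : F) ^ (t - 1 + (t - 1) + 2) = (2 ^ t) ^ 2 := by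
        rw [← pow_mul]
        congr 1
        omega
      rw [h2pow] at h4
      refine ⟨2 ^ t * d * s, ?_⟩
      linear_combination ((2 : F) ^ t) ^ 2 * d ^ 2 * hs' + (-((-1 : F) ^ (t - 1))) * h4 +
        (4 * ζ - 1) * hE2

example : StDisc.{u, v} := disc

end Cfsg.Agent.H62.Oh
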