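import Mathlib
import Cfsg.Agent.Lib.Helper30.BG134Defs
import Cfsg.Agent.H58.BG10FG
import Cfsg.Agent.H47.BG1216E1
import Cfsg.Agent.H58.BG127Tau
import Cfsg.Agent.H58.Sig2
import Cfsg.Agent.Helper55.PRankOne
import Cfsg.Agent.H25.CycSub
import Cfsg.Agent.H28.Basic

/-!
BG134-RTAU1 (helper62, for helper30's S1428 project): in a configuration, `r ∈ τ₁(H)`.
-/

set_option autoImplicit false
set_option linter.unusedVariables false
set_option linter.style.haveILetI false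

namespace Cfsg.Agent.H62.BG134

open Cfsg Subgroup Cfsg.Agent.H58.BG10 Cfsg.Agent.H57.BG12 Cfsg.Agent.H47.BG12
  Cfsg.Agent.Lib.Helper30.BG134

open scoped commutatorElement

universe u

/-- in a finite nilpotent group, a `q`-element and an `r`-element commute (`q ≠ r`). -/
theorem commute_of_nilpotent_coprime {D : Type*} [Group D] [Finite D] (hD : Group.IsNilpotent D)
    {q r : ℕ} [Fact q.Prime] [Fact r.Prime] (hqr : q ≠ r) {a b : D}
    (ha : ∃ k : ℕ, a ^ q ^ k = 1) (hb : ∃ k : ℕ, b ^ r ^ k = 1) : a * b = b * a := by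
  have hq : q.Prime := Fact.out
  have hr : r.Prime := Fact.out
  have htfae : Group.IsNilpotent D ↔
      ∀ (p : ℕ) (_hp : Fact p.Prime) (P : Sylow p D), (↑P : Subgroup D).Normal :=
    (Group.isNilpotent_of_finite_tfae (G := D)).out 0 3
  have hnorm := htfae.1 hD
  have hpa : IsPGroup q ↥(zpowers a) := by
    obtain ⟨k, hk⟩ := ha
    obtain ⟨j, -, hj⟩ := (Nat.dvd_prime_pow hq).mp (orderOf_dvd_of_pow_eq_one hk)
    exact IsPGroup.of_card (n := j) (by rw [Nat.card_zpowers, hj])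
  have hpb : IsPGroup r ↥(zpowers b) := by
    obtain ⟨k, hk⟩ := hb
    obtain ⟨j, -, hj⟩ := (Nat.dvd_prime_pow hr).mp (orderOf_dvd_of_pow_eq_one hk)
    exact IsPGroup.of_card (n := j) (by rw [Nat.card_zpowers, hj])
  obtain ⟨Q, hQ⟩ := hpa.exists_le_sylow
  obtain ⟨R, hR⟩ := hpb.exists_le_sylow
  have hQn : (Q : Subgroup D).Normal := hnorm q inferInstance Q
  have hRn : (R : Subgroup D).Normal := hnorm r inferInstance R
  have haQ : a ∈ (Q : Subgroup D) := hQ (mem_zpowers a)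
  have hbR : b ∈ (R : Subgroup D) := hR (mem_zpowers b)
  have h1 : a * b * a⁻¹ * b⁻¹ ∈ (Q : Subgroup D) := by
    have e : a * b * a⁻¹ * b⁻¹ = a * (b * a⁻¹ * b⁻¹) := by group
    rw [e]
    exact Subgroup.mul_mem _ haQ (hQn.conj_mem a⁻¹ (Subgroup.inv_mem _ haQ) b)
  have h2 : a * b * a⁻¹ * b⁻¹ ∈ (R : Subgroup D) :=
    Subgroup.mul_mem _ (hRn.conj_mem b hbR a) (Subgroup.inv_mem _ hbR)
  have hdisj := IsPGroup.disjoint_of_ne q r hqr (Q : Subgroup D) (R : Subgroup D)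
    Q.isPGroup' R.isPGroup'
  have h3 : a * b * a⁻¹ * b⁻¹ ∈ (Q : Subgroup D) ⊓ (R : Subgroup D) := ⟨h1, h2⟩
  rw [hdisj.eq_bot, Subgroup.mem_bot] at h3
  have e : a * b = (a * b * a⁻¹ * b⁻¹) * (b * a) := by group
  rw [e, h3, one_mul]

variable {G : Type u} [Group G]

theorem commutator_self_le_rt (L : Subgroup G) : ⁅L, L⁆ ≤ L := by
  rw [Subgroup.commutator_le]
  intro a ha b hb
  rw [commutatorElement_def]
  exact L.mul_mem (L.mul_mem (L.mul_mem ha hb) (L.inv_mem ha)) (L.inv_mem hb)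

/-- an element of `H'` as an element of the commutator subgroup of the group `↥H`. -/
theorem mem_commutator_subtype {H : Subgroup G} {x : G} (hx : x ∈ ⁅H, H⁆) (hxH : x ∈ H) :
    (⟨x, hxH⟩ : ↥H) ∈ commutator ↥H := by
  rw [← Subgroup.map_subtype_commutator] at hx
  obtain ⟨y, hy, hyx⟩ := hx
  have : y = ⟨x, hxH⟩ := Subtype.ext hyx
  rwa [← this]

theorem mem_commutator_of_subtype {H : Subgroup G} {x : ↥H} (hx : x ∈ commutator ↥H) :
    (x : G) ∈ ⁅H, H⁆ := by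
  rw [← Subgroup.map_subtype_commutator]
  exact ⟨x, hx, rfl⟩

/-- commutators of a `q`-element and an `r`-element of `C` lie in `N` when the image of `C`
modulo `N` is nilpotent. -/
theorem comm_mem_of_nilpotent_image {K : Type*} [Group K] [Finite K] (N : Subgroup K) [N.Normal]
    (C : Subgroup K) (hD : Group.IsNilpotent ↥(C.map (QuotientGroup.mk' N))) {q r : ℕ}
    [Fact q.Prime] [Fact r.Prime] (hqr : q ≠ r) {x z : K} (hxC : x ∈ C) (hzC : z ∈ C)
    (hx : ∃ k : ℕ, x ^ q ^ k = 1) (hz : ∃ k : ℕ, z ^ r ^ k = 1) :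
    x * z * x⁻¹ * z⁻¹ ∈ N := by
  have hxD : QuotientGroup.mk' N x ∈ C.map (QuotientGroup.mk' N) := Subgroup.mem_map_of_mem _ hxC
  have hzD : QuotientGroup.mk' N z ∈ C.map (QuotientGroup.mk' N) := Subgroup.mem_map_of_mem _ hzC
  have hxk : ∃ k : ℕ, (⟨QuotientGroup.mk' N x, hxD⟩ : ↥(C.map (QuotientGroup.mk' N))) ^ q ^ k
      = 1 := by
    obtain ⟨k, hk⟩ := hx
    refine ⟨k, Subtype.ext ?_⟩
    show (QuotientGroup.mk' N x) ^ q ^ k = 1
    rw [← map_pow, hk, map_one]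
  have hzk : ∃ k : ℕ, (⟨QuotientGroup.mk' N z, hzD⟩ : ↥(C.map (QuotientGroup.mk' N))) ^ r ^ k
      = 1 := by
    obtain ⟨k, hk⟩ := hz
    refine ⟨k, Subtype.ext ?_⟩
    show (QuotientGroup.mk' N z) ^ r ^ k = 1
    rw [← map_pow, hk, map_one]
  have hcomm := commute_of_nilpotent_coprime hD hqr hxk hzk
  have hcomm' : QuotientGroup.mk' N x * QuotientGroup.mk' N z =
      QuotientGroup.mk' N z * QuotientGroup.mk' N x := congrArg Subtype.val hcomm
  rw [← QuotientGroup.eq_one_iff, ← QuotientGroup.mk'_apply]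
  simp only [map_mul, map_inv]
  rw [hcomm']
  group

/-- (NIL) a `q`-subgroup and an `r`-subgroup of `H'` commute modulo `H_α`. -/
theorem nil_comm [Finite G] (h05 : St1405 G) {H : Subgroup G} (hH : IsCoatom H) {q r : ℕ}
    [Fact q.Prime] [Fact r.Prime] (hqr : q ≠ r) {X Z : Subgroup G} (hXq : IsPGroup q X)
    (hZr : IsPGroup r Z) (hX : X ≤ ⁅H, H⁆) (hZ : Z ≤ ⁅H, H⁆) : ⁅X, Z⁆ ≤ alphaCore H := by
  have hD := (h05 H hH).2.2.2.2
  have hHH : ⁅H, H⁆ ≤ H := commutator_self_le_rt H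
  rw [Subgroup.commutator_le]
  intro x hx z hz
  have hxH : x ∈ H := hHH (hX hx)
  have hzH : z ∈ H := hHH (hZ hz)
  have hxc : (⟨x, hxH⟩ : ↥H) ∈ commutator ↥H := mem_commutator_subtype (hX hx) hxH
  have hzc : (⟨z, hzH⟩ : ↥H) ∈ commutator ↥H := mem_commutator_subtype (hZ hz) hzH
  have hxk : ∃ k : ℕ, (⟨x, hxH⟩ : ↥H) ^ q ^ k = 1 := by
    obtain ⟨k, hk⟩ := hXq ⟨x, hx⟩
    have hk' : x ^ q ^ k = 1 := by simpa using congrArg Subtype.val hk
    exact ⟨k, Subtype.ext (by simpa using hk')⟩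
  have hzk : ∃ k : ℕ, (⟨z, hzH⟩ : ↥H) ^ r ^ k = 1 := by
    obtain ⟨k, hk⟩ := hZr ⟨z, hz⟩
    have hk' : z ^ r ^ k = 1 := by simpa using congrArg Subtype.val hk
    exact ⟨k, Subtype.ext (by simpa using hk')⟩
  have hmem := comm_mem_of_nilpotent_image (piCore (alpha H) ↥H) (commutator ↥H) hD hqr hxc hzc
    hxk hzk
  rw [commutatorElement_def]
  have e : x * z * x⁻¹ * z⁻¹ =
      H.subtype ((⟨x, hxH⟩ : ↥H) * ⟨z, hzH⟩ * (⟨x, hxH⟩ : ↥H)⁻¹ * (⟨z, hzH⟩ : ↥H)⁻¹) := rfl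
  rw [e]
  exact Subgroup.mem_map_of_mem _ hmem

/-- in a cyclic subgroup, an element of prime order `r` generates the subgroup of all elements
with `y ^ r = 1`. -/
theorem mem_zpowers_of_cyclic_rt {K : Type*} [Group K] [Finite K] {P : Subgroup K}
    (hP : IsCyclic ↥P) {r : ℕ} (hr : r.Prime) {z y : K} (hzP : z ∈ P) (hyP : y ∈ P)
    (hz : orderOf z = r) (hy : y ^ r = 1) : y ∈ zpowers z := by
  by_cases hy1 : y = 1
  · rw [hy1]; exact one_mem _
  have hyo : orderOf y = r := by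
    rcases (Nat.dvd_prime hr).mp (orderOf_dvd_of_pow_eq_one hy) with h | h
    · exact absurd (orderOf_eq_one_iff.mp h) hy1
    · exact h
  have h1 : zpowers (⟨y, hyP⟩ : ↥P) = zpowers (⟨z, hzP⟩ : ↥P) := by
    apply Cfsg.Agent.H25.cyclic_subgroup_eq_of_card_eq hP
    rw [Nat.card_zpowers, Nat.card_zpowers, ← Subgroup.orderOf_coe, ← Subgroup.orderOf_coe]
    show orderOf y = orderOf z
    rw [hyo, hz]
  have h2 : (⟨y, hyP⟩ : ↥P) ∈ zpowers (⟨z, hzP⟩ : ↥P) := by rw [← h1]; exact mem_zpowers _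
  obtain ⟨i, hi⟩ := h2
  refine ⟨i, ?_⟩
  have h3 := congrArg Subtype.val hi
  simpa using h3

theorem rTau1 [Finite G] (hG : IsMinSimpleOddOrder G) (h03 : St1403 G) (h05 : St1405 G)
    (h50 : St1350 G) (h17 : St1417 G) (h18 : St1418 G) (hSC : StSigComm G)
    (hAS : StAlphaSigma G) (hSD : StSigDisj G) (hSJ : StSigConj G) : StRTau1 G := by
  intro M E H P R Q1 p r q hC
  have hr : r.Prime := hC.hr
  have hq : q.Prime := hC.hq
  haveI : Fact r.Prime := ⟨hr⟩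
  haveI : Fact q.Prime := ⟨hq⟩
  have hqr : q ≠ r := fun h => hC.hrM (h ▸ hC.hqM)
  have hRr : IsPGroup r R := IsPGroup.of_card (n := 1) (by rw [hC.hR, pow_one])
  obtain ⟨n, hn⟩ := IsPGroup.iff_card.mp hC.hQ1q
  have hn0 : n ≠ 0 := by
    intro h
    rw [h, pow_zero] at hn
    exact hC.hQ1 (Subgroup.eq_bot_of_card_eq Q1 hn)
  have hqQ1 : q ∣ Nat.card Q1 := by rw [hn]; exact dvd_pow_self q hn0
  have hHH : ⁅H, H⁆ ≤ H := commutator_self_le_rt H
  have hrH : r ∣ Nat.card H := by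
    have := Subgroup.card_dvd_of_le hC.hRH
    rwa [hC.hR] at this
  have hr2 : r ≠ 2 := by
    intro h
    have h1 : 2 ∣ Nat.card G := by
      rw [← h]; exact hrH.trans (Subgroup.card_subgroup_dvd_card H)
    have h2 := Nat.odd_iff.mp hG.1
    omega
  -- (1) `R` is not inside `H'`
  have h1 : ¬ R ≤ ⁅H, H⁆ := by
    intro hRc
    have hQ1c : Q1 ≤ ⁅H, H⁆ := hC.hcomm.trans (Subgroup.commutator_mono hC.hQ1H hC.hRH)
    have hle : Q1 ≤ alphaCore H :=
      hC.hcomm.trans (nil_comm h05 hC.hH hqr hC.hQ1q hRr hQ1c hRc)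
    have hqα : q ∈ alpha H :=
      (h05 H hC.hH).1.2.1 q hq (hqQ1.trans (Subgroup.card_dvd_of_le hle))
    exact hAS M H hC.hM hC.hH hC.hnc q hqα hC.hqM
  -- (2) `r ∉ σ(H)`
  have h2 : r ∉ sigma H := by
    intro hrσ
    apply h1
    have hsc := hSC H hC.hH r hrσ
    obtain ⟨P₂, hP₂⟩ := (hRr.comap_subtype (K := H)).exists_le_sylow
    intro x hx
    have hxP : (⟨x, hC.hRH hx⟩ : ↥H) ∈ (P₂ : Subgroup ↥H) :=
      hP₂ (show (⟨x, hC.hRH hx⟩ : ↥H) ∈ R.comap H.subtype from hx)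
    exact mem_commutator_of_subtype (hsc P₂ hxP)
  -- (3) `H` has `r`-rank one
  have h3 : PRankLE r 1 ↥H := by
    by_contra hrk1
    have hrk2 : PRankLE r 2 ↥H := by
      by_contra hrk2
      exact h2 (alpha_subset_sigma hG h03 hC.hH ⟨hr, hrk2⟩)
    have hτ2 : r ∈ tau2 H := ⟨hr, h2, hrk2, hrk1⟩
    obtain ⟨A₀, hA₀H, hA₀e, hA₀c⟩ := Cfsg.Agent.H58.BG12.exists_elementary_sq hr hrk2 hrk1
    have hnil : Group.IsNilpotent (sigmaCore H) :=
      (h17 H hC.hH r hτ2 A₀ ⟨hA₀H, hA₀e, hA₀c⟩).1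
    have hqσH : q ∉ sigma H := by
      intro hqσ
      obtain ⟨g, hg⟩ := hSD M H hC.hM hC.hH hnil q hC.hqM hqσ
      exact hC.hnc g hg
    obtain ⟨EH, hEH⟩ := Cfsg.Agent.H47.BG12.exists_complIn_sigmaCore h50 hC.hH
    have hYH : Q1 ⊔ R ≤ H := sup_le hC.hQ1H hC.hRH
    have hYσ : ∀ s : ℕ, s.Prime → s ∣ Nat.card ↥(Q1 ⊔ R) → s ∉ sigma H := by
      intro s hs hsd
      have hd := hsd.trans (Cfsg.Agent.H58.card_sup_dvd hC.hRQ1)
      rw [hn, hC.hR] at hd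
      rcases (Nat.Prime.dvd_mul hs).mp hd with h | h
      · have : s = q := (Nat.prime_dvd_prime_iff_eq hs hq).mp (hs.dvd_of_dvd_pow h)
        rw [this]; exact hqσH
      · have : s = r := (Nat.prime_dvd_prime_iff_eq hs hr).mp h
        rw [this]; exact h2
    obtain ⟨g, hgH, hg⟩ := hSJ H hC.hH EH hEH (Q1 ⊔ R) hYH hYσ
    have hA₀σ : ∀ s : ℕ, s.Prime → s ∣ Nat.card ↥A₀ → s ∉ sigma H := by
      intro s hs hsd
      rw [hA₀c] at hsd
      have : s = r := (Nat.prime_dvd_prime_iff_eq hs hr).mp (hs.dvd_of_dvd_pow hsd)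
      rw [this]; exact h2
    obtain ⟨g', hg'H, hg'⟩ := hSJ H hC.hH EH hEH A₀ hA₀H hA₀σ
    obtain ⟨A, hAdef⟩ : ∃ A, A = A₀.map (MulAut.conj g').toMonoidHom := ⟨_, rfl⟩
    rw [← hAdef] at hg'
    have hAe : IsElementaryAbelian r A := by
      rw [hAdef]; exact Cfsg.Agent.H58.BG12.elementary_map_conj hA₀e g'
    have hAc : Nat.card A = r ^ 2 := by
      rw [hAdef, Subgroup.card_map_of_injective
        (show Function.Injective (MulAut.conj g').toMonoidHom from (MulAut.conj g').injective),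
        hA₀c]
    obtain ⟨⟨hEA, hsub⟩, -, -⟩ := h18 H hC.hH EH hEH r hτ2 A ⟨hg', hAe, hAc⟩
    obtain ⟨Rg, hRg⟩ : ∃ Rg, Rg = R.map (MulAut.conj g).toMonoidHom := ⟨_, rfl⟩
    obtain ⟨Qg, hQg⟩ : ∃ Qg, Qg = Q1.map (MulAut.conj g).toMonoidHom := ⟨_, rfl⟩
    have hRgE : Rg ≤ EH := by rw [hRg]; exact (Subgroup.map_mono le_sup_right).trans hg
    have hQgE : Qg ≤ EH := by rw [hQg]; exact (Subgroup.map_mono le_sup_left).trans hg
    have hRgc : Nat.card Rg = r := by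
      rw [hRg, Subgroup.card_map_of_injective
        (show Function.Injective (MulAut.conj g).toMonoidHom from (MulAut.conj g).injective),
        hC.hR]
    have hRgA : Rg ≤ A := hsub Rg hRgE hRgc
    have hQgA : Qg ≤ A := by
      have h4 : Qg ≤ ⁅Qg, Rg⁆ := by
        rw [hQg, hRg, ← Subgroup.map_commutator]
        exact Subgroup.map_mono hC.hcomm
      refine h4.trans ?_
      rw [Subgroup.commutator_le]
      intro a ha b hb
      rw [commutatorElement_def]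
      exact A.mul_mem ((mem_normalizer_iff.mp (hEA (hQgE ha)) b).mp (hRgA hb))
        (A.inv_mem (hRgA hb))
    have hQgc : Nat.card Qg = q ^ n := by
      rw [hQg, Subgroup.card_map_of_injective
        (show Function.Injective (MulAut.conj g).toMonoidHom from (MulAut.conj g).injective),
        hn]
    have hd : q ∣ r ^ 2 := by
      have h5 := Subgroup.card_dvd_of_le hQgA
      rw [hQgc, hAc] at h5
      exact (dvd_pow_self q hn0).trans h5
    exact hqr ((Nat.prime_dvd_prime_iff_eq hq hr).mp (hq.dvd_of_dvd_pow hd))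
  -- (4) `r ∤ |H'|`
  have h4 : ¬ r ∣ Nat.card ↥⁅H, H⁆ := by
    intro hd
    apply h1
    obtain ⟨z, hz⟩ := exists_prime_orderOf_dvd_card' r hd
    have hzH : (z : G) ∈ H := hHH z.2
    have hzc : (⟨(z : G), hzH⟩ : ↥H) ∈ commutator ↥H := mem_commutator_subtype z.2 hzH
    have hzo : orderOf (⟨(z : G), hzH⟩ : ↥H) = r := by
      rw [← hz, ← Subgroup.orderOf_coe z, ← Subgroup.orderOf_coe (⟨(z : G), hzH⟩ : ↥H)]
    have hzp : IsPGroup r ↥(zpowers (⟨(z : G), hzH⟩ : ↥H)) :=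
      IsPGroup.of_card (n := 1) (by rw [Nat.card_zpowers, hzo, pow_one])
    obtain ⟨P₁, hP₁⟩ := hzp.exists_le_sylow
    obtain ⟨P₂, hP₂⟩ := (hRr.comap_subtype (K := H)).exists_le_sylow
    obtain ⟨h, hh⟩ := MulAction.exists_smul_eq ↥H P₂ P₁
    have hcyc : IsCyclic ↥(P₁ : Subgroup ↥H) :=
      Cfsg.Agent.Helper55.isCyclic_of_pRankLE_one hr2 P₁.isPGroup'
        (Cfsg.Agent.H28.pRankLE_subgroup h3 (P₁ : Subgroup ↥H))
    intro x hx
    have hxP₂ : (⟨x, hC.hRH hx⟩ : ↥H) ∈ (P₂ : Subgroup ↥H) :=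
      hP₂ (show (⟨x, hC.hRH hx⟩ : ↥H) ∈ R.comap H.subtype from hx)
    have hxP₁ : h * ⟨x, hC.hRH hx⟩ * h⁻¹ ∈ (P₁ : Subgroup ↥H) := by
      rw [← hh, Sylow.coe_subgroup_smul]
      exact ⟨⟨x, hC.hRH hx⟩, hxP₂, rfl⟩
    have hxr : (h * ⟨x, hC.hRH hx⟩ * h⁻¹) ^ r = 1 := by
      rw [conj_pow]
      have h5 : x ^ r = 1 := by
        have h6 : (⟨x, hx⟩ : ↥R) ^ Nat.card ↥R = 1 := pow_card_eq_one'
        rw [hC.hR] at h6
        simpa using congrArg Subtype.val h6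
      have h7 : (⟨x, hC.hRH hx⟩ : ↥H) ^ r = 1 := Subtype.ext (by simpa using h5)
      rw [h7]; group
    have hmem := mem_zpowers_of_cyclic_rt hcyc hr (hP₁ (mem_zpowers _)) hxP₁ hzo hxr
    have hmemc : h * ⟨x, hC.hRH hx⟩ * h⁻¹ ∈ commutator ↥H := (zpowers_le.mpr hzc) hmem
    have hxc : (⟨x, hC.hRH hx⟩ : ↥H) ∈ commutator ↥H := by
      have h8 := (inferInstance : (commutator ↥H).Normal).conj_mem _ hmemc h⁻¹
      have e : h⁻¹ * (h * ⟨x, hC.hRH hx⟩ * h⁻¹) * h⁻¹⁻¹ = ⟨x, hC.hRH hx⟩ := by group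
      rwa [e] at h8
    exact mem_commutator_of_subtype hxc
  exact ⟨hr, h2, hrH, h4, h3⟩

end Cfsg.Agent.H62.BG134
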