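import Cfsg.Agent.H86.Ev2Defs
import Cfsg.Agent.H49.MinusForm
import Cfsg.Agent.H49.InvOmega

/-!
# EV2-BRM (helper62, for helper86): the polar form of `quadFormMinus n F a b` as a bilinear form;
the space is not of plus type.
-/

set_option autoImplicit false

namespace Cfsg.Agent.H62.Ev2

open Cfsg.Agent.H45 Cfsg.Agent.H42.Spd Cfsg.Agent.H42.Ti Cfsg.Agent.H14.Ot Cfsg.Agent.H95.Oh
  Cfsg.Agent.H86.Ev2 Module

universe u

/-- **EV2-BRM**. -/
theorem brM : StBrM.{u} := by
  intro F _ _ n a b h2 hab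
  have hd : a ^ 2 - 4 * b ≠ 0 := by
    intro h
    have h3 := hab (-a) 2 (by linear_combination -h)
    exact h2 h3.2
  have hQ : ∀ x, Cfsg.Agent.H49.QMin n F a b x = Cfsg.quadFormMinus n F a b x := fun x => rfl
  have hB : ∀ x y, QuadraticMap.polarBilin (Cfsg.Agent.H49.QMin n F a b) x y =
      QuadraticMap.polar (Cfsg.quadFormMinus n F a b) x y := by
    intro x y
    rw [QuadraticMap.polarBilin_apply_apply, Cfsg.Agent.H49.QMin_coe]
  have hsymm : ∀ x y, QuadraticMap.polarBilin (Cfsg.Agent.H49.QMin n F a b) x y =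
      QuadraticMap.polarBilin (Cfsg.Agent.H49.QMin n F a b) y x := by
    intro x y
    rw [QuadraticMap.polarBilin_apply_apply, QuadraticMap.polarBilin_apply_apply,
      QuadraticMap.polar_comm]
  have hself : ∀ x, QuadraticMap.polarBilin (Cfsg.Agent.H49.QMin n F a b) x x =
      2 * Cfsg.quadFormMinus n F a b x := by
    intro x
    rw [QuadraticMap.polarBilin_apply_apply, QuadraticMap.polar_self, hQ, two_smul, two_mul]
  refine ⟨QuadraticMap.polarBilin (Cfsg.Agent.H49.QMin n F a b), hB, hsymm, ?_, hself, ?_, ?_, ?_⟩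
  · intro x hx
    exact (Cfsg.Agent.H49.QMin_nondeg n a b hd).1 x hx
  · intro W
    constructor
    · intro hW
      rw [eq_bot_iff]
      rintro w ⟨hw1, hw2⟩
      rw [Submodule.mem_bot]
      by_contra hne
      obtain ⟨⟨x, hx, hxw⟩, -⟩ := hW w hw1 hne
      apply hxw
      rw [← hB]
      exact hw2 x hx
    · intro hW w hw hne
      have h1 : w ∉ perp (QuadraticMap.polarBilin (Cfsg.Agent.H49.QMin n F a b)) W := by
        intro h
        apply hne
        have h3 : w ∈ W ⊓ perp (QuadraticMap.polarBilin (Cfsg.Agent.H49.QMin n F a b)) W :=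
          ⟨hw, h⟩
        rw [hW] at h3
        exact (Submodule.mem_bot F).mp h3
      have h2' : ∃ u ∈ W, QuadraticMap.polarBilin (Cfsg.Agent.H49.QMin n F a b) u w ≠ 0 := by
        by_contra hcon
        apply h1
        intro u hu
        by_contra hne'
        exact hcon ⟨u, hu, hne'⟩
      obtain ⟨u, hu, huw⟩ := h2'
      refine ⟨⟨u, hu, ?_⟩, ⟨u, hu, ?_⟩⟩
      · rwa [← hB]
      · rwa [← hB, hsymm]
  · rintro ⟨U, -, hU, hdim⟩
    have hts : Cfsg.Agent.H49.IsTS (Cfsg.Agent.H49.QMin n F a b) U := by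
      intro w hw
      have h3 := hU w hw w hw
      rw [hself] at h3
      exact (mul_eq_zero.mp h3).resolve_left h2
    have hle := Cfsg.Agent.H49.QMin_ts_le n a b hab hd U hts
    rw [finrank_top, Cfsg.Agent.H49.finrank_minus] at hdim
    omega
  · intro g
    constructor
    · intro hg x y
      have hg' : ∀ u, Cfsg.quadFormMinus n F a b
          ((g : Matrix ((Fin n ⊕ Fin n) ⊕ Fin 2) ((Fin n ⊕ Fin n) ⊕ Fin 2) F).mulVec u) =
          Cfsg.quadFormMinus n F a b u := fun u => hg u u
      rw [hB, hB, Matrix.toLin'_apply, Matrix.toLin'_apply, QuadraticMap.polar, QuadraticMap.polar,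
        ← Matrix.mulVec_add, hg', hg', hg']
    · intro hg u v
      have h3 := hg u u
      rw [hself, hself, Matrix.toLin'_apply] at h3
      exact mul_left_cancel₀ h2 h3

end Cfsg.Agent.H62.Ev2
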