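import Cfsg.Agent.H86.Ev2Defs
import Cfsg.Agent.H62.OhDisc

/-!
# EV2-JGRAM (helper62, for helper86): if some isometry `x` has `x * x = -1`, the Gram determinant
of the polar form in the standard basis is a square.
-/

set_option autoImplicit false
set_option linter.unusedVariables false
set_option linter.unusedSimpArgs false

namespace Cfsg.Agent.H62.Ev2

open Cfsg.Agent.H45 Cfsg.Agent.H42.Spd Cfsg.Agent.H42.Ti Cfsg.Agent.H14.Ot Cfsg.Agent.H95.Oh
  Cfsg.Agent.H86.Ev2 Module

universe u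

/-- **EV2-JGRAM**. -/
theorem jGram (hP : StJPlanes.{u}) : StJGram.{u} := by
  intro F _ ι _ _ Q h2 hnd x hx hxx
  classical
  obtain ⟨n, v, hcard, hv, ho, -⟩ := hP F ι Q h2 hnd x hx hxx
  obtain ⟨β, hβ⟩ : ∃ β : LinearMap.BilinForm F (ι → F), β = QuadraticMap.polarBilin Q :=
    ⟨_, rfl⟩
  have hβa : ∀ a b, β a b = QuadraticMap.polar ⇑Q a b := by
    intro a b
    rw [hβ, QuadraticMap.polarBilin_apply_apply]
  have hiso : ∀ u, Q ((x : Matrix ι ι F).mulVec u) = Q u := fun u => hx u u
  have hpol : ∀ u w, QuadraticMap.polar ⇑Q ((x : Matrix ι ι F).mulVec u)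
      ((x : Matrix ι ι F).mulVec w) = QuadraticMap.polar ⇑Q u w := by
    intro u w
    rw [QuadraticMap.polar, QuadraticMap.polar, ← Matrix.mulVec_add, hiso, hiso, hiso]
  have hxx' : ∀ u, (x : Matrix ι ι F).mulVec ((x : Matrix ι ι F).mulVec u) = -u := by
    intro u
    rw [Matrix.mulVec_mulVec, hxx, Matrix.neg_mulVec, Matrix.one_mulVec]
  have hself : ∀ u, QuadraticMap.polar ⇑Q u ((x : Matrix ι ι F).mulVec u) = 0 := by
    intro u
    have h1 := hpol u ((x : Matrix ι ι F).mulVec u)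
    rw [hxx', QuadraticMap.polar_neg_right, QuadraticMap.polar_comm] at h1
    have h3 : (2 : F) * QuadraticMap.polar ⇑Q u ((x : Matrix ι ι F).mulVec u) = 0 := by
      linear_combination -h1
    exact (mul_eq_zero.mp h3).resolve_left h2
  obtain ⟨w, hw⟩ : ∃ w : Fin n ⊕ Fin n → (ι → F),
      w = Sum.elim v (fun j => (x : Matrix ι ι F).mulVec (v j)) := ⟨_, rfl⟩
  have hwl : ∀ j, w (Sum.inl j) = v j := by
    intro j
    rw [hw]
    rfl
  have hwr : ∀ j, w (Sum.inr j) = (x : Matrix ι ι F).mulVec (v j) := by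
    intro j
    rw [hw]
    rfl
  have hortho : ∀ a b, a ≠ b → β (w a) (w b) = 0 := by
    intro a b hab
    rw [hβa]
    rcases a with j | j <;> rcases b with k | k
    · rw [hwl, hwl]
      exact (ho j k (fun h => hab (by rw [h]))).1
    · rw [hwl, hwr]
      by_cases hjk : j = k
      · rw [hjk]
        exact hself _
      · exact (ho j k hjk).2
    · rw [hwl, hwr, QuadraticMap.polar_comm]
      by_cases hjk : k = j
      · rw [hjk]
        exact hself _
      · exact (ho k j hjk).2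
    · rw [hwr, hwr, hpol]
      exact (ho j k (fun h => hab (by rw [h]))).1
  have hdiag : ∀ a, β (w a) (w a) = 2 * Q (w a) := by
    intro a
    rw [hβa, QuadraticMap.polar_self, two_smul, two_mul]
  have hns : ∀ a, β (w a) (w a) ≠ 0 := by
    intro a
    rw [hdiag]
    rcases a with j | j
    · rw [hwl]
      exact mul_ne_zero h2 (hv j)
    · rw [hwr, hiso]
      exact mul_ne_zero h2 (hv j)
  have hli : LinearIndependent F w := Cfsg.Agent.H62.Oh.ortho_linInd β w hortho hns
  have hcard' : Fintype.card (Fin n ⊕ Fin n) = Module.finrank F (ι → F) := by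
    rw [Module.finrank_pi, Fintype.card_sum, Fintype.card_fin, hcard]
    ring
  have hsp : Submodule.span F (Set.range w) = ⊤ :=
    hli.span_eq_top_of_card_eq_finrank' hcard'
  obtain ⟨wb, hwb⟩ : ∃ wb : Module.Basis (Fin n ⊕ Fin n) F (ι → F), ∀ a, wb a = w a :=
    ⟨Module.Basis.mk hli hsp.ge, fun a => Module.Basis.mk_apply hli hsp.ge a⟩
  obtain ⟨d, hd, hdet⟩ := Cfsg.Agent.H62.Oh.gram_det_change β (Pi.basisFun F ι) wb
  have hstd : (Matrix.of fun i j => β (Pi.basisFun F ι i) (Pi.basisFun F ι j)) =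
      Matrix.of fun i j : ι =>
        QuadraticMap.polar ⇑Q (Pi.single i (1 : F)) (Pi.single j (1 : F)) := by
    ext i j
    rw [Matrix.of_apply, Matrix.of_apply, hβa, Pi.basisFun_apply, Pi.basisFun_apply]
  have hgw : (Matrix.of fun i j => β (wb i) (wb j)) =
      Matrix.diagonal (fun a => β (w a) (w a)) := by
    ext a b
    rw [Matrix.of_apply, hwb, hwb]
    by_cases hab : a = b
    · rw [hab, Matrix.diagonal_apply_eq]
    · rw [Matrix.diagonal_apply_ne _ hab]
      exact hortho a b hab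
  rw [hstd, hgw, Matrix.det_diagonal, Fintype.prod_sum_type] at hdet
  have hprod : (∏ j : Fin n, β (w (Sum.inr j)) (w (Sum.inr j))) =
      ∏ j : Fin n, β (w (Sum.inl j)) (w (Sum.inl j)) := by
    refine Finset.prod_congr rfl fun j _ => ?_
    rw [hdiag, hdiag, hwr, hwl, hiso]
  rw [hprod] at hdet
  rw [← Cfsg.Agent.H49.isSquare_sq_mul_iff hd, ← hdet]
  exact ⟨_, rfl⟩

end Cfsg.Agent.H62.Ev2
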