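import Mathlib
import Cfsg.Agent.H34.ThDefs

/-!
helper62: piece TH-REALPD of helper34's project S1632.  An integral symmetric matrix of
determinant 1, positive on nonzero integer vectors, is positive definite over the reals.
-/

set_option autoImplicit false
set_option linter.style.haveILetI false
set_option linter.unusedVariables false
set_option linter.unusedSimpArgs false

namespace Cfsg.Agent.H62.Th

open Real Matrix Cfsg.Agent.H34.Th

theorem realPD : StRealPD := by
  intro n B hsym hpos hdet x hx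
  classical
  obtain ⟨BR, hBR⟩ : ∃ BR : Matrix (Fin n) (Fin n) ℝ, BR = B.map (Int.cast : ℤ → ℝ) :=
    ⟨_, rfl⟩
  rw [← hBR]
  have hBRsym : BR.IsSymm := by
    rw [hBR]
    exact hsym.map _
  have hint : ∀ z : Fin n → ℤ, (fun i => (z i : ℝ)) ⬝ᵥ (BR *ᵥ (fun i => (z i : ℝ))) =
      ((z ⬝ᵥ (B *ᵥ z) : ℤ) : ℝ) := by
    intro z
    rw [hBR]
    simp only [dotProduct, Matrix.mulVec, Matrix.map_apply]
    push_cast
    rfl
  have hintnn : ∀ z : Fin n → ℤ, 0 ≤ (fun i => (z i : ℝ)) ⬝ᵥ (BR *ᵥ (fun i => (z i : ℝ))) := by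
    intro z
    rw [hint]
    by_cases hz : z = 0
    · subst hz
      simp
    · exact_mod_cast (hpos z hz).le
  have hhom : ∀ (c : ℝ) (y : Fin n → ℝ),
      (c • y) ⬝ᵥ (BR *ᵥ (c • y)) = c ^ 2 * (y ⬝ᵥ (BR *ᵥ y)) := by
    intro c y
    rw [Matrix.mulVec_smul, smul_dotProduct, dotProduct_smul, smul_eq_mul, smul_eq_mul]
    ring
  have hrat : ∀ y : Fin n → ℚ, 0 ≤ (fun i => (y i : ℝ)) ⬝ᵥ (BR *ᵥ (fun i => (y i : ℝ))) := by
    intro y
    obtain ⟨N, hN⟩ : ∃ N : ℕ, N = ∏ i, (y i).den := ⟨_, rfl⟩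
    have hN0 : 0 < N := by
      rw [hN]
      exact Finset.prod_pos (fun i _ => (y i).den_pos)
    obtain ⟨z, hz⟩ : ∃ z : Fin n → ℤ, ∀ i, ((z i : ℤ) : ℝ) = (N : ℝ) * (y i : ℝ) := by
      refine ⟨fun i => (y i).num * ∏ j ∈ Finset.univ.erase i, ((y j).den : ℤ), fun i => ?_⟩
      have h1 : ((y i : ℚ) : ℝ) = ((y i).num : ℝ) / ((y i).den : ℝ) := by
        have := Rat.num_div_den (y i)
        exact_mod_cast congrArg (fun r : ℚ => (r : ℝ)) this.symm
      have h2 : (N : ℝ) = ((y i).den : ℝ) * ∏ j ∈ Finset.univ.erase i, ((y j).den : ℝ) := by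
        rw [hN]
        push_cast
        exact (Finset.mul_prod_erase Finset.univ (fun j => ((y j).den : ℝ))
          (Finset.mem_univ i)).symm
      have hd : ((y i).den : ℝ) ≠ 0 := by
        exact_mod_cast (y i).den_ne_zero
      rw [h1, h2]
      push_cast
      field_simp
    have h3 := hintnn z
    have h4 : (fun i => ((z i : ℤ) : ℝ)) = (N : ℝ) • (fun i => (y i : ℝ)) := by
      funext i
      rw [hz]
      rfl
    rw [h4, hhom] at h3
    have hN2 : (0 : ℝ) < (N : ℝ) ^ 2 := by positivity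
    exact nonneg_of_mul_nonneg_right h3 hN2
  have hcont : Continuous (fun y : Fin n → ℝ => y ⬝ᵥ (BR *ᵥ y)) := by
    simp only [dotProduct, Matrix.mulVec]
    fun_prop
  have hnn : ∀ y : Fin n → ℝ, 0 ≤ y ⬝ᵥ (BR *ᵥ y) := by
    intro y
    have hd : DenseRange (Pi.map (fun (_ : Fin n) (r : ℚ) => (r : ℝ))) :=
      DenseRange.piMap (fun _ => Rat.denseRange_cast)
    exact hd.induction_on (p := fun y => 0 ≤ y ⬝ᵥ (BR *ᵥ y)) y
      (isClosed_le continuous_const hcont) (fun q => hrat q)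
  have hpsd : BR.PosSemidef :=
    Matrix.PosSemidef.of_dotProduct_mulVec_nonneg
      (by
        rw [Matrix.IsHermitian, Matrix.conjTranspose_eq_transpose_of_trivial]
        exact hBRsym)
      (fun y => by
        rw [star_trivial]
        exact hnn y)
  have hdetR : BR.det ≠ 0 := by
    have h1 : BR.det = ((B.det : ℤ) : ℝ) := by
      rw [hBR]
      exact (RingHom.map_det (Int.castRingHom ℝ) B).symm
    rw [h1, hdet]
    norm_num
  rcases (hnn x).lt_or_eq with h | h
  · exact h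
  · exfalso
    have h0 : BR *ᵥ x = 0 := (hpsd.dotProduct_mulVec_zero_iff x).mp (by
      rw [star_trivial]
      exact h.symm)
    exact hx (Matrix.eq_zero_of_mulVec_eq_zero hdetR h0)

example : StRealPD := realPD

end Cfsg.Agent.H62.Th
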