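import Mathlib
import Cfsg.Agent.H48.SPCDefs

/-!
# SPC-RAD (helper62): a unipotent element of the commutant of `N` is a square of a power of itself
-/

set_option autoImplicit false
set_option linter.style.haveILetI false
set_option linter.unusedSimpArgs false
set_option linter.unusedSectionVars false
set_option linter.unusedVariables false

namespace Cfsg.Agent.H62.SPC

open Finset Cfsg.Agent.H61 Cfsg.Agent.H48.SPC

universe u

/-- a matrix which strictly raises a label is nilpotent. -/
theorem pow_card_eq_zero_of_strict {ι α : Type*} [Fintype ι] [DecidableEq ι] [LinearOrder α]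
    {R : Type*} [Field R] (M : Matrix ι ι R) (b : ι → α) (hM : ∀ i j, M i j ≠ 0 → b i < b j) :
    M ^ (Fintype.card ι) = 0 := by
  classical
  have hQ : ∀ k : ℕ, ∀ i j, (M ^ k) i j ≠ 0 → b i ≤ b j := by
    intro k
    induction k with
    | zero =>
      intro i j h
      rw [pow_zero, Matrix.one_apply] at h
      by_cases hij : i = j
      · rw [hij]
      · rw [if_neg hij] at h
        exact absurd rfl h
    | succ k ih =>
      intro i j h
      rw [pow_succ', Matrix.mul_apply] at h
      obtain ⟨x, -, hx⟩ := Finset.exists_ne_zero_of_sum_ne_zero h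
      have h1 : M i x ≠ 0 := left_ne_zero_of_mul hx
      have h2 : (M ^ k) x j ≠ 0 := right_ne_zero_of_mul hx
      exact (hM i x h1).le.trans (ih x j h2)
  have hP : ∀ k : ℕ, ∀ i j, (M ^ k) i j ≠ 0 →
      k ≤ (Finset.univ.filter (fun y => b i < b y ∧ b y ≤ b j)).card := by
    intro k
    induction k with
    | zero =>
      intro i j _
      exact Nat.zero_le _
    | succ k ih =>
      intro i j h
      rw [pow_succ', Matrix.mul_apply] at h
      obtain ⟨x, -, hx⟩ := Finset.exists_ne_zero_of_sum_ne_zero h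
      have h1 : M i x ≠ 0 := left_ne_zero_of_mul hx
      have h2 : (M ^ k) x j ≠ 0 := right_ne_zero_of_mul hx
      have h3 := ih x j h2
      have h4 := hM i x h1
      have h5 := hQ k x j h2
      have hsub : insert x (Finset.univ.filter (fun y => b x < b y ∧ b y ≤ b j)) ⊆
          Finset.univ.filter (fun y => b i < b y ∧ b y ≤ b j) := by
        intro y hy
        rw [Finset.mem_insert] at hy
        rw [Finset.mem_filter]
        rcases hy with rfl | hy
        · exact ⟨Finset.mem_univ _, h4, h5⟩
        · rw [Finset.mem_filter] at hy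
          exact ⟨Finset.mem_univ _, h4.trans hy.2.1, hy.2.2⟩
      have hcard := Finset.card_le_card hsub
      have hnot : x ∉ Finset.univ.filter (fun y => b x < b y ∧ b y ≤ b j) := by
        rw [Finset.mem_filter]
        rintro ⟨-, h6, -⟩
        exact lt_irrefl _ h6
      rw [Finset.card_insert_of_notMem hnot] at hcard
      omega
  ext i j
  by_contra h
  rw [Matrix.zero_apply] at h
  have h1 := hP _ i j h
  have h2 : (Finset.univ.filter (fun y => b i < b y ∧ b y ≤ b j)).card < Fintype.card ι := by
    rw [← Finset.card_univ]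
    apply Finset.card_lt_card
    rw [Finset.ssubset_iff_of_subset (Finset.filter_subset _ _)]
    refine ⟨i, Finset.mem_univ _, ?_⟩
    rw [Finset.mem_filter]
    rintro ⟨-, h6, -⟩
    exact lt_irrefl _ h6
  omega

/-- an element of the commutant of `N` with zero diagonal blocks is nilpotent. -/
theorem comm_nilpotent {F : Type u} [Field F] {t : ℕ} (d : Fin t → ℕ) (hd : ∀ k, 1 ≤ d k)
    (g : Matrix (JI d) (JI d) F) (hg : g * jordanNil d F = jordanNil d F * g)
    (h0 : ∀ x y : JI d, d x.1 = d y.1 → g (jtop hd x.1) (jtop hd y.1) = 0) :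
    g ^ (Fintype.card (JI d)) = 0 := by
  classical
  have hD : ∀ k, d k ≤ univ.sup d := fun k => Finset.le_sup (Finset.mem_univ k)
  apply pow_card_eq_zero_of_strict g (jlabel (univ.sup d))
  intro x y hxy
  have h1 := comm_blockTriangular hd g hg (univ.sup d) hD
  have h2 : ¬ jlabel (univ.sup d) y < jlabel (univ.sup d) x := fun h => hxy (h1 h)
  have h3 : jlabel (univ.sup d) x ≠ jlabel (univ.sup d) y := by
    intro h
    obtain ⟨h4, h5⟩ := (jlabel_eq_iff (univ.sup d) hD x y).mp h
    apply hxy
    rw [comm_apply_eq hd g hg x y, if_pos (le_of_eq h5.symm)]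
    have h6 : jsub x y.2.val = jtop hd x.1 := by
      rw [JI_ext_iff]
      simp only [jsub_fst, jsub_snd, jtop_fst, jtop_snd, true_and]
      omega
    rw [h6]
    exact h0 x y h4
  exact lt_of_le_of_ne (not_lt.mp h2) h3

theorem rad : RadStmt.{u} := by
  intro F _ _ p _ _ hp2 t d hd h hh hdiag
  classical
  rcases isEmpty_or_nonempty (JI d) with hE | hN
  · exact ⟨0, Subsingleton.elim _ _⟩
  · have hg : (h - 1) * jordanNil d F = jordanNil d F * (h - 1) := by
      rw [sub_mul, mul_sub, hh, one_mul, mul_one]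
    have hD : ∀ k, d k ≤ univ.sup d := fun k => Finset.le_sup (Finset.mem_univ k)
    have h0 : ∀ x y : JI d, d x.1 = d y.1 → (h - 1) (jtop hd x.1) (jtop hd y.1) = 0 := by
      intro x y hxy
      have h1 := hdiag ⟨d x.1, Nat.lt_succ_of_le (hD x.1)⟩
      have h2 := congrFun (congrFun h1 ⟨x.1, rfl⟩) ⟨y.1, hxy.symm⟩
      simp only [diagBlock, Matrix.of_apply] at h2
      rw [Matrix.sub_apply, h2, Matrix.one_apply, Matrix.one_apply]
      by_cases hk : x.1 = y.1
      · rw [if_pos (Subtype.ext hk), if_pos (by rw [JI_ext_iff]; exact ⟨hk, rfl⟩), sub_self]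
      · rw [if_neg (fun hh' => hk (congrArg Subtype.val hh')),
          if_neg (fun hh' => hk ((JI_ext_iff (jtop hd x.1) (jtop hd y.1)).mp hh').1), sub_self]
    have hnil := comm_nilpotent d hd (h - 1) hg h0
    obtain ⟨n, hn⟩ : ∃ n, n = Fintype.card (JI d) := ⟨_, rfl⟩
    rw [← hn] at hnil
    have hp : p.Prime := Fact.out
    haveI : CharP (Matrix (JI d) (JI d) F) p := Matrix.charP p
    have h1 : (h - 1) ^ (p ^ n) = h ^ (p ^ n) - 1 := by
      rw [sub_pow_char_pow_of_commute p n (Commute.one_right h), one_pow]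
    have h2 : (h - 1) ^ (p ^ n) = 0 := by
      have h3 : n ≤ p ^ n := (Nat.lt_pow_self hp.one_lt).le
      obtain ⟨c, hc⟩ := Nat.exists_eq_add_of_le h3
      rw [hc, pow_add, hnil, zero_mul]
    have h4 : h ^ (p ^ n) = 1 := by
      rw [h2] at h1
      exact (sub_eq_zero.mp h1.symm)
    have hodd : Odd (p ^ n) := (hp.odd_of_ne_two hp2).pow
    obtain ⟨j, hj⟩ := hodd
    refine ⟨j + 1, ?_⟩
    have h5 : 2 * (j + 1) = p ^ n + 1 := by omega
    rw [h5, pow_succ, h4, one_mul]

end Cfsg.Agent.H62.SPC
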