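import Mathlib
import Cfsg.Agent.H48.SPCDefs
import Cfsg.Agent.H48.JordanType
import Cfsg.Agent.H97.Nilp

/-!
SPC-TYPE (helper62, for helper48's S2676 project): a matrix is similar to the reindexed
Cayley-Jordan matrix iff the ranks of the powers of its unipotent part are those of the Jordan
type `d`.
-/

set_option autoImplicit false
set_option linter.style.haveILetI false
set_option linter.unusedSimpArgs false
set_option linter.unusedSectionVars false
set_option linter.unusedVariables false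

namespace Cfsg.Agent.H62.SPC

open Finset Cfsg.Agent.H61 Cfsg.Agent.H48.SPC

universe u

section aux

variable {F : Type u} [Field F] {t : ℕ} (d : Fin t → ℕ)

theorem jordanNil_pow_sup : jordanNil d F ^ (univ.sup d) = 0 := by
  ext x y
  have h := mul_jordanNil_pow_apply (1 : Matrix (JI d) (JI d) F) (univ.sup d) x y
  rw [one_mul] at h
  rw [h, dif_neg]
  · rfl
  · have : d y.1 ≤ univ.sup d := Finset.le_sup (f := d) (mem_univ y.1)
    omega

theorem rank_jordanNil_pow (k : ℕ) : (jordanNil d F ^ k).rank = ∑ i, (d i - k) := by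
  have h1 := Cfsg.Agent.H48.finrank_ker_jordanType_pow (F := F) d k
  rw [jordanTypeMatrix_eq, add_sub_cancel_left] at h1
  have h2 := LinearMap.finrank_range_add_finrank_ker ((Matrix.toLin' (jordanNil d F)) ^ k)
  rw [h1, Module.finrank_fintype_fun_eq_card] at h2
  have h3 : Module.finrank F (LinearMap.range ((Matrix.toLin' (jordanNil d F)) ^ k))
      = (jordanNil d F ^ k).rank := by
    rw [← Matrix.toLin'_pow, Matrix.toLin'_apply']
    rfl
  have h4 : Fintype.card (JI d) = ∑ i, d i := by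
    simp [JI]
  rw [h3, h4] at h2
  have h5 : ∑ i, d i = ∑ i, (d i - k) + ∑ i, min k (d i) := by
    rw [← Finset.sum_add_distrib]
    refine Finset.sum_congr rfl fun i _ => ?_
    omega
  omega

theorem cayleyJ_sub_one (h2 : (2 : F) ≠ 0) :
    ∃ V : Matrix (JI d) (JI d) F, IsUnit V.det ∧ Commute (jordanNil d F) V ∧
      cayleyJ F d - 1 = jordanNil d F * V := by
  obtain ⟨N, hNdef⟩ : ∃ N, N = jordanNil d F := ⟨_, rfl⟩
  have hN : N ^ (univ.sup d) = 0 := by rw [hNdef]; exact jordanNil_pow_sup d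
  obtain ⟨U, hUdef⟩ : ∃ U, U = ∑ j ∈ range (univ.sup d), N ^ j := ⟨_, rfl⟩
  have hU : (1 - N) * U = 1 := by
    have := mul_neg_geom_sum N (univ.sup d)
    rw [hUdef, this, hN, sub_zero]
  have hinv : (1 - N)⁻¹ = U := Matrix.inv_eq_right_inv hU
  have hcomm : Commute N U := by
    rw [hUdef]
    apply Commute.sum_right
    intro j _
    exact (Commute.pow_right (Commute.refl N) j)
  have hU' : U * (1 - N) = 1 := by
    have hc : Commute (1 - N) U := (Commute.one_left U).sub_left hcomm
    rw [← hc.eq, hU]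
  rw [← hNdef]
  refine ⟨(2 : F) • U, ?_, ?_, ?_⟩
  · apply Matrix.isUnit_det_of_right_inverse (B := (2 : F)⁻¹ • (1 - N))
    rw [Matrix.smul_mul, Matrix.mul_smul, smul_smul, mul_inv_cancel₀ h2, one_smul, hU']
  · exact hcomm.smul_right (2 : F)
  · unfold cayleyJ
    rw [← hNdef, hinv]
    have h1 : (1 + N) * U - 1 = (1 + N) * U - (1 - N) * U := by rw [hU]
    rw [h1, ← sub_mul]
    have h3 : (1 + N) - (1 - N) = (2 : F) • N := by
      rw [two_smul]
      abel
    rw [h3, Matrix.smul_mul, Matrix.mul_smul]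

theorem rank_cayleyJ_sub_one_pow (h2 : (2 : F) ≠ 0) (k : ℕ) :
    ((cayleyJ F d - 1) ^ k).rank = ∑ i, (d i - k) := by
  obtain ⟨V, hV, hc, he⟩ := cayleyJ_sub_one d h2
  rw [he, hc.mul_pow,
    Matrix.rank_mul_eq_left_of_isUnit_det _ _ (by rw [Matrix.det_pow]; exact hV.pow k)]
  exact rank_jordanNil_pow d k

theorem cayleyJ_sub_one_nilp (h2 : (2 : F) ≠ 0) : (cayleyJ F d - 1) ^ (univ.sup d) = 0 := by
  obtain ⟨V, hV, hc, he⟩ := cayleyJ_sub_one d h2
  rw [he, hc.mul_pow, jordanNil_pow_sup, zero_mul]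

theorem reindex_sub_one_pow {ι ι' : Type*} [Fintype ι] [Fintype ι'] [DecidableEq ι]
    [DecidableEq ι'] (e : ι ≃ ι') (A : Matrix ι ι F) (k : ℕ) :
    (Matrix.reindex e e A - 1) ^ k = Matrix.reindex e e ((A - 1) ^ k) := by
  have h := map_pow (Matrix.reindexAlgEquiv F F e) (A - 1) k
  rw [Matrix.coe_reindexAlgEquiv] at h
  rw [h]
  congr 1
  simp [Matrix.reindex_apply, Matrix.submatrix_sub]

theorem reindex_mul_eq {ι ι' : Type*} [Fintype ι] [Fintype ι'] [DecidableEq ι]
    [DecidableEq ι'] (e : ι ≃ ι') (A B : Matrix ι ι F) :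
    Matrix.reindex e e (A * B) = Matrix.reindex e e A * Matrix.reindex e e B := by
  simp [Matrix.reindex_apply, Matrix.submatrix_mul_equiv]

end aux

theorem typ : TypeStmt.{u} := by
  intro F _ h2 m t d e g
  obtain ⟨M, hM⟩ : ∃ M, M = Matrix.reindex e e (cayleyJ F d) := ⟨_, rfl⟩
  rw [← hM]
  have hMk : ∀ k, (M - 1) ^ k = Matrix.reindex e e ((cayleyJ F d - 1) ^ k) := by
    intro k
    rw [hM]
    exact reindex_sub_one_pow e _ k
  have hrank : ∀ k, ((M - 1) ^ k).rank = ∑ i, (d i - k) := by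
    intro k
    rw [hMk, Matrix.rank_reindex]
    exact rank_cayleyJ_sub_one_pow d h2 k
  constructor
  · rintro ⟨P, hP, hPM⟩ k
    have h1 : P * (M - 1) = (g - 1) * P := by rw [mul_sub, sub_mul, hPM, mul_one, one_mul]
    have h2' : P * (M - 1) ^ k = (g - 1) ^ k * P := by
      induction k with
      | zero => simp
      | succ k ih => rw [pow_succ, ← mul_assoc, ih, mul_assoc, h1, ← mul_assoc, ← pow_succ]
    have hu : IsUnit P.det := isUnit_iff_ne_zero.mpr hP
    rw [← hrank k, ← Matrix.rank_mul_eq_left_of_isUnit_det P ((g - 1) ^ k) hu, ← h2',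
      Matrix.rank_mul_eq_right_of_isUnit_det P _ hu]
  · intro hg
    obtain ⟨f, -⟩ : ∃ f : Fin m ⊕ Fin m ≃ Fin (m + m), f = finSumFinEquiv := ⟨_, rfl⟩
    have hA : ∃ j, (Matrix.reindex f f M - 1) ^ j = 0 := by
      refine ⟨univ.sup d, ?_⟩
      rw [reindex_sub_one_pow, hMk, cayleyJ_sub_one_nilp d h2]
      simp
    have hAB : ∀ k, ((Matrix.reindex f f M - 1) ^ k).rank
        = ((Matrix.reindex f f g - 1) ^ k).rank := by
      intro k
      rw [reindex_sub_one_pow, reindex_sub_one_pow, Matrix.rank_reindex, Matrix.rank_reindex,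
        hrank, hg]
    obtain ⟨P, Q, hPQ, hQP, hPA⟩ := Cfsg.Agent.H97.Nilp.mat_conj_of_rank _ _ hA hAB
    have hPA' : P * Matrix.reindex f f M = Matrix.reindex f f g * P := by
      rw [mul_sub, sub_mul, mul_one, one_mul] at hPA
      exact sub_left_injective hPA
    refine ⟨Matrix.reindex f.symm f.symm P, ?_, ?_⟩
    · have hdet : P.det * Q.det = 1 := by rw [← Matrix.det_mul, hPQ, Matrix.det_one]
      rw [Matrix.reindex_apply, Matrix.det_submatrix_equiv_self]
      exact left_ne_zero_of_mul_eq_one hdet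
    · have h3 := congrArg (Matrix.reindex f.symm f.symm) hPA'
      rw [reindex_mul_eq, reindex_mul_eq] at h3
      have h4 : ∀ X : Matrix (Fin m ⊕ Fin m) (Fin m ⊕ Fin m) F,
          Matrix.reindex f.symm f.symm (Matrix.reindex f f X) = X := by
        intro X
        ext i j
        simp [Matrix.reindex_apply]
      rw [h4, h4] at h3
      exact h3

end Cfsg.Agent.H62.SPC
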