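import Mathlib
import Cfsg.Agent.H38.BG161Defs

/-!
S1421-FIXSC (helper62, for helper38's S1421 project): under (I), an element of `N_G(S)`
normalizing one subgroup of order `p` of `A` acts on `A` as a power map.
-/

set_option autoImplicit false
set_option linter.unusedVariables false
set_option linter.style.haveILetI false

namespace Cfsg.Agent.H62.BG161

open Cfsg Subgroup Cfsg.Agent.H38.BG161

universe u

variable {G : Type u} [Group G]

/-- an element conjugating a finite subgroup into itself normalizes it. -/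
theorem mem_normalizer_of_conj_mem' [Finite G] {X : Subgroup G} {v : G}
    (h : ∀ y ∈ X, v * y * v⁻¹ ∈ X) : v ∈ normalizer (X : Set G) := by
  rw [mem_normalizer_iff]
  intro y
  refine ⟨h y, fun hy => ?_⟩
  have hinj : Function.Injective (fun y : X => (⟨v * y * v⁻¹, h y y.2⟩ : X)) := by
    intro a b hab
    have h1 : v * (a : G) * v⁻¹ = v * (b : G) * v⁻¹ := congrArg Subtype.val hab
    apply Subtype.ext
    have h2 : v⁻¹ * (v * (a : G) * v⁻¹) * v = v⁻¹ * (v * (b : G) * v⁻¹) * v := by rw [h1]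
    simpa [mul_assoc] using h2
  obtain ⟨y', hy'⟩ := (Finite.injective_iff_surjective.mp hinj) ⟨v * y * v⁻¹, hy⟩
  have h1 : v * (y' : G) * v⁻¹ = v * y * v⁻¹ := congrArg Subtype.val hy'
  have h2 : (y' : G) = y := by
    have h3 : v⁻¹ * (v * (y' : G) * v⁻¹) * v = v⁻¹ * (v * y * v⁻¹) * v := by rw [h1]
    simpa [mul_assoc] using h3
  rw [← h2]
  exact y'.2

theorem fixsc [Finite G] (hG : IsMinSimpleOddOrder G) (hW : StWAb G) (hB : StBasic G) :
    StFixScalar G := by
  intro M E S A p _ hS hI w hw X hXA hXp hwX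
  have hp : p.Prime := Fact.out
  obtain ⟨-, -, -, hNA, -, -⟩ := hB M E S A p hS
  have hcomm : ∀ a ∈ A, ∀ b ∈ A, a * b = b * a := by
    intro a ha b hb
    exact congrArg Subtype.val (hS.elem.1.is_comm.comm ⟨a, ha⟩ ⟨b, hb⟩)
  -- a generator of `X`
  haveI : Fact (1 < Nat.card X) := ⟨by rw [hXp]; exact hp.one_lt⟩
  haveI : Nontrivial X := Finite.one_lt_card_iff_nontrivial.mp (by rw [hXp]; exact hp.one_lt)
  obtain ⟨⟨x, hxX⟩, hx1⟩ := exists_ne (1 : X)
  have hx1' : x ≠ 1 := fun h => hx1 (Subtype.ext h)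
  have hxA : x ∈ A := hXA hxX
  have hzX : zpowers x = X := by
    apply Subgroup.eq_of_le_of_card_ge (by rw [zpowers_le]; exact hxX)
    rw [Nat.card_zpowers, hXp]
    have h1 : orderOf x ∣ p := orderOf_dvd_of_pow_eq_one (hS.elem.2 x hxA)
    rcases (Nat.dvd_prime hp).mp h1 with h2 | h2
    · exact absurd (orderOf_eq_one_iff.mp h2) hx1'
    · rw [h2]
  -- the exponent `l`
  have hwx : w * x * w⁻¹ ∈ zpowers x := by
    rw [hzX]; exact (mem_normalizer_iff.mp hwX x).mp hxX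
  have hfin : IsOfFinOrder x := isOfFinOrder_of_finite x
  rw [← hfin.mem_powers_iff_mem_zpowers] at hwx
  obtain ⟨l, hl⟩ := hwx
  have hl' : w * x * w⁻¹ = x ^ l := hl.symm
  refine ⟨l, ?_⟩
  -- an element `v` of the normalizer of `S` moving `X`
  have hnot := hI X hXA hXp
  rw [SetLike.not_le_iff_exists] at hnot
  obtain ⟨v, hv, hvX⟩ := hnot
  have hx' : v * x * v⁻¹ ∉ X := by
    intro hmem
    apply hvX
    apply mem_normalizer_of_conj_mem'
    intro y hy
    rw [← hzX] at hy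
    obtain ⟨i, rfl⟩ := hy
    have e : v * x ^ i * v⁻¹ = (v * x * v⁻¹) ^ i := by
      rw [conj_zpow]
    rw [e]
    exact X.zpow_mem hmem i
  have hx'A : v * x * v⁻¹ ∈ A := (mem_normalizer_iff.mp (hNA hv) x).mp hxA
  -- `w` acts on `x'` as the `l`-th power
  have hc : w * v * w⁻¹ * v⁻¹ ∈ centralizer (S : Set G) := hW M E S A p hS w hw v hv
  have hx'l : w * (v * x * v⁻¹) * w⁻¹ = (v * x * v⁻¹) ^ l := by
    obtain ⟨c, hcdef⟩ : ∃ c, c = w * v * w⁻¹ * v⁻¹ := ⟨_, rfl⟩
    rw [← hcdef] at hc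
    have hwv : w * v = c * v * w := by rw [hcdef]; group
    have hxlS : (v * x * v⁻¹) ^ l ∈ (S : Set G) := hS.AS (A.pow_mem hx'A l)
    have hcc : (v * x * v⁻¹) ^ l * c = c * (v * x * v⁻¹) ^ l := mem_centralizer_iff.mp hc _ hxlS
    calc w * (v * x * v⁻¹) * w⁻¹ = (w * v) * x * (w * v)⁻¹ := by group
      _ = (c * v * w) * x * (c * v * w)⁻¹ := by rw [hwv]
      _ = c * (v * (w * x * w⁻¹) * v⁻¹) * c⁻¹ := by group
      _ = c * (v * x ^ l * v⁻¹) * c⁻¹ := by rw [hl']
      _ = c * (v * x * v⁻¹) ^ l * c⁻¹ := by rw [conj_pow]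
      _ = (v * x * v⁻¹) ^ l * c * c⁻¹ := by rw [hcc]
      _ = (v * x * v⁻¹) ^ l := by group
  -- the subgroup of `A` on which `w` acts as the `l`-th power
  let B : Subgroup G :=
    { carrier := {a | a ∈ A ∧ w * a * w⁻¹ = a ^ l}
      one_mem' := ⟨A.one_mem, by simp⟩
      mul_mem' := by
        rintro a b ⟨ha, ha'⟩ ⟨hb, hb'⟩
        refine ⟨A.mul_mem ha hb, ?_⟩
        have e : w * (a * b) * w⁻¹ = (w * a * w⁻¹) * (w * b * w⁻¹) := by group
        rw [e, ha', hb', (show Commute a b from hcomm a ha b hb).mul_pow]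
      inv_mem' := by
        rintro a ⟨ha, ha'⟩
        refine ⟨A.inv_mem ha, ?_⟩
        have e : w * a⁻¹ * w⁻¹ = (w * a * w⁻¹)⁻¹ := by group
        rw [e, ha', inv_pow] }
  have hBA : B ≤ A := fun a ha => ha.1
  have hxB : x ∈ B := ⟨hxA, hl'⟩
  have hx'B : v * x * v⁻¹ ∈ B := ⟨hx'A, hx'l⟩
  have hXB : X ≤ B := by rw [← hzX, zpowers_le]; exact hxB
  have hBcard : Nat.card B = p ^ 2 := by
    have h1 : Nat.card B ∣ p ^ 2 := by rw [← hS.card]; exact Subgroup.card_dvd_of_le hBA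
    have h2 : p ∣ Nat.card B := by rw [← hXp]; exact Subgroup.card_dvd_of_le hXB
    obtain ⟨m, hm, hmeq⟩ := (Nat.dvd_prime_pow hp).mp h1
    have hm2 : m = 0 ∨ m = 1 ∨ m = 2 := by omega
    rcases hm2 with rfl | rfl | rfl
    · rw [hmeq, pow_zero] at h2
      exact absurd (Nat.dvd_one.mp h2) hp.one_lt.ne'
    · exfalso
      apply hx'
      have hXeqB : X = B := by
        apply Subgroup.eq_of_le_of_card_ge hXB
        rw [hmeq, hXp, pow_one]
      rw [hXeqB]
      exact hx'B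
    · exact hmeq
  have hBeq : B = A := by
    apply Subgroup.eq_of_le_of_card_ge hBA
    rw [hBcard, hS.card]
  intro a ha
  rw [← hBeq] at ha
  exact ha.2

end Cfsg.Agent.H62.BG161
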