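import Mathlib
import Cfsg.Agent.H38.BG161Defs

/-!
S1421-HT2 (helper62, for helper38's S1421 project): for two primes `p ≠ q` of `τ₂(M)` in Case B,
every `q`-element of `E` centralizes the Sylow `p`-subgroup `S`.
-/

set_option autoImplicit false
set_option linter.unusedVariables false

namespace Cfsg.Agent.H62.BG161

open Cfsg Subgroup Cfsg.Agent.H38.BG161

universe u

variable {G : Type u} [Group G]

/-- a `q`-element normalizing a Sylow `q`-subgroup lies in it. -/
theorem mem_sylow_of_normalizes {q : ℕ} [Fact q.Prime] (P : Sylow q G) {e : G}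
    (he : ∃ k : ℕ, orderOf e = q ^ k) (hn : e ∈ normalizer ((P : Subgroup G) : Set G)) :
    e ∈ (P : Subgroup G) := by
  obtain ⟨k, hk⟩ := he
  have hp : IsPGroup q ↥(zpowers e) := IsPGroup.of_card (n := k) (by rw [Nat.card_zpowers, hk])
  have h1 : e ∈ zpowers e ⊓ normalizer (P : Set G) :=
    ⟨mem_zpowers e, hn⟩
  rw [hp.inf_normalizer_sylow P] at h1
  exact h1.2

theorem ht2 [Finite G] (hG : IsMinSimpleOddOrder G) : StHT2 G := by
  intro M E S A S' A' p q _ _ hS hS' hqp e heE hek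
  obtain ⟨P, hP⟩ := hS.syl
  obtain ⟨P', hP'⟩ := hS'.syl
  have heS' : e ∈ S' := by
    rw [← hP']
    apply mem_sylow_of_normalizes P' hek
    rw [hP']
    exact hS'.norm heE
  have hSp : IsPGroup p ↥S := by rw [← hP]; exact P.isPGroup'
  have hS'q : IsPGroup q ↥S' := by rw [← hP']; exact P'.isPGroup'
  have hdisj : Disjoint S S' := IsPGroup.disjoint_of_ne p q (Ne.symm hqp) S S' hSp hS'q
  rw [mem_centralizer_iff]
  intro s hs
  have hsS : s ∈ S := hs
  have heN : e ∈ normalizer (S : Set G) := hS.norm heE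
  have hsN : s ∈ normalizer (S' : Set G) := hS'.norm (hS.le hsS)
  have h1 : e * s * e⁻¹ ∈ S := (mem_normalizer_iff.mp heN s).mp hsS
  have h2 : s * e⁻¹ * s⁻¹ ∈ S' := (mem_normalizer_iff.mp hsN e⁻¹).mp (S'.inv_mem heS')
  have h3 : e * s * e⁻¹ * s⁻¹ ∈ S := S.mul_mem h1 (S.inv_mem hsS)
  have h4 : e * s * e⁻¹ * s⁻¹ ∈ S' := by
    have : e * s * e⁻¹ * s⁻¹ = e * (s * e⁻¹ * s⁻¹) := by group
    rw [this]
    exact S'.mul_mem heS' h2
  have h5 : e * s * e⁻¹ * s⁻¹ = 1 := by
    have := hdisj.le_bot (show e * s * e⁻¹ * s⁻¹ ∈ S ⊓ S' from ⟨h3, h4⟩)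
    exact this
  have h6 : e * s = s * e := by
    have : e * s = (e * s * e⁻¹ * s⁻¹) * (s * e) := by group
    rw [this, h5, one_mul]
  exact h6.symm

end Cfsg.Agent.H62.BG161
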