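import Mathlib
import Cfsg.Agent.H28.Coprime
import Cfsg.Agent.H62.BG161FixSc

/-!
S1421-ORBIT, abstract core (helper62, for helper38's S1421 project).

`orbit_step`: `L` a subgroup normalized by `k` (of prime order `q`) and by `A` (of order `p²`,
abelian), `x ∈ A` of order `p` whose conjugates `k^j x k^-j` (`0 < j < q`) lie in `A ∖ ⟨x⟩`;
`(#L, pq) = 1`, `C_L(k) = 1`, `C_L(A) = 1`.  Then `C_L(x) ≤ [L, L]`.
-/

set_option autoImplicit false
set_option linter.unusedVariables false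
set_option linter.style.haveILetI false

namespace Cfsg.Agent.H62.BG161

open Subgroup

open scoped commutatorElement

universe u

variable {G : Type u} [Group G]

/-! ### ordered products -/

/-- the ordered product `f 0 * f 1 * ... * f (n-1)`. -/
def lprod (f : ℕ → G) : ℕ → G
  | 0 => 1
  | n + 1 => lprod f n * f n

theorem lprod_mem (L : Subgroup G) (f : ℕ → G) (hf : ∀ i, f i ∈ L) (n : ℕ) : lprod f n ∈ L := by
  induction n with
  | zero => exact L.one_mem
  | succ n ih => exact L.mul_mem ih (hf n)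

theorem lprod_conj (g : G) (f : ℕ → G) (n : ℕ) :
    g * lprod f n * g⁻¹ = lprod (fun i => g * f i * g⁻¹) n := by
  induction n with
  | zero => simp [lprod]
  | succ n ih =>
    show g * (lprod f n * f n) * g⁻¹ = lprod (fun i => g * f i * g⁻¹) n * (g * f n * g⁻¹)
    rw [← ih]; group

theorem lprod_const (v : G) (n : ℕ) : lprod (fun _ => v) n = v ^ n := by
  induction n with
  | zero => simp [lprod]
  | succ n ih =>
    show lprod (fun _ => v) n * v = v ^ (n + 1)
    rw [ih, pow_succ]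

theorem lprod_congr {f g : ℕ → G} (h : ∀ i, f i = g i) (n : ℕ) : lprod f n = lprod g n := by
  have : f = g := funext h
  rw [this]

/-! ### the abelianization map, on elements of the ambient group -/

/-- the image of `a` in the abelianization of `L` (`1` outside `L`). -/
noncomputable def rho (L : Subgroup G) (a : G) : Abelianization L := by
  classical
  exact if h : a ∈ L then Abelianization.of ⟨a, h⟩ else 1

theorem rho_of_mem (L : Subgroup G) {a : G} (ha : a ∈ L) :
    rho L a = Abelianization.of ⟨a, ha⟩ := by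
  unfold rho
  rw [dif_pos ha]

theorem rho_mul (L : Subgroup G) {a b : G} (ha : a ∈ L) (hb : b ∈ L) :
    rho L (a * b) = rho L a * rho L b := by
  rw [rho_of_mem L ha, rho_of_mem L hb, rho_of_mem L (L.mul_mem ha hb), ← map_mul]
  rfl

theorem rho_one (L : Subgroup G) : rho L 1 = 1 := by
  rw [rho_of_mem L L.one_mem]
  exact map_one _

theorem rho_lprod (L : Subgroup G) (f : ℕ → G) (hf : ∀ i, f i ∈ L) (n : ℕ) :
    rho L (lprod f n) = ∏ i ∈ Finset.range n, rho L (f i) := by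
  induction n with
  | zero => simp [lprod, rho_one]
  | succ n ih =>
    show rho L (lprod f n * f n) = _
    rw [rho_mul L (lprod_mem L f hf n) (hf n), ih, Finset.prod_range_succ]

theorem map_subtype_commutator (L : Subgroup G) :
    (commutator L).map L.subtype = ⁅L, L⁆ := by
  rw [commutator_def, Subgroup.map_commutator, ← MonoidHom.range_eq_map, Subgroup.range_subtype]

theorem rho_eq_one_iff (L : Subgroup G) {a : G} (ha : a ∈ L) : rho L a = 1 ↔ a ∈ ⁅L, L⁆ := by
  rw [rho_of_mem L ha, ← MonoidHom.mem_ker, Abelianization.ker_of, ← map_subtype_commutator]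
  constructor
  · intro h
    exact ⟨⟨a, ha⟩, h, rfl⟩
  · rintro ⟨y, hy, hya⟩
    have : y = ⟨a, ha⟩ := Subtype.ext hya
    rw [← this]
    exact hy

theorem commutator_self_le (L : Subgroup G) : ⁅L, L⁆ ≤ L := by
  rw [Subgroup.commutator_le]
  intro a ha b hb
  rw [commutatorElement_def]
  exact L.mul_mem (L.mul_mem (L.mul_mem ha hb) (L.inv_mem ha)) (L.inv_mem hb)

/-- equal images: the quotient lies in the commutator subgroup. -/
theorem inv_mul_mem_of_rho_eq (L : Subgroup G) {a b : G} (ha : a ∈ L) (hb : b ∈ L)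
    (h : rho L a = rho L b) : a⁻¹ * b ∈ ⁅L, L⁆ := by
  rw [← rho_eq_one_iff L (L.mul_mem (L.inv_mem ha) hb), rho_mul L (L.inv_mem ha) hb, ← h,
    ← rho_mul L (L.inv_mem ha) ha, inv_mul_cancel, rho_one]

/-! ### normalizers -/

theorem conj_mem_of_mem_normalizer {L : Subgroup G} {g n : G} (hg : g ∈ normalizer (L : Set G))
    (hn : n ∈ L) : g * n * g⁻¹ ∈ L := (mem_normalizer_iff.mp hg n).mp hn

theorem normalizer_commutator [Finite G] {L : Subgroup G} {g : G}
    (hg : g ∈ normalizer (L : Set G)) : g ∈ normalizer ((⁅L, L⁆ : Subgroup G) : Set G) := by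
  apply mem_normalizer_of_conj_mem'
  have hle : ⁅L, L⁆ ≤ (⁅L, L⁆ : Subgroup G).comap (MulAut.conj g).toMonoidHom := by
    rw [Subgroup.commutator_le]
    intro a ha b hb
    rw [Subgroup.mem_comap]
    have e : (MulAut.conj g).toMonoidHom ⁅a, b⁆ = ⁅g * a * g⁻¹, g * b * g⁻¹⁆ := by
      simp only [MulEquiv.coe_toMonoidHom, MulAut.conj_apply, commutatorElement_def]
      group
    rw [e]
    exact Subgroup.commutator_mem_commutator (conj_mem_of_mem_normalizer hg ha)
      (conj_mem_of_mem_normalizer hg hb)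
  intro y hy
  have := hle hy
  rw [Subgroup.mem_comap] at this
  simpa [MulAut.conj_apply] using this

/-! ### the stabilizer of a coset under conjugation -/

/-- the elements normalizing `L1` and mapping the coset `b L1` to itself by conjugation. -/
def cosetStab (L1 : Subgroup G) (b : G) : Subgroup G where
  carrier := {a | a ∈ normalizer (L1 : Set G) ∧ b⁻¹ * a * b * a⁻¹ ∈ L1}
  one_mem' := ⟨Subgroup.one_mem _, by simp⟩
  mul_mem' := by
    rintro a a' ⟨ha, ha'⟩ ⟨hb, hb'⟩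
    refine ⟨Subgroup.mul_mem _ ha hb, ?_⟩
    have e : b⁻¹ * (a * a') * b * (a * a')⁻¹ =
        (b⁻¹ * a * b * a⁻¹) * (a * (b⁻¹ * a' * b * a'⁻¹) * a⁻¹) := by group
    rw [e]
    exact L1.mul_mem ha' (conj_mem_of_mem_normalizer ha hb')
  inv_mem' := by
    rintro a ⟨ha, ha'⟩
    refine ⟨Subgroup.inv_mem _ ha, ?_⟩
    have e : b⁻¹ * a⁻¹ * b * a⁻¹⁻¹ = a⁻¹ * (b⁻¹ * a * b * a⁻¹)⁻¹ * a⁻¹⁻¹ := by group
    rw [e]
    exact conj_mem_of_mem_normalizer (Subgroup.inv_mem _ ha) (L1.inv_mem ha')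

theorem cosetStab_spec {L1 : Subgroup G} {b a : G} (ha : a ∈ cosetStab L1 b) :
    ∀ m ∈ L1, b⁻¹ * (a * (b * m) * a⁻¹) ∈ L1 := by
  intro m hm
  have e : b⁻¹ * (a * (b * m) * a⁻¹) = (b⁻¹ * a * b * a⁻¹) * (a * m * a⁻¹) := by group
  rw [e]
  exact L1.mul_mem ha.2 (conj_mem_of_mem_normalizer ha.1 hm)

/-- a subgroup of order `p²` lies in every subgroup containing a subgroup `X` of order `p` of it
and one more of its elements. -/
theorem le_of_card_sq [Finite G] {p : ℕ} [Fact p.Prime] {A X B : Subgroup G}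
    (hA : Nat.card A = p ^ 2)
    (hXA : X ≤ A) (hX : Nat.card X = p) (hXB : X ≤ B) {y : G} (hyA : y ∈ A) (hyB : y ∈ B)
    (hyX : y ∉ X) : A ≤ B := by
  have hp : p.Prime := Fact.out
  have h1 : Nat.card ↥(A ⊓ B) ∣ p ^ 2 := by rw [← hA]; exact Subgroup.card_dvd_of_le inf_le_left
  have hXAB : X ≤ A ⊓ B := le_inf hXA hXB
  have h2 : p ∣ Nat.card ↥(A ⊓ B) := by rw [← hX]; exact Subgroup.card_dvd_of_le hXAB
  obtain ⟨m, hm, hmeq⟩ := (Nat.dvd_prime_pow hp).mp h1
  have hm2 : m = 0 ∨ m = 1 ∨ m = 2 := by omega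
  rcases hm2 with rfl | rfl | rfl
  · rw [hmeq, pow_zero] at h2
    exact absurd (Nat.dvd_one.mp h2) hp.one_lt.ne'
  · exfalso
    apply hyX
    have hXeq : X = A ⊓ B := by
      apply Subgroup.eq_of_le_of_card_ge hXAB
      rw [hmeq, hX, pow_one]
    rw [hXeq]
    exact ⟨hyA, hyB⟩
  · have hAB : A ⊓ B = A := by
      apply Subgroup.eq_of_le_of_card_ge inf_le_left
      rw [hmeq, hA]
    rw [← hAB]
    exact inf_le_right

/-- a periodic shift of a product over a range in a commutative monoid. -/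
theorem prod_range_shift {V : Type*} [CommGroup V] (f : ℕ → V) (n : ℕ) (h : f n = f 0) :
    ∏ i ∈ Finset.range n, f (i + 1) = ∏ i ∈ Finset.range n, f i := by
  have h1 := Finset.prod_range_succ' f n
  have h2 := Finset.prod_range_succ f n
  rw [h2, h] at h1
  exact (mul_right_cancel h1).symm

theorem conj_pow_fixed {x v : G} (h : x * v * x⁻¹ = v) (i : ℕ) : x ^ i * v * (x ^ i)⁻¹ = v := by
  induction i with
  | zero => simp
  | succ i ih =>
    have e : x ^ (i + 1) * v * (x ^ (i + 1))⁻¹ = x * (x ^ i * v * (x ^ i)⁻¹) * x⁻¹ := by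
      rw [pow_succ']; group
    rw [e, ih, h]

/-- The step: `C_L(x) ≤ [L, L]`. -/
theorem orbit_step [Finite G] {p q : ℕ} [Fact p.Prime] [Fact q.Prime]
    (L A : Subgroup G) (k x : G)
    (hk : orderOf k = q) (hkL : k ∈ normalizer (L : Set G))
    (hAL : A ≤ normalizer (L : Set G))
    (hAcard : Nat.card A = p ^ 2) (hAcomm : ∀ a ∈ A, ∀ b ∈ A, a * b = b * a)
    (hxA : x ∈ A) (hx : orderOf x = p)
    (hy : ∀ j, 0 < j → j < q →
      k ^ j * x * (k ^ j)⁻¹ ∈ A ∧ k ^ j * x * (k ^ j)⁻¹ ∉ zpowers x)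
    (hpL : ¬ p ∣ Nat.card L) (hqL : ¬ q ∣ Nat.card L)
    (hCk : ∀ n ∈ L, k * n * k⁻¹ = n → n = 1)
    (hCA : ∀ n ∈ L, (∀ a ∈ A, a * n * a⁻¹ = n) → n = 1)
    (v : G) (hv : v ∈ L) (hxv : x * v * x⁻¹ = v) : v ∈ ⁅L, L⁆ := by
  have hp : p.Prime := Fact.out
  have hq : q.Prime := Fact.out
  obtain ⟨L1, hL1⟩ : ∃ L1 : Subgroup G, L1 = ⁅L, L⁆ := ⟨_, rfl⟩
  rw [← hL1]
  have hL1L : L1 ≤ L := by rw [hL1]; exact commutator_self_le L
  have hnorm1 : ∀ g ∈ normalizer (L : Set G), g ∈ normalizer (L1 : Set G) := by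
    intro g hg; rw [hL1]; exact normalizer_commutator hg
  have hpL1 : ¬ p ∣ Nat.card L1 := fun h => hpL (h.trans (Subgroup.card_dvd_of_le hL1L))
  have hqL1 : ¬ q ∣ Nat.card L1 := fun h => hqL (h.trans (Subgroup.card_dvd_of_le hL1L))
  have hrho1 : ∀ {a : G}, a ∈ L → (rho L a = 1 ↔ a ∈ L1) := by
    intro a ha; rw [hL1]; exact rho_eq_one_iff L ha
  have hkq : k ^ q = 1 := by rw [← hk]; exact pow_orderOf_eq_one k
  have hxp : x ^ p = 1 := by rw [← hx]; exact pow_orderOf_eq_one x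
  have hkpow : ∀ j : ℕ, k ^ j ∈ normalizer (L : Set G) := fun j => Subgroup.pow_mem _ hkL j
  have hxpowA : ∀ i : ℕ, x ^ i ∈ A := fun i => A.pow_mem hxA i
  have hxpow : ∀ i : ℕ, x ^ i ∈ normalizer (L : Set G) := fun i => hAL (hxpowA i)
  -- the conjugates of `v`
  obtain ⟨a, ha⟩ : ∃ a : ℕ → G, a = fun j => k ^ j * v * (k ^ j)⁻¹ := ⟨_, rfl⟩
  have haL : ∀ j, a j ∈ L := by
    intro j; rw [ha]; exact conj_mem_of_mem_normalizer (hkpow j) hv
  have ha0 : a 0 = v := by rw [ha]; simp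
  have haq : a q = a 0 := by rw [ha]; simp [hkq]
  have hasucc : ∀ j, k * a j * k⁻¹ = a (j + 1) := by
    intro j; rw [ha]; simp only; rw [pow_succ']; group
  -- `u`, the product of the conjugates, lies in `L1`
  obtain ⟨u, hu⟩ : ∃ u, u = lprod a q := ⟨_, rfl⟩
  have huL : u ∈ L := by rw [hu]; exact lprod_mem L a haL q
  have hu1 : u ∈ L1 := by
    have hconj : k * u * k⁻¹ = lprod (fun j => a (j + 1)) q := by
      rw [hu, lprod_conj]
      exact lprod_congr hasucc q
    have hrho : rho L u = rho L (k * u * k⁻¹) := by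
      rw [hconj, rho_lprod L _ (fun j => haL (j + 1)) q, hu, rho_lprod L a haL q]
      exact (prod_range_shift (fun j => rho L (a j)) q
        (by show rho L (a q) = rho L (a 0); rw [haq])).symm
    have hmem : u⁻¹ * (k * u * k⁻¹) ∈ L1 := by
      rw [hL1]
      exact inv_mul_mem_of_rho_eq L huL (conj_mem_of_mem_normalizer hkL huL) hrho
    have hkS : k ∈ cosetStab L1 u := by
      refine ⟨hnorm1 k hkL, ?_⟩
      have e : u⁻¹ * k * u * k⁻¹ = u⁻¹ * (k * u * k⁻¹) := by group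
      rw [e]; exact hmem
    have hzS : zpowers k ≤ cosetStab L1 u := by rw [zpowers_le]; exact hkS
    have hB : IsPGroup q ↥(zpowers k) :=
      IsPGroup.of_card (n := 1) (by rw [Nat.card_zpowers, hk, pow_one])
    obtain ⟨m, hm, hfix⟩ := Cfsg.Agent.H28.exists_fixed_in_coset q (zpowers k) L1 hB hqL1 u
      (fun b hb m hm => cosetStab_spec (hzS hb) m hm)
    have h1 : u * m = 1 :=
      hCk (u * m) (L.mul_mem huL (hL1L hm)) (hfix k (mem_zpowers k))
    have h2 : u = m⁻¹ := eq_inv_of_mul_eq_one_left h1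
    rw [h2]
    exact L1.inv_mem hm
  -- the `x`-norms of the conjugates
  obtain ⟨F, hF⟩ : ∃ F : ℕ → ℕ → G,
      F = fun j s => lprod (fun i => x ^ (s + i) * a j * (x ^ (s + i))⁻¹) p := ⟨_, rfl⟩
  have hFL : ∀ j s, F j s ∈ L := by
    intro j s; rw [hF]
    exact lprod_mem L _ (fun i => conj_mem_of_mem_normalizer (hxpow (s + i)) (haL j)) p
  have hFconj : ∀ j s, x * F j s * x⁻¹ = F j (s + 1) := by
    intro j s
    rw [hF]
    simp only
    rw [lprod_conj]
    apply lprod_congr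
    intro i
    have e : s + 1 + i = (s + i) + 1 := by omega
    rw [e, pow_succ']; group
  have hFrho : ∀ j s, rho L (F j (s + 1)) = rho L (F j s) := by
    intro j s
    have h1 : rho L (F j (s + 1)) =
        ∏ i ∈ Finset.range p, rho L (x ^ (s + (i + 1)) * a j * (x ^ (s + (i + 1)))⁻¹) := by
      rw [hF]
      simp only
      rw [rho_lprod L _ (fun i => conj_mem_of_mem_normalizer (hxpow (s + 1 + i)) (haL j)) p]
      apply Finset.prod_congr rfl
      intro i _
      have e : s + 1 + i = s + (i + 1) := by omega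
      rw [e]
    have h2 : rho L (F j s) =
        ∏ i ∈ Finset.range p, rho L (x ^ (s + i) * a j * (x ^ (s + i))⁻¹) := by
      rw [hF]
      simp only
      rw [rho_lprod L _ (fun i => conj_mem_of_mem_normalizer (hxpow (s + i)) (haL j)) p]
    rw [h1, h2]
    apply prod_range_shift (fun i => rho L (x ^ (s + i) * a j * (x ^ (s + i))⁻¹)) p
    show rho L (x ^ (s + p) * a j * (x ^ (s + p))⁻¹) = rho L (x ^ (s + 0) * a j * (x ^ (s + 0))⁻¹)
    rw [pow_add, hxp, mul_one, add_zero]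
  have hxS : ∀ j, x ∈ cosetStab L1 (F j 0) := by
    intro j
    refine ⟨hnorm1 x (hAL hxA), ?_⟩
    have e : (F j 0)⁻¹ * x * F j 0 * x⁻¹ = (F j 0)⁻¹ * (x * F j 0 * x⁻¹) := by group
    rw [e, hFconj, hL1]
    exact inv_mul_mem_of_rho_eq L (hFL j 0) (hFL j 1) (hFrho j 0).symm
  have hcardX : Nat.card ↥(zpowers x) = p := by rw [Nat.card_zpowers, hx]
  have hXA : zpowers x ≤ A := by rw [zpowers_le]; exact hxA
  -- for `0 < j < q` the norm lies in `L1`
  have hF1 : ∀ j, 0 < j → j < q → F j 0 ∈ L1 := by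
    intro j hj0 hjq
    obtain ⟨hyA, hyX⟩ := hy j hj0 hjq
    obtain ⟨y, hydef⟩ : ∃ y, y = k ^ j * x * (k ^ j)⁻¹ := ⟨_, rfl⟩
    rw [← hydef] at hyA hyX
    have hyaj : y * a j * y⁻¹ = a j := by
      rw [hydef, ha]
      simp only
      have e : k ^ j * x * (k ^ j)⁻¹ * (k ^ j * v * (k ^ j)⁻¹) * (k ^ j * x * (k ^ j)⁻¹)⁻¹ =
          k ^ j * (x * v * x⁻¹) * (k ^ j)⁻¹ := by group
      rw [e, hxv]
    have hyF : y * F j 0 * y⁻¹ = F j 0 := by
      rw [hF]
      simp only
      rw [lprod_conj]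
      apply lprod_congr
      intro i
      have hc : y * x ^ (0 + i) = x ^ (0 + i) * y := hAcomm y hyA _ (hxpowA (0 + i))
      have e : y * (x ^ (0 + i) * a j * (x ^ (0 + i))⁻¹) * y⁻¹ =
          (y * x ^ (0 + i)) * a j * (y * x ^ (0 + i))⁻¹ := by group
      rw [e, hc]
      have e2 : x ^ (0 + i) * y * a j * (x ^ (0 + i) * y)⁻¹ =
          x ^ (0 + i) * (y * a j * y⁻¹) * (x ^ (0 + i))⁻¹ := by group
      rw [e2, hyaj]
    have hyS : y ∈ cosetStab L1 (F j 0) := by
      refine ⟨hnorm1 y (hAL hyA), ?_⟩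
      have e : (F j 0)⁻¹ * y * F j 0 * y⁻¹ = (F j 0)⁻¹ * (y * F j 0 * y⁻¹) := by group
      rw [e, hyF, inv_mul_cancel]
      exact L1.one_mem
    have hAS : A ≤ cosetStab L1 (F j 0) :=
      le_of_card_sq hAcard hXA hcardX (by rw [zpowers_le]; exact hxS j) hyA hyS hyX
    have hAp : IsPGroup p ↥A := IsPGroup.of_card (n := 2) hAcard
    obtain ⟨m, hm, hfix⟩ := Cfsg.Agent.H28.exists_fixed_in_coset p A L1 hAp hpL1 (F j 0)
      (fun b hb m hm => cosetStab_spec (hAS hb) m hm)
    have h1 : F j 0 * m = 1 := hCA (F j 0 * m) (L.mul_mem (hFL j 0) (hL1L hm)) hfix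
    have h2 : F j 0 = m⁻¹ := eq_inv_of_mul_eq_one_left h1
    rw [h2]
    exact L1.inv_mem hm
  -- the norm of `v` itself
  have hF0 : F 0 0 = v ^ p := by
    rw [hF]
    simp only
    rw [← lprod_const v p]
    apply lprod_congr
    intro i
    rw [ha0]
    exact conj_pow_fixed hxv (0 + i)
  -- the double product
  have hdouble : ∏ j ∈ Finset.range q, rho L (F j 0) = 1 := by
    have h1 : ∀ j, rho L (F j 0) =
        ∏ i ∈ Finset.range p, rho L (x ^ (0 + i) * a j * (x ^ (0 + i))⁻¹) := by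
      intro j
      rw [hF]
      simp only
      rw [rho_lprod L _ (fun i => conj_mem_of_mem_normalizer (hxpow (0 + i)) (haL j)) p]
    simp only [h1]
    rw [Finset.prod_comm]
    apply Finset.prod_eq_one
    intro i _
    have h2 : ∏ j ∈ Finset.range q, rho L (x ^ (0 + i) * a j * (x ^ (0 + i))⁻¹) =
        rho L (x ^ (0 + i) * u * (x ^ (0 + i))⁻¹) := by
      rw [hu, lprod_conj,
        rho_lprod L _ (fun j => conj_mem_of_mem_normalizer (hxpow (0 + i)) (haL j)) q]
    rw [h2, hrho1 (conj_mem_of_mem_normalizer (hxpow (0 + i)) huL)]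
    exact conj_mem_of_mem_normalizer (hnorm1 _ (hxpow (0 + i))) hu1
  obtain ⟨q', hq'⟩ : ∃ q', q = q' + 1 := ⟨q - 1, by have := hq.pos; omega⟩
  rw [hq', Finset.prod_range_succ'] at hdouble
  have hrest : ∏ j ∈ Finset.range q', rho L (F (j + 1) 0) = 1 := by
    apply Finset.prod_eq_one
    intro j hj
    rw [Finset.mem_range] at hj
    rw [hrho1 (hFL (j + 1) 0)]
    exact hF1 (j + 1) (by omega) (by omega)
  rw [hrest, one_mul, hF0, hrho1 (L.pow_mem hv p)] at hdouble
  -- `v` is a power of `v ^ p`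
  have hcop : p.Coprime (orderOf v) := by
    have h1 : orderOf v ∣ Nat.card L := Subgroup.orderOf_dvd_natCard L hv
    exact Nat.Coprime.coprime_dvd_right h1 ((Nat.Prime.coprime_iff_not_dvd hp).mpr hpL)
  obtain ⟨m, hm⟩ := exists_pow_eq_self_of_coprime hcop
  rw [← hm]
  exact L1.pow_mem hdouble m

end Cfsg.Agent.H62.BG161
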