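import Mathlib
import Cfsg.Agent.H62.BG161OrbitCore
import Cfsg.Agent.H62.BG161HT2

/-!
S1421-ORBIT (helper62, for helper38's S1421 project): an element `k ∈ E` of prime order moving a
singular subgroup `X` of order `p` of `A` is singular.
-/

set_option autoImplicit false
set_option linter.unusedVariables false
set_option linter.style.haveILetI false

namespace Cfsg.Agent.H62.BG161

open Cfsg Subgroup Cfsg.Agent.H38.BG161 Cfsg.Agent.H58.BG10

universe u

variable {G : Type u} [Group G]

/-- `M` normalizes `M_σ`. -/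
theorem le_normalizer_sigmaCore_orb (M : Subgroup G) :
    M ≤ normalizer (sigmaCore M : Set G) := by
  have hle : sigmaCore M ≤ M := Subgroup.map_subtype_le _
  rw [← Subgroup.normal_subgroupOf_iff_le_normalizer hle]
  have h1 : (sigmaCore M).subgroupOf M = piCore (sigma M) M :=
    Subgroup.comap_map_eq_self_of_injective M.subtype_injective _
  rw [h1]
  exact piCore_normal _ _

/-- the iterated commutator chain of a subgroup, inside the ambient group. -/
def dser (N : Subgroup G) : ℕ → Subgroup G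
  | 0 => N
  | i + 1 => ⁅dser N i, dser N i⁆

theorem dser_le (N : Subgroup G) (i : ℕ) : dser N i ≤ N := by
  induction i with
  | zero => exact le_rfl
  | succ i ih => exact (commutator_self_le _).trans ih

theorem dser_normalizer [Finite G] {N : Subgroup G} {g : G} (hg : g ∈ normalizer (N : Set G))
    (i : ℕ) : g ∈ normalizer ((dser N i : Subgroup G) : Set G) := by
  induction i with
  | zero => exact hg
  | succ i ih => exact normalizer_commutator ih

theorem dser_eq_map (N : Subgroup G) (i : ℕ) :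
    dser N i = (derivedSeries N i).map N.subtype := by
  induction i with
  | zero =>
    show N = (⊤ : Subgroup N).map N.subtype
    rw [← MonoidHom.range_eq_map, Subgroup.range_subtype]
  | succ i ih =>
    show ⁅dser N i, dser N i⁆ = _
    rw [derivedSeries_succ, Subgroup.map_commutator, ← ih]

theorem dser_eq_bot (N : Subgroup G) (hN : Group.IsNilpotent N) : ∃ n, dser N n = ⊥ := by
  haveI := hN
  haveI : Group.IsSolvable N := inferInstance
  obtain ⟨n, hn⟩ := Group.IsSolvable.solvable (G := N)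
  exact ⟨n, by rw [dser_eq_map, hn, Subgroup.map_bot]⟩

theorem orbit [Finite G] (hG : IsMinSimpleOddOrder G) (h50 : St1350 G) (h17 : St1417 G)
    (h18 : St1418 G) : StOrbit G := by
  intro M E S A p _ hS k q hq hkE hkq X hXA hXp hkX hCX hCk
  have hp : p.Prime := Fact.out
  haveI : Fact q.Prime := ⟨hq⟩
  obtain ⟨N, hNdef⟩ : ∃ N, N = sigmaCore M := ⟨_, rfl⟩
  rw [← hNdef] at hCX hCk
  obtain ⟨hEM, hNM, hEN, hprod⟩ := hS.compl
  rw [← hNdef] at hNM hEN
  have hAE : A ≤ E := hS.AS.trans hS.le
  have hAM : A ≤ M := hAE.trans hEM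
  have hMN : M ≤ normalizer (N : Set G) := by
    rw [hNdef]; exact le_normalizer_sigmaCore_orb M
  obtain ⟨⟨hEA, -⟩, -, -⟩ := h18 M hS.coatom E hS.compl p hS.tau A ⟨hAE, hS.elem, hS.card⟩
  obtain ⟨hNnil, -, -, hCA, -, -⟩ := h17 M hS.coatom p hS.tau A ⟨hAM, hS.elem, hS.card⟩
  rw [← hNdef] at hNnil hCA
  obtain ⟨⟨-, hNσ, hNidx⟩, -, -⟩ := h50 M hS.coatom
  rw [← hNdef] at hNσ hNidx
  have hcomm : ∀ a ∈ A, ∀ b ∈ A, a * b = b * a := by
    intro a ha b hb
    exact congrArg Subtype.val (hS.elem.1.is_comm.comm ⟨a, ha⟩ ⟨b, hb⟩)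
  have hpN : ¬ p ∣ Nat.card N := fun h => hS.tau.2.1 (hNσ p hp h)
  have hk1 : k ≠ 1 := by
    intro h
    rw [h, orderOf_one] at hkq
    exact hq.one_lt.ne hkq
  have hqN : ¬ q ∣ Nat.card N := by
    intro h
    have hqσ : q ∈ sigma M := hNσ q hq h
    have hidx := hNidx q hq hqσ
    have hkN : k ∈ N := by
      haveI : (N.subgroupOf M).Normal :=
        (Subgroup.normal_subgroupOf_iff_le_normalizer hNM).mpr hMN
      have hkpow : (⟨k, hEM hkE⟩ : M) ^ q = 1 := by
        apply Subtype.ext
        show k ^ q = 1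
        rw [← hkq]; exact pow_orderOf_eq_one k
      have ho : orderOf ((⟨k, hEM hkE⟩ : M) : M ⧸ N.subgroupOf M) ∣ q := by
        apply orderOf_dvd_of_pow_eq_one
        rw [← QuotientGroup.mk_pow, hkpow]
        rfl
      have hc : orderOf ((⟨k, hEM hkE⟩ : M) : M ⧸ N.subgroupOf M) ∣ N.relIndex M := by
        have h3 := orderOf_dvd_natCard ((⟨k, hEM hkE⟩ : M) : M ⧸ N.subgroupOf M)
        rw [← Subgroup.index_eq_card] at h3
        exact h3
      have h1 : ((⟨k, hEM hkE⟩ : M) : M ⧸ N.subgroupOf M) = 1 := by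
        rcases (Nat.dvd_prime hq).mp ho with h2 | h2
        · exact orderOf_eq_one_iff.mp h2
        · exfalso; rw [h2] at hc; exact hidx hc
      have h2 : (⟨k, hEM hkE⟩ : M) ∈ N.subgroupOf M := (QuotientGroup.eq_one_iff _).mp h1
      exact Subgroup.mem_subgroupOf.mp h2
    have h4 : k ∈ E ⊓ N := ⟨hkE, hkN⟩
    rw [hEN] at h4
    exact hk1 (Subgroup.mem_bot.mp h4)
  -- `q ≠ p`
  have hqp : q ≠ p := by
    intro h
    apply hkX
    obtain ⟨P, hP⟩ := hS.syl
    have hkS : k ∈ S := by
      rw [← hP]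
      apply mem_sylow_of_normalizes P ⟨1, by rw [hkq, h, pow_one]⟩
      rw [hP]
      exact hS.norm hkE
    apply mem_normalizer_of_conj_mem'
    intro y hy
    have hc : k * y = y * k := hS.comm k hkS y (hS.AS (hXA hy))
    have e : k * y * k⁻¹ = y := by rw [hc]; group
    rw [e]; exact hy
  -- a generator of `X`
  haveI : Nontrivial X := Finite.one_lt_card_iff_nontrivial.mp (by rw [hXp]; exact hp.one_lt)
  obtain ⟨⟨x, hxX⟩, hx1⟩ := exists_ne (1 : X)
  have hx1' : x ≠ 1 := fun h => hx1 (Subtype.ext h)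
  have hxA : x ∈ A := hXA hxX
  have hxo : orderOf x = p := by
    have h1 : orderOf x ∣ p := orderOf_dvd_of_pow_eq_one (hS.elem.2 x hxA)
    rcases (Nat.dvd_prime hp).mp h1 with h2 | h2
    · exact absurd (orderOf_eq_one_iff.mp h2) hx1'
    · exact h2
  have hzX : zpowers x = X := by
    apply Subgroup.eq_of_le_of_card_ge (by rw [zpowers_le]; exact hxX)
    rw [Nat.card_zpowers, hXp, hxo]
  -- the conjugates of `x`
  have hy : ∀ j, 0 < j → j < q →
      k ^ j * x * (k ^ j)⁻¹ ∈ A ∧ k ^ j * x * (k ^ j)⁻¹ ∉ zpowers x := by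
    intro j hj0 hjq
    refine ⟨(mem_normalizer_iff.mp (hEA (E.pow_mem hkE j)) x).mp hxA, ?_⟩
    intro hmem
    rw [hzX] at hmem
    apply hkX
    have hkj : k ^ j ∈ normalizer (X : Set G) := by
      apply mem_normalizer_of_conj_mem'
      intro y hy
      rw [← hzX] at hy
      obtain ⟨i, rfl⟩ := hy
      have e : k ^ j * x ^ i * (k ^ j)⁻¹ = (k ^ j * x * (k ^ j)⁻¹) ^ i := by
        rw [conj_zpow]
      rw [e]
      exact X.zpow_mem hmem i
    have hcop : j.Coprime (orderOf k) := by
      rw [hkq]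
      exact Nat.Coprime.symm
        ((Nat.Prime.coprime_iff_not_dvd hq).mpr (Nat.not_dvd_of_pos_of_lt hj0 hjq))
    obtain ⟨m, hm⟩ := exists_pow_eq_self_of_coprime hcop
    rw [← hm]
    exact Subgroup.pow_mem _ hkj m
  -- the induction along the commutator chain
  have hstep : ∀ i : ℕ, ∀ v ∈ N, x * v * x⁻¹ = v → v ∈ dser N i := by
    intro i
    induction i with
    | zero => intro v hv _; exact hv
    | succ i ih =>
      intro v hv hxv
      have hLN : dser N i ≤ N := dser_le N i
      have hcard : Nat.card ↥(dser N i) ∣ Nat.card N := Subgroup.card_dvd_of_le hLN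
      refine orbit_step (dser N i) A k x hkq (dser_normalizer (hMN (hEM hkE)) i)
        (fun a ha => dser_normalizer (hMN (hAM ha)) i) hS.card hcomm hxA hxo hy
        (fun h => hpN (h.trans hcard)) (fun h => hqN (h.trans hcard)) ?_ ?_ v (ih v hv hxv) hxv
      · intro n hn hkn
        have h1 : n ∈ N ⊓ centralizer ({k} : Set G) := by
          refine ⟨hLN hn, ?_⟩
          show n ∈ centralizer ({k} : Set G)
          rw [mem_centralizer_iff]
          intro h hh
          rw [Set.mem_singleton_iff] at hh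
          rw [hh]
          exact mul_inv_eq_iff_eq_mul.mp hkn
        rw [hCk] at h1
        exact Subgroup.mem_bot.mp h1
      · intro n hn han
        have h1 : n ∈ N ⊓ centralizer (A : Set G) := by
          refine ⟨hLN hn, ?_⟩
          show n ∈ centralizer (A : Set G)
          rw [mem_centralizer_iff]
          intro a ha
          exact mul_inv_eq_iff_eq_mul.mp (han a ha)
        rw [hCA] at h1
        exact Subgroup.mem_bot.mp h1
  apply hCX
  rw [eq_bot_iff]
  rintro v ⟨hvN, hvC⟩
  obtain ⟨n, hn⟩ := dser_eq_bot N hNnil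
  have hxv : x * v * x⁻¹ = v := by
    have h1 : x * v = v * x := mem_centralizer_iff.mp hvC x hxX
    rw [h1]; group
  have h2 := hstep n v hvN hxv
  rw [hn] at h2
  exact h2

end Cfsg.Agent.H62.BG161
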