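import Cfsg.Agent.H62.D4Graph

/-!
# Graph and field automorphisms of `D₄(F)` commute (helper62, for helper96's S2607, `m = 4` half)

Light closure (that of `Cfsg/Agent/H62/D4Graph.lean`).
-/

set_option autoImplicit false
set_option maxRecDepth 100000
set_option linter.unusedVariables false

namespace Cfsg.Agent.H62.D4P

open Cfsg Cfsg.Lie Cfsg.Agent.H23

universe u

/-- A graph automorphism and a field automorphism of `D₄(F)` commute. -/
theorem d4_graph_field_comm (F : Type u) [Field F] (g f : MulAut ↥(chevD4.group F))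
    (hg : chevD4.IsGraphAut g) (hf : chevD4.IsFieldAut f) : g * f = f * g := by
  obtain ⟨π, hπ, hg⟩ := hg
  obtain ⟨σ, hf⟩ := hf
  have hP := packB_D4g F
  have e : (g * f).toMonoidHom = (f * g).toMonoidHom := by
    apply Cfsg.Agent.H12.GraphFix.hom_ext_fund hP.sem hP.semN hP.tab
    intro y i t hi hy
    apply Subtype.ext
    apply Units.ext
    have hsi := hP.tab.simple_lt i hi
    have hπi := hP.tab.simple_lt (π ⟨i, hi⟩) (π ⟨i, hi⟩).isLt
    have hexp := d4_graphExp_one (ringChar F) i (π ⟨i, hi⟩) hi (π ⟨i, hi⟩).isLt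
    rcases hy with hy | hy
    · have h1 := hf y _ t hsi hy
      have h2 := (hg (f y) ⟨i, hi⟩ (σ t)).1 h1
      have h3 := (hg y ⟨i, hi⟩ t).1 hy
      simp only [hexp, pow_one] at h2 h3
      have h4 := hf (g y) _ _ hπi h3
      exact h2.trans h4.symm
    · have hni := hP.tab.neg_lt _ hsi
      have hnπi := hP.tab.neg_lt _ hπi
      have h1 := hf y _ t hni hy
      have h2 := (hg (f y) ⟨i, hi⟩ (σ t)).2 h1
      have h3 := (hg y ⟨i, hi⟩ t).2 hy
      simp only [hexp, pow_one] at h2 h3
      have h4 := hf (g y) _ _ hnπi h3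
      exact h2.trans h4.symm
  apply MulEquiv.ext
  intro y
  exact DFunLike.congr_fun e y

example (F : Type u) [Field F] (g f : MulAut ↥(chevD4.group F))
    (hg : chevD4.IsGraphAut g) (hf : chevD4.IsFieldAut f) : g * f = f * g :=
  d4_graph_field_comm.{u} F g f hg hf

end Cfsg.Agent.H62.D4P

#print axioms Cfsg.Agent.H62.D4P.d4_graph_field_comm
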