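import Cfsg.Agent.H23.OrdD4
import Cfsg.Agent.H12.GraphGens
import Cfsg.Agent.H56.OSD4T
import Cfsg.Agent.H15.OSD4C

/-!
# P-GRAPH (helper62, for helper96's S2607, `m = 4` half): the graph automorphisms of `D₄(F)` form a
copy of the symmetric group of degree 3

A light (`D₄`-only closure) version of helper22's `Cfsg/Agent/H22/OSGraph6.lean` and of the table lemmas of
helper23's `Cfsg/Agent/H23/GraphFix.lean`: there is an injective homomorphism from the permutations of the three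
outer nodes of the diagram to the automorphism group of `D₄(F)` whose range is the set of graph automorphisms.
-/

set_option autoImplicit false
set_option maxRecDepth 100000
set_option linter.unusedVariables false
set_option linter.unusedSimpArgs false

namespace Cfsg.Agent.H62.D4P

open Cfsg Cfsg.Lie Cfsg.Agent.H23 Cfsg.Agent.H46.OS

universe u

/-- The exponent functions of type `D₄`. -/
abbrev zD4 : ℕ → ℕ → ℤ := zR chevD4 ctblD4

/-- The signs of type `D₄`. -/
abbrev ηD4 : ℕ → ℕ → ℤ := fun i s => etaBit (etaD4.getD i 0) s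

theorem packB_D4g (F : Type u) [Field F] : PackB chevD4 F zD4 ηD4 :=
  ⟨chk_D4.sem F, nconj_D4.semN chk_D4.tblOK F, comm_D4.semC chk_D4.tblOK F, tab_D4, tabC_D4,
    etaNeg_D4, tab2_D4⟩

section

variable {F : Type u} [Field F]

/-- The homomorphism `a` acts on the fundamental root elements through the table `L`. -/
def LAct (F : Type u) [Field F] (L : List ℕ) (a : ↥(chevD4.group F) →* ↥(chevD4.group F)) : Prop :=
  ∀ (g : ↥(chevD4.group F)) (i : ℕ) (t : F), i < chevD4.rank →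
    (((g : GL chevD4.Idx F) : Matrix chevD4.Idx chevD4.Idx F) = chevD4.x F (chevD4.simple i) t →
      ((a g : GL chevD4.Idx F) : Matrix chevD4.Idx chevD4.Idx F) =
        chevD4.x F (chevD4.simple (L.getD i 0)) t) ∧
    (((g : GL chevD4.Idx F) : Matrix chevD4.Idx chevD4.Idx F) = chevD4.x F (chevD4.neg (chevD4.simple i)) t →
      ((a g : GL chevD4.Idx F) : Matrix chevD4.Idx chevD4.Idx F) =
        chevD4.x F (chevD4.neg (chevD4.simple (L.getD i 0))) t)

theorem LAct.ext {L : List ℕ} {a b : ↥(chevD4.group F) →* ↥(chevD4.group F)} (ha : LAct F L a)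
    (hb : LAct F L b) : a = b := by
  have hP := packB_D4g F
  apply Cfsg.Agent.H12.GraphFix.hom_ext_fund hP.sem hP.semN hP.tab
  intro g i t hi hg
  apply Subtype.ext
  apply Units.ext
  rcases hg with hg | hg
  · rw [(ha g i t hi).1 hg, (hb g i t hi).1 hg]
  · rw [(ha g i t hi).2 hg, (hb g i t hi).2 hg]

theorem LAct.comp {L L' L'' : List ℕ} {a b : ↥(chevD4.group F) →* ↥(chevD4.group F)} (ha : LAct F L a)
    (hb : LAct F L' b)
    (hL : ∀ i < chevD4.rank, L.getD i 0 < chevD4.rank ∧ L''.getD i 0 = L'.getD (L.getD i 0) 0) :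
    LAct F L'' (b.comp a) := by
  intro g i t hi
  obtain ⟨h1, h2⟩ := hL i hi
  rw [h2]
  exact ⟨fun hg => (hb (a g) _ t h1).1 ((ha g i t hi).1 hg), fun hg => (hb (a g) _ t h1).2 ((ha g i t hi).2 hg)⟩

theorem LAct.one {L : List ℕ} (hL : ∀ i < chevD4.rank, L.getD i 0 = i) : LAct F L (MonoidHom.id _) := by
  intro g i t hi
  rw [hL i hi]
  exact ⟨fun h => h, fun h => h⟩

end

theorem d4_graphExp_one : ∀ (c i j : ℕ), i < chevD4.rank → j < chevD4.rank → chevD4.graphExp c i j = 1 := by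
  intro c i j hi hj
  have h : ∀ i < chevD4.rank, ∀ j < chevD4.rank,
      (chevD4.isLong (chevD4.simple j) && !chevD4.isLong (chevD4.simple i)) = false := by decide
  unfold ChevalleyDatum.graphExp
  rw [h i hi j hj]
  rfl

theorem d4_sym_cases6 : ∀ a b c d : Fin 4, (a ≠ b ∧ a ≠ c ∧ a ≠ d ∧ b ≠ c ∧ b ≠ d ∧ c ≠ d ∧
    chevD4.bonds b a = chevD4.bonds 1 0 ∧ chevD4.bonds b c = chevD4.bonds 1 2 ∧
    chevD4.bonds b d = chevD4.bonds 1 3) →
    [a.val, b.val, c.val, d.val] ∈
      [[0, 1, 2, 3], [0, 1, 3, 2], [2, 1, 0, 3], [3, 1, 2, 0], [2, 1, 3, 0], [3, 1, 0, 2]] := by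
  decide +kernel

/-- Composition of two node tables: first `L'`, then `L`. -/
def lmul (L L' : List ℕ) : List ℕ :=
  [L.getD (L'.getD 0 0) 0, L.getD (L'.getD 1 0) 0, L.getD (L'.getD 2 0) 0, L.getD (L'.getD 3 0) 0]

theorem lmul_getD (L L' : List ℕ) : ∀ i < chevD4.rank, (lmul L L').getD i 0 = L.getD (L'.getD i 0) 0 := by
  intro i hi
  have hi4 : i < 4 := hi
  interval_cases i <;> rfl

/-- The six symmetries of the diagram, as tables. -/
def six : List (List ℕ) := [[0, 1, 2, 3], [0, 1, 3, 2], [2, 1, 0, 3], [3, 1, 2, 0], [2, 1, 3, 0], [3, 1, 0, 2]]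

/-- The three transpositions. -/
def tr3 : List (List ℕ) := [[0, 1, 3, 2], [2, 1, 0, 3], [3, 1, 2, 0]]

/-- The two 3-cycles. -/
def cy2 : List (List ℕ) := [[2, 1, 3, 0], [3, 1, 0, 2]]

theorem six_lt : ∀ L ∈ six, ∀ i < chevD4.rank, L.getD i 0 < chevD4.rank := by decide

theorem six_inj : ∀ L ∈ six, ∀ i < chevD4.rank, ∀ j < chevD4.rank, L.getD i 0 = L.getD j 0 → i = j := by
  decide

theorem six_bonds : ∀ L ∈ six, ∀ i < chevD4.rank, ∀ j < chevD4.rank, i ≠ j →
    chevD4.bonds (L.getD i 0) (L.getD j 0) = chevD4.bonds i j := by decide +kernel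

theorem six_ext : ∀ L ∈ six, ∀ L' ∈ six, (∀ i < chevD4.rank, L.getD i 0 = L'.getD i 0) → L = L' := by decide

theorem tr3_of : ∀ L ∈ six, (¬ ∀ i < chevD4.rank, L.getD i 0 = i) →
    (∀ i < chevD4.rank, L.getD (L.getD i 0) 0 = i) → L ∈ tr3 := by decide

theorem cy2_of : ∀ L ∈ six, (¬ ∀ i < chevD4.rank, L.getD i 0 = i) →
    (∀ i < chevD4.rank, L.getD (L.getD (L.getD i 0) 0) 0 = i) → L ∈ cy2 := by decide

theorem six_cases : ∀ La ∈ tr3, ∀ Lc ∈ cy2, ∀ L ∈ six,
    L = [0, 1, 2, 3] ∨ L = La ∨ L = lmul La Lc ∨ L = lmul La (lmul La Lc) ∨ L = lmul (lmul La Lc) La ∨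
      L = lmul (lmul La (lmul La Lc)) La := by decide

section

variable {F : Type u} [Field F]

/-- The automorphism `φ` acts on the fundamental root elements through the table `L`. -/
structure LA (F : Type u) [Field F] (L : List ℕ) (φ : MulAut ↥(chevD4.group F)) : Prop where
  lt : ∀ i < chevD4.rank, L.getD i 0 < chevD4.rank
  act : LAct F L φ.toMonoidHom

theorem LA.mul {L L' : List ℕ} {φ ψ : MulAut ↥(chevD4.group F)} (hφ : LA F L φ) (hψ : LA F L' ψ) :
    LA F (lmul L L') (φ * ψ) where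
  lt := fun i hi => by
    rw [lmul_getD L L' i hi]
    exact hφ.lt _ (hψ.lt i hi)
  act := fun g i t hi =>
    (LAct.comp hψ.act hφ.act (L'' := lmul L L') (fun i hi => ⟨hψ.lt i hi, lmul_getD L L' i hi⟩)) g i t hi

theorem LA.one : LA F [0, 1, 2, 3] (1 : MulAut ↥(chevD4.group F)) where
  lt := by decide
  act := fun g i t hi =>
    (LAct.one (F := F) (L := [0, 1, 2, 3]) (by decide)) g i t hi

theorem LA.ext {L : List ℕ} {φ ψ : MulAut ↥(chevD4.group F)} (hφ : LA F L φ) (hψ : LA F L ψ) : φ = ψ := by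
  have e := LAct.ext hφ.act hψ.act
  apply MulEquiv.ext
  intro g
  exact DFunLike.congr_fun e g

theorem LA.congr {L L' : List ℕ} {φ : MulAut ↥(chevD4.group F)} (hφ : LA F L φ) (h : L = L') : LA F L' φ :=
  h ▸ hφ

/-- An automorphism acts through at most one table. -/
theorem LA.table_eq {L L' : List ℕ} {φ : MulAut ↥(chevD4.group F)} (hφ : LA F L φ) (hφ' : LA F L' φ) :
    ∀ i < chevD4.rank, L.getD i 0 = L'.getD i 0 := by
  intro i hi
  have hP := packB_D4g F
  have hS := hP.sem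
  have h1 := (hφ.act ⟨xU hS (chevD4.simple i) 1, xU_mem_group hS _ _⟩ i 1 hi).1 rfl
  have h2 := (hφ'.act ⟨xU hS (chevD4.simple i) 1, xU_mem_group hS _ _⟩ i 1 hi).1 rfl
  rw [h1] at h2
  have h3 : xU hS (chevD4.simple (L.getD i 0)) (1 : F) = xU hS (chevD4.simple (L'.getD i 0)) 1 :=
    Units.ext h2
  have h4 := xU_eq_imp hP _ _ (hP.tab.simple_lt _ (hφ.lt i hi)) (hP.tab.simple_lt _ (hφ'.lt i hi)) _ _ h3
    one_ne_zero
  exact hP.tab2.simple_inj _ (hφ.lt i hi) _ (hφ'.lt i hi) h4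

/-- An automorphism acting on the fundamental root elements through a diagram symmetry acts through one of the
six tables. -/
theorem la_of_sym {π : Equiv.Perm (Fin chevD4.rank)} (hπ : chevD4.IsDiagramSymmetry π)
    {φ : MulAut ↥(chevD4.group F)}
    (h : ∀ (g : ↥(chevD4.group F)) (i : Fin chevD4.rank) (t : F),
      (((g : GL chevD4.Idx F) : Matrix chevD4.Idx chevD4.Idx F) = chevD4.x F (chevD4.simple i) t →
        ((φ g : GL chevD4.Idx F) : Matrix chevD4.Idx chevD4.Idx F) = chevD4.x F (chevD4.simple (π i)) t) ∧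
      (((g : GL chevD4.Idx F) : Matrix chevD4.Idx chevD4.Idx F) = chevD4.x F (chevD4.neg (chevD4.simple i)) t →
        ((φ g : GL chevD4.Idx F) : Matrix chevD4.Idx chevD4.Idx F) =
          chevD4.x F (chevD4.neg (chevD4.simple (π i))) t)) :
    ∃ L ∈ six, (∀ i (hi : i < chevD4.rank), ((π ⟨i, hi⟩ : Fin chevD4.rank) : ℕ) = L.getD i 0) ∧ LA F L φ := by
  have hcase := d4_sym_cases6 (π ⟨0, by decide⟩) (π ⟨1, by decide⟩) (π ⟨2, by decide⟩) (π ⟨3, by decide⟩)
    ⟨fun h => absurd (π.injective h) (by decide), fun h => absurd (π.injective h) (by decide),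
    fun h => absurd (π.injective h) (by decide), fun h => absurd (π.injective h) (by decide),
    fun h => absurd (π.injective h) (by decide), fun h => absurd (π.injective h) (by decide),
    hπ ⟨1, by decide⟩ ⟨0, by decide⟩ (by decide), hπ ⟨1, by decide⟩ ⟨2, by decide⟩ (by decide),
    hπ ⟨1, by decide⟩ ⟨3, by decide⟩ (by decide)⟩
  have hL : ∃ L ∈ six, ∀ i (hi : i < chevD4.rank), ((π ⟨i, hi⟩ : Fin chevD4.rank) : ℕ) = L.getD i 0 := by
    refine ⟨_, hcase, ?_⟩
    intro i hi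
    have hi4 : i < 4 := hi
    interval_cases i <;> rfl
  obtain ⟨L, hLmem, hL⟩ := hL
  refine ⟨L, hLmem, hL, six_lt L hLmem, ?_⟩
  intro g i t hi
  have h1 := h g ⟨i, hi⟩ t
  simp only [hL i hi] at h1
  exact h1

/-- A graph automorphism of `D₄(F)` acts through one of the six tables. -/
theorem la_of_graph {φ : MulAut ↥(chevD4.group F)} (hφ : chevD4.IsGraphAut φ) : ∃ L ∈ six, LA F L φ := by
  obtain ⟨π, hπ, hg⟩ := hφ
  obtain ⟨L, hL, -, hLA⟩ := la_of_sym (F := F) (φ := φ) hπ (by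
    intro g i t
    have h := hg g i t
    rw [d4_graphExp_one (ringChar F) i (π i) i.isLt (π i).isLt, pow_one] at h
    exact h)
  exact ⟨L, hL, hLA⟩

/-- An automorphism acting through one of the six tables is a graph automorphism. -/
theorem graph_of_la {L : List ℕ} (hL : L ∈ six) {φ : MulAut ↥(chevD4.group F)} (hφ : LA F L φ) :
    chevD4.IsGraphAut φ := by
  have hinj : Function.Injective (fun i : Fin chevD4.rank => (⟨L.getD i.val 0, six_lt L hL i.val i.isLt⟩ :
      Fin chevD4.rank)) := by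
    intro i j hij
    apply Fin.ext
    exact six_inj L hL i.val i.isLt j.val j.isLt (congrArg Fin.val hij)
  refine ⟨Equiv.ofBijective _ (Finite.injective_iff_bijective.1 hinj), ?_, ?_⟩
  · intro i j hij
    exact six_bonds L hL i.val i.isLt j.val j.isLt (fun h => hij (Fin.ext h))
  · intro g i t
    have h := hφ.act g i.val t i.isLt
    rw [d4_graphExp_one (ringChar F) i _ i.isLt (Fin.isLt _), pow_one]
    exact h

theorem perm_eq_one {π : Equiv.Perm (Fin chevD4.rank)} {L : List ℕ}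
    (hL : ∀ i (hi : i < chevD4.rank), ((π ⟨i, hi⟩ : Fin chevD4.rank) : ℕ) = L.getD i 0)
    (h : ∀ i < chevD4.rank, L.getD i 0 = i) : π = 1 := by
  apply Equiv.ext
  intro i
  apply Fin.ext
  have h1 := hL i.val i.isLt
  rw [h i.val i.isLt] at h1
  exact h1

theorem perm_apply {π : Equiv.Perm (Fin chevD4.rank)} {L : List ℕ}
    (hL : ∀ i (hi : i < chevD4.rank), ((π ⟨i, hi⟩ : Fin chevD4.rank) : ℕ) = L.getD i 0)
    (j : Fin chevD4.rank) : ((π j : Fin chevD4.rank) : ℕ) = L.getD j.val 0 := hL j.val j.isLt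

/-- Every one of the six tables is realised by an automorphism. -/
theorem exists_la (F : Type u) [Field F] : ∀ L ∈ six, ∃ φ : MulAut ↥(chevD4.group F), LA F L φ := by
  obtain ⟨πa, a, ⟨hπa1, hπa2⟩, hsa, ha⟩ := Cfsg.Agent.H56.OS.d4T F
  obtain ⟨πc, c, ⟨hπc1, hπc3⟩, hsc, hc⟩ := Cfsg.Agent.H15.OS.d4C F
  obtain ⟨La, hLa6, hLa, hA⟩ := la_of_sym (F := F) hsa ha
  obtain ⟨Lc, hLc6, hLc, hCc⟩ := la_of_sym (F := F) hsc hc
  have hLa3 : La ∈ tr3 := by
    apply tr3_of La hLa6
    · intro h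
      exact hπa1 (perm_eq_one hLa h)
    · intro i hi
      have h1 : πa (πa ⟨i, hi⟩) = ⟨i, hi⟩ := by
        have := congrArg (fun p : Equiv.Perm (Fin chevD4.rank) => p ⟨i, hi⟩) hπa2
        exact this
      have h2 := perm_apply hLa (πa ⟨i, hi⟩)
      rw [h1, perm_apply hLa ⟨i, hi⟩] at h2
      exact h2.symm
  have hLc2 : Lc ∈ cy2 := by
    apply cy2_of Lc hLc6
    · intro h
      exact hπc1 (perm_eq_one hLc h)
    · intro i hi
      have h1 : πc (πc (πc ⟨i, hi⟩)) = ⟨i, hi⟩ := by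
        have := congrArg (fun p : Equiv.Perm (Fin chevD4.rank) => p ⟨i, hi⟩) hπc3
        exact this
      have h2 := perm_apply hLc (πc (πc ⟨i, hi⟩))
      rw [h1, perm_apply hLc (πc ⟨i, hi⟩), perm_apply hLc ⟨i, hi⟩] at h2
      exact h2.symm
  have hB : LA F (lmul La Lc) (a * c) := hA.mul hCc
  have hAB : LA F (lmul La (lmul La Lc)) (a * (a * c)) := hA.mul hB
  intro L hL6
  rcases six_cases La hLa3 Lc hLc2 L hL6 with h | h | h | h | h | h
  · exact ⟨1, LA.one.congr h.symm⟩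
  · exact ⟨a, hA.congr h.symm⟩
  · exact ⟨a * c, hB.congr h.symm⟩
  · exact ⟨a * (a * c), hAB.congr h.symm⟩
  · exact ⟨a * c * a, (hB.mul hA).congr h.symm⟩
  · exact ⟨a * (a * c) * a, (hAB.mul hA).congr h.symm⟩

end

/-- The outer nodes of the diagram of `D₄`. -/
def oNode : Fin 3 → ℕ := ![0, 2, 3]

/-- The table of the diagram symmetry permuting the three outer nodes as `ρ` does. -/
def tab (ρ : Equiv.Perm (Fin 3)) : List ℕ := [oNode (ρ 0), 1, oNode (ρ 1), oNode (ρ 2)]

theorem tab_mem : ∀ ρ : Equiv.Perm (Fin 3), tab ρ ∈ six := by decide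

theorem tab_one : tab 1 = [0, 1, 2, 3] := by decide

theorem tab_mul : ∀ ρ ρ' : Equiv.Perm (Fin 3), lmul (tab ρ) (tab ρ') = tab (ρ * ρ') := by decide

theorem tab_inj : ∀ ρ ρ' : Equiv.Perm (Fin 3), tab ρ = tab ρ' → ρ = ρ' := by decide

theorem tab_surj : ∀ L ∈ six, ∃ ρ : Equiv.Perm (Fin 3), tab ρ = L := by decide

section

variable (F : Type u) [Field F]

/-- The automorphism of `D₄(F)` acting through the table of `ρ`. -/
noncomputable def phiFun (ρ : Equiv.Perm (Fin 3)) : MulAut ↥(chevD4.group F) :=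
  (exists_la F (tab ρ) (tab_mem ρ)).choose

theorem phiFun_spec (ρ : Equiv.Perm (Fin 3)) : LA F (tab ρ) (phiFun F ρ) :=
  (exists_la F (tab ρ) (tab_mem ρ)).choose_spec

/-- The graph automorphisms of `D₄(F)`, as a homomorphism from the permutations of the outer nodes. -/
noncomputable def phiHom : Equiv.Perm (Fin 3) →* MulAut ↥(chevD4.group F) where
  toFun := phiFun F
  map_one' := (phiFun_spec F 1).ext (LA.one.congr tab_one.symm)
  map_mul' ρ ρ' := (phiFun_spec F (ρ * ρ')).ext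
    (((phiFun_spec F ρ).mul (phiFun_spec F ρ')).congr (tab_mul ρ ρ'))

theorem phiHom_spec (ρ : Equiv.Perm (Fin 3)) : LA F (tab ρ) (phiHom F ρ) := phiFun_spec F ρ

theorem phiHom_injective : Function.Injective (phiHom F) := by
  intro ρ ρ' h
  apply tab_inj
  have h1 := phiHom_spec F ρ
  have h2 := phiHom_spec F ρ'
  rw [h] at h1
  exact six_ext _ (tab_mem ρ) _ (tab_mem ρ') (h1.table_eq h2)

end

/-- **P-GRAPH**: the graph automorphisms of `D₄(F)` are the range of an injective homomorphism from the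
symmetric group of degree 3. -/
theorem d4_graph_hom (F : Type u) [Field F] :
    ∃ Φ : Equiv.Perm (Fin 3) →* MulAut ↥(chevD4.group F), Function.Injective Φ ∧
      ∀ g : MulAut ↥(chevD4.group F), chevD4.IsGraphAut g ↔ g ∈ Φ.range := by
  refine ⟨phiHom F, phiHom_injective F, fun g => ⟨fun hg => ?_, fun hg => ?_⟩⟩
  · obtain ⟨L, hL6, hLA⟩ := la_of_graph hg
    obtain ⟨ρ, rfl⟩ := tab_surj L hL6
    exact ⟨ρ, (phiHom_spec F ρ).ext hLA⟩
  · obtain ⟨ρ, rfl⟩ := hg
    exact graph_of_la (tab_mem ρ) (phiHom_spec F ρ)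

end Cfsg.Agent.H62.D4P
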