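import Mathlib
import Cfsg.Agent.H20.HtDefs
import Cfsg.Agent.H76.Imprim

/-!
S3371-ODD (helper62, for helper20's S3371 project): for odd `p`, a faithful irreducible
`p`-group with equal stabilizer orders has no noncyclic normal abelian subgroup.
-/

set_option autoImplicit false
set_option linter.style.haveILetI false
set_option linter.unusedSimpArgs false
set_option linter.unusedSectionVars false
set_option linter.unusedVariables false

namespace Cfsg.Agent.H62.Ht

open Cfsg.Agent.H20.Ht

universe u v

theorem perm_no_fix (p : ℕ) [Fact p.Prime] (σ : Equiv.Perm (Fin p)) (hσ : orderOf σ = p)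
    (i : Fin p) : σ i ≠ i := by
  have hp : p.Prime := Fact.out
  have h0 : (Fintype.card (Fin p)).Prime := by rw [Fintype.card_fin]; exact hp
  have hσ1 : orderOf σ = Fintype.card (Fin p) := by rw [Fintype.card_fin]; exact hσ
  have hσ2 : σ.IsCycle := Equiv.Perm.isCycle_of_prime_order'' h0 hσ1
  have hσ3 : σ.support = Finset.univ :=
    Finset.eq_univ_of_card σ.support (hσ2.orderOf.symm.trans hσ1)
  have : i ∈ σ.support := by rw [hσ3]; exact Finset.mem_univ i
  exact Equiv.Perm.mem_support.mp this

theorem oddStmt : StmtOdd.{u, v} := by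
  intro q _ V _ _ _ _ G _ _ ρ p _ hG hp2 hpq hinj hirr hE A hAn hAc hAnc
  classical
  have hp : p.Prime := Fact.out
  have hq : q.Prime := Fact.out
  let ρ' : G →* Module.End (ZMod q) V :=
    { toFun := fun g => (ρ g : V →ₗ[ZMod q] V)
      map_one' := by rw [map_one]; rfl
      map_mul' := fun a b => by rw [map_mul]; rfl }
  have hinj' : Function.Injective ρ' := by
    intro a b hab
    apply hinj
    ext w
    exact congrArg (fun f : Module.End (ZMod q) V => f w) hab
  have hirr' : Cfsg.Agent.H76.LinDer.Irr ρ' := fun W hW => hirr W hW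
  have hpF : (p : ZMod q) ≠ 0 := by
    intro h0
    have hdvd : q ∣ p := (ZMod.natCast_eq_zero_iff p q).mp h0
    exact hpq ((Nat.prime_dvd_prime_iff_eq hq hp).mp hdvd).symm
  obtain ⟨H, W, h1, h2, h3, h4, h5, h6⟩ :=
    Cfsg.Agent.H76.Imprim.imprim_main p hG hpF ρ' hinj' hirr' A hAn hAc hAnc
  have h4' : ∀ h ∈ H, ∀ i, ∀ w ∈ W i, ρ h w ∈ W i := h4
  have h5' : ∀ i, ∃ h ∈ H, h ≠ 1 ∧ ∀ w ∈ W i, ρ h w = w := h5
  have h6' : ∀ g : G, g ∉ H → ∃ σ : Equiv.Perm (Fin p), orderOf σ = p ∧
      ∀ i, ∀ w : V, w ∈ W (σ i) ↔ ∃ u ∈ W i, ρ g u = w := h6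
  have hdisj : ∀ i : Fin p, ∀ x ∈ W i, ∀ y ∈ ⨆ j, ⨆ (_ : j ≠ i), W j, x = y → x = 0 := by
    intro i x hx y hy hxy
    exact (Submodule.disjoint_def.mp (h3 i)) x hx (hxy ▸ hy)
  have hmem : ∀ i j : Fin p, j ≠ i → W j ≤ ⨆ k, ⨆ (_ : k ≠ i), W k := by
    intro i j hji
    exact le_iSup₂_of_le j hji le_rfl
  obtain ⟨i, hi⟩ : ∃ i, W i ≠ ⊥ := by
    by_contra hcon
    push Not at hcon
    have hbot : iSup W = ⊥ := by
      rw [iSup_eq_bot]
      exact hcon
    rw [h2] at hbot
    exact top_ne_bot hbot
  obtain ⟨vi, hvi, hvi0⟩ := (Submodule.ne_bot_iff _).mp hi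
  obtain ⟨h, hhH, hh1, hhfix⟩ := h5' i
  have key : ∀ k : Fin p, k ≠ i → ∀ vk ∈ W k, vk ≠ 0 → stab ρ vi = stab ρ vk := by
    intro k hki vk hvk hvk0
    have hsum0 : vi + vk ≠ 0 := by
      intro h0
      apply hvi0
      apply hdisj i vi hvi (-vk) (hmem i k hki (Submodule.neg_mem _ hvk))
      exact eq_neg_of_add_eq_zero_left h0
    have hle : stab ρ (vi + vk) ≤ stab ρ vi ⊓ stab ρ vk := by
      intro g hg
      rw [mem_stab, map_add] at hg
      by_cases hgH : g ∈ H
      · have ha : ρ g vi ∈ W i := h4' g hgH i vi hvi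
        have hb : ρ g vk ∈ W k := h4' g hgH k vk hvk
        have e1 : ρ g vi - vi = vk - ρ g vk := by
          rw [sub_eq_sub_iff_add_eq_add, hg, add_comm]
        have e2 : ρ g vi - vi = 0 :=
          hdisj i _ (Submodule.sub_mem _ ha hvi) _
            (hmem i k hki (Submodule.sub_mem _ hvk hb)) e1
        have e3 : vk - ρ g vk = 0 := by rw [← e1]; exact e2
        exact ⟨sub_eq_zero.mp e2, (sub_eq_zero.mp e3).symm⟩
      · exfalso
        obtain ⟨σ, hσ, hσW⟩ := h6' g hgH
        have ha : ρ g vi ∈ W (σ i) := (hσW i _).mpr ⟨vi, hvi, rfl⟩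
        have hb : ρ g vk ∈ W (σ k) := (hσW k _).mpr ⟨vk, hvk, rfl⟩
        have hgi0 : ρ g vi ≠ 0 := by
          intro h0
          apply hvi0
          exact (LinearEquiv.map_eq_zero_iff _).mp h0
        have hgk0 : ρ g vk ≠ 0 := by
          intro h0
          apply hvk0
          exact (LinearEquiv.map_eq_zero_iff _).mp h0
        have hσik : σ k ≠ σ i := fun h => hki (σ.injective h)
        have hσi : σ i = i ∨ σ i = k := by
          by_contra hcon
          push Not at hcon
          apply hgi0
          apply hdisj (σ i) _ ha (vi + vk - ρ g vk)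
          · apply Submodule.sub_mem
            · apply Submodule.add_mem
              · exact hmem (σ i) i (Ne.symm hcon.1) hvi
              · exact hmem (σ i) k (Ne.symm hcon.2) hvk
            · exact hmem (σ i) (σ k) hσik hb
          · rw [← hg]
            abel
        have hσk : σ k = i ∨ σ k = k := by
          by_contra hcon
          push Not at hcon
          apply hgk0
          apply hdisj (σ k) _ hb (vi + vk - ρ g vi)
          · apply Submodule.sub_mem
            · apply Submodule.add_mem
              · exact hmem (σ k) i (Ne.symm hcon.1) hvi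
              · exact hmem (σ k) k (Ne.symm hcon.2) hvk
            · exact hmem (σ k) (σ i) (Ne.symm hσik) ha
          · rw [← hg]
            abel
        rcases hσi with hσi | hσi
        · exact perm_no_fix p σ hσ i hσi
        · rcases hσk with hσk | hσk
          · have hσ2 : orderOf (σ ^ 2) = p := by
              rw [Nat.Coprime.orderOf_pow, hσ]
              rw [hσ]
              exact (Nat.coprime_primes hp Nat.prime_two).mpr hp2
            apply perm_no_fix p (σ ^ 2) hσ2 i
            rw [pow_two, Equiv.Perm.mul_apply, hσi, hσk]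
          · exact perm_no_fix p σ hσ k hσk
    have hc1 : stab ρ (vi + vk) = stab ρ vi := by
      apply Subgroup.eq_of_le_of_card_ge (hle.trans inf_le_left)
      rw [hE vi (vi + vk) hvi0 hsum0]
    have hc2 : stab ρ (vi + vk) = stab ρ vk := by
      apply Subgroup.eq_of_le_of_card_ge (hle.trans inf_le_right)
      rw [hE vk (vi + vk) hvk0 hsum0]
    rw [← hc1, hc2]
  let Fx : Submodule (ZMod q) V :=
    { carrier := {w | ρ h w = w}
      add_mem' := fun {x y} hx hy => by
        show ρ h (x + y) = x + y
        rw [map_add, hx, hy]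
      zero_mem' := map_zero _
      smul_mem' := fun c x hx => by
        show ρ h (c • x) = c • x
        rw [map_smul, hx] }
  have hWle : ∀ k, W k ≤ Fx := by
    intro k w hw
    by_cases hki : k = i
    · subst hki
      exact hhfix w hw
    · by_cases hw0 : w = 0
      · rw [hw0]
        exact Fx.zero_mem
      · have : h ∈ stab ρ w := by
          rw [← key k hki w hw hw0]
          exact hhfix vi hvi
        exact this
  have hFx : Fx = ⊤ := by
    rw [eq_top_iff, ← h2]
    exact iSup_le hWle
  apply hh1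
  apply hinj
  rw [map_one]
  ext w
  have : w ∈ Fx := by
    rw [hFx]
    exact Submodule.mem_top
  exact this

end Cfsg.Agent.H62.Ht
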