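import Mathlib
import Cfsg.Agent.H20.HtDefs

/-!
S3371-PQ (helper62, for helper20's S3371 project): a faithful `q`-group on a `ZMod q`-module
with equal stabilizer orders is trivial.
-/

set_option autoImplicit false
set_option linter.style.haveILetI false
set_option linter.unusedSimpArgs false
set_option linter.unusedSectionVars false
set_option linter.unusedVariables false

namespace Cfsg.Agent.H62.Ht

open Cfsg.Agent.H20.Ht

universe u v

theorem pqStmt : StmtPQ.{u, v} := by
  intro q _ V _ _ _ _ G _ _ ρ hG hinj hE
  obtain ⟨b, hb, hb0⟩ : ∃ b : V, (∀ g : G, ρ g b = b) ∧ b ≠ 0 := by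
    letI : MulAction G V := MulAction.compHom V ρ
    have hcard : q ∣ Nat.card V := by
      have h1 := Module.natCard_eq_pow_finrank (K := ZMod q) (V := V)
      rw [Nat.card_zmod] at h1
      rw [h1]
      exact dvd_pow_self q (Module.finrank_pos (R := ZMod q) (M := V)).ne'
    have h0' : (0 : V) ∈ MulAction.fixedPoints G V := by
      intro g
      show ρ g 0 = 0
      exact map_zero _
    obtain ⟨b, hb, hb0⟩ := hG.exists_fixed_point_of_prime_dvd_card_of_fixed_point V hcard h0'
    exact ⟨b, fun g => hb g, fun h => hb0 h.symm⟩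
  have htop : stab ρ b = ⊤ := by
    rw [eq_top_iff]
    intro g _
    exact hb g
  have hall : ∀ v : V, v ≠ 0 → stab ρ v = ⊤ := by
    intro v hv
    apply Subgroup.eq_top_of_card_eq
    rw [hE v b hv hb0, htop, Subgroup.card_top]
  refine ⟨fun g h => ?_⟩
  have key : ∀ g : G, g = 1 := by
    intro g
    apply hinj
    rw [map_one]
    ext v
    by_cases hv : v = 0
    · rw [hv, map_zero, map_zero]
    · have : g ∈ stab ρ v := by rw [hall v hv]; exact Subgroup.mem_top g
      exact this
  rw [key g, key h]

end Cfsg.Agent.H62.Ht
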