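import Mathlib
import Cfsg.Agent.H20.HtDefs

/-!
S3371-STAB (helper62, for helper20's S3371 project): equal orbit sizes give equal stabilizer
orders.
-/

set_option autoImplicit false
set_option linter.style.haveILetI false
set_option linter.unusedSimpArgs false
set_option linter.unusedSectionVars false
set_option linter.unusedVariables false

namespace Cfsg.Agent.H62.Ht

open Cfsg.Agent.H20.Ht

universe u v

theorem orbit_mul_stab {q : ℕ} [Fact q.Prime] {V : Type v} [AddCommGroup V] [Module (ZMod q) V]
    {G : Type u} [Group G] (ρ : G →* (V ≃ₗ[ZMod q] V)) (v : V) :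
    Nat.card {u : V | ∃ g : G, ρ g v = u} * Nat.card (stab ρ v) = Nat.card G := by
  letI : MulAction G V := MulAction.compHom V ρ
  have h1 : {u : V | ∃ g : G, ρ g v = u} = MulAction.orbit G v := by
    ext u
    rfl
  have h2 : stab ρ v = MulAction.stabilizer G v := by
    ext g
    rfl
  rw [h1, h2, Nat.card_coe_set_eq, ← MulAction.index_stabilizer, mul_comm]
  exact Subgroup.card_mul_index _

theorem stabStmt : StmtStab.{u, v} := by
  intro q _ V _ _ _ G _ _ ρ hH v w hv hw
  have h1 := orbit_mul_stab ρ v
  have h2 := orbit_mul_stab ρ w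
  rw [hH v w hv hw] at h1
  have hne : Nonempty {u : V | ∃ g : G, ρ g w = u} := ⟨⟨ρ 1 w, 1, rfl⟩⟩
  have hpos : 0 < Nat.card {u : V | ∃ g : G, ρ g w = u} := Nat.card_pos
  exact Nat.eq_of_mul_eq_mul_left hpos (h1.trans h2.symm)

end Cfsg.Agent.H62.Ht
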