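import Cfsg.Agent.H52.JxDefs
import Cfsg.Agent.H48.JyV
import Cfsg.Agent.H48.JxVne
import Cfsg.Agent.H11.JyGood
import Cfsg.Agent.H62.JxKBCore

/-!
# S2953 / (X5) JX-KBNORM: for `V ⊄ Q₁`, `N_S(T')` normalizes `Q₁ = O₂(K' ⊔ T')`

Hypothesis-free: `H62.Jx.kb_core` (on `H29.R1.r1_out_core`) with helper48's `vfacts` / `stVne`
and helper11's `goodA` / `goodB` for the configuration `Base S L T' K' L'`.
-/

set_option autoImplicit false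
open Cfsg

namespace Cfsg.Agent.H62.Jx

universe u

/-- (X5) JX-KBNORM. -/
theorem kbNorm : Cfsg.Agent.H52.Jx.StKBNorm.{u} := by
  intro G _ _ S M K L T' K' L' hR hVQ
  obtain ⟨hVne', hVT⟩ := Cfsg.Agent.H48.Jx.stVne S M K L T' K' L' hR
  obtain ⟨hB, hNS, hB', hT'⟩ := hR
  obtain ⟨hV4, hVe, hNV, ⟨z, hzV, hz1, hzZ, -, -, -⟩, hCu, -⟩ :=
    Cfsg.Agent.H48.Jy.vfacts S M K L T' K' L' hB hNS hB' hT'
  obtain ⟨hCQ, hSyl, -⟩ := Cfsg.Agent.H11.Jy.goodA S L T' K' L' hB'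
  obtain ⟨h6, -⟩ := Cfsg.Agent.H11.Jy.goodB S L T' K' L' hB'
  have hT'S : T' ≤ (S : Subgroup G) := hB'.2.2.2.2.2.1
  have hK'L : ¬ K' ≤ L := hB'.2.2.2.2.2.2.1.2.1
  have hSL : (S : Subgroup G) ≤ L := Subgroup.le_normalizer.trans hNS
  have hzS : ∀ s ∈ (S : Subgroup G), s * z = z * s := by
    intro s hs
    have h := (Cfsg.Agent.H63.Sn.mem_omegaCenterOf _ hzZ).2.1
    exact (Subgroup.mem_centralizer_iff.mp h) s hs
  exact kb_core (S : Subgroup G) L T' (K' ⊔ T') (pCoreOf 2 (K' ⊔ T'))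
    (omegaCenterOf (pCoreOf 2 L)) z hT'S S.isPGroup' le_sup_right
    (Cfsg.Agent.Helper55.J48.pCoreOf_le_of_sylowIn hSyl)
    (Cfsg.Agent.H51.le_normalizer_pCoreOf 2 _) (Cfsg.Agent.H51.pCoreOf_isPGroup 2 _)
    (fun R hRP hR2 hn => Cfsg.Agent.H51.le_pCoreOf 2 hRP hn hR2)
    hCQ h6 hSyl.2.2 (fun h => hK'L (le_sup_left.trans h))
    hV4 hVe (by rw [hNV]; exact hSL) hVT hzV hz1 hzS (hCu z hzV hz1) hVQ

example : Cfsg.Agent.H52.Jx.StKBNorm.{u} := kbNorm.{u}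

end Cfsg.Agent.H62.Jx

#print axioms Cfsg.Agent.H62.Jx.kbNorm
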