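import Mathlib
import Cfsg.Agent.H64.JzDefs
import Cfsg.Agent.H58.Q46.Final
import Cfsg.Agent.S2950
import Cfsg.Agent.S2948
import Cfsg.Agent.S2943
import Cfsg.Agent.H63.SnIfV
import Cfsg.Agent.H14.Thompson

/-!
helper62: piece JZ-NORM of helper64's project JZ (S2951 / S2952): `norm : StNorm`.
Each clause of the conclusion gives `T ≤ N_G(K)` (via S2943 in `L`).
-/

set_option autoImplicit false
set_option linter.unusedVariables false
set_option linter.unusedSimpArgs false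
open Cfsg

namespace Cfsg.Agent.H62.Jz

open Cfsg.Agent.H64.Jz

universe u

/-- JZ-NORM. -/
theorem norm : StNorm.{u} := by
  intro G _ _ S M T K L hB hC
  obtain ⟨hZN, hO, hM, hMJ, hT, hTSle, hK, hLmax, hKJL⟩ := hB
  obtain ⟨hL2, hNsol, hZ⟩ := hZN
  have hTp : IsPGroup 2 ↥T := hT.1.1
  have hT1 : T ≠ ⊥ := hT.1.2.1
  have hKJ : IsJComponent T K := hK.1.1
  obtain ⟨L0, hL0max, hL0le, hL0uniq, _, hL0syl⟩ :=
    Cfsg.Agent.S2950.result hL2 hNsol hZ hO S M hM hMJ T hT K hK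
  have hLL0 : L = L0 := hL0uniq L hLmax hKJL
  subst hLL0
  have hKL : K ≤ L := le_sup_left.trans hKJL
  have hLM : ¬ L ≤ M := fun h => hK.2.1 (hKL.trans h)
  have hJT : thompsonSubgroupOf 2 T ≤ T := Cfsg.Agent.H14.thompsonSubgroupOf_le 2 T
  have h48 := Cfsg.Agent.S2948.result hL2 hNsol hZ hO S M hM hMJ T hT L hLmax.1 hLM T
    hL0syl hJT
  have hLT : L ∈ jOvergroups T := h48.2.2.1
  obtain ⟨hWc, hsup⟩ := Cfsg.Agent.H58.Q46.s2946 hL2 hNsol hZ T hTp hT1 K hKJ _ rfl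
  have hZ0 : omegaCenterOf (thompsonSubgroupOf 2 T) ≤
      T ⊓ Subgroup.centralizer (T : Set G) := by
    have hZ0T : omegaCenterOf (thompsonSubgroupOf 2 T) ≤ T :=
      fun x hx => hJT (Cfsg.Agent.H63.Sn.mem_omegaCenterOf _ hx).1
    have hS : omegaCenterOf (S : Subgroup G) ≤ Subgroup.centralizer (T : Set G) := by
      intro x hx
      exact Subgroup.centralizer_le (SetLike.coe_subset_coe.mpr hTSle)
        (Cfsg.Agent.H63.Sn.mem_omegaCenterOf _ hx).2.1
    have hTc : omegaCenterOf T ≤ Subgroup.centralizer (T : Set G) :=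
      fun x hx => (Cfsg.Agent.H63.Sn.mem_omegaCenterOf _ hx).2.1
    refine le_inf hZ0T ?_
    rcases hC with ⟨h, _⟩ | ⟨h, _, _⟩ | ⟨h, _, _⟩
    · rw [← h]; exact hS
    · rw [← h]; exact hS
    · rw [← h]; exact hTc
  have hne : omegaCenterOf (thompsonSubgroupOf 2 T) ⊓ wOf K ≠ ⊥ := by
    intro h
    rw [h, Subgroup.card_bot] at hWc
    omega
  apply Cfsg.Agent.S2943.result hL2 hNsol hZ T hTp hT1 L hLT K hKJ hKL
  intro hbot
  apply hne
  rw [eq_bot_iff, ← hbot]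
  exact inf_le_inf_right _ hZ0

example : ∀ {G : Type u} [Group G] [Finite G] (S : Sylow 2 G) (M T K L : Subgroup G),
  Base S M T K L → Concl S T L → T ≤ Subgroup.normalizer (K : Set G) := norm.{u}

example : Cfsg.Agent.H64.Jz.StNorm.{u} := norm.{u}

end Cfsg.Agent.H62.Jz

#print axioms Cfsg.Agent.H62.Jz.norm
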