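import Cfsg.Agent.H64.JzAsm2
import Cfsg.Agent.H87.ZcLtJz
import Cfsg.Agent.H3.JzOut1
import Cfsg.Agent.H25.JzOut2
import Cfsg.Agent.H90.JzSetup
import Cfsg.Agent.H46.JzNSE
import Cfsg.Agent.H91.JzMaxS
import Cfsg.Agent.H26.JzResAof
import Cfsg.Agent.H91.JzResNof
import Cfsg.Agent.H4.JzZ2of
import Cfsg.Agent.H28.JkMain
import Cfsg.Agent.H52.SrMain
import Cfsg.Agent.H4.JkA
import Cfsg.Agent.H65.JkFix
import Cfsg.Agent.H24.JkZ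
import Cfsg.Agent.H5.JkTr
import Cfsg.Agent.H44.JkTI
import Cfsg.Agent.H4.JkF1
import Cfsg.Agent.H58.Q46.Final
import Cfsg.Agent.H62.JzSC
import Cfsg.Agent.H62.JzNorm
import Cfsg.Agent.H20.JtNormal

/-!
helper62: a complete assembly of the clause statement `StMain` of project JZ (S2951) from landed
pieces, and the S2951 statement itself (backup / cross-check of helper64's final file).
-/

set_option autoImplicit false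
open Cfsg

namespace Cfsg.Agent.H62.JzAll

open Cfsg.Agent.H64.Jz

universe u

theorem z2 : StZ2.{u} :=
  Cfsg.Agent.H4.Jz.z2_of (fun hL hN hZ T hT hT1 K hK Z₀ hZ₀ =>
    Cfsg.Agent.H58.Q46.s2946 hL hN hZ T hT hT1 K hK Z₀ hZ₀)

theorem lt : StLt.{u} :=
  Cfsg.Agent.H87.Zc.stLt_of46 (fun hL hN hZ T hT hT1 K hK Z₀ hZ₀ =>
    Cfsg.Agent.H58.Q46.s2946 hL hN hZ T hT hT1 K hK Z₀ hZ₀)

theorem resA : StResA.{u} :=
  Cfsg.Agent.H26.JzA.resA_of (fun hL hN hZ T hT hT1 K hK Z₀ hZ₀ =>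
    Cfsg.Agent.H58.Q46.s2946 hL hN hZ T hT hT1 K hK Z₀ hZ₀)

theorem resN : StResN.{u} :=
  Cfsg.Agent.H91.JzR.resN_of (fun hL hN hZ T hT hT1 K hK Z₀ hZ₀ =>
    Cfsg.Agent.H58.Q46.s2946 hL hN hZ T hT hT1 K hK Z₀ hZ₀) z2

theorem setup : StSetup.{u} :=
  Cfsg.Agent.H90.Jz.setup Cfsg.Agent.H46.Jz.nse Cfsg.Agent.H91.Jz.maxS

theorem kill : StKill.{u} :=
  Cfsg.Agent.H28.Jk.kill Cfsg.Agent.H52.Sr.struct Cfsg.Agent.H4.Jk.ka Cfsg.Agent.H65.Jk.kfix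
    Cfsg.Agent.H24.Jk.kz Cfsg.Agent.H5.Jk.ktr Cfsg.Agent.H44.Jk.kti Cfsg.Agent.H4.Jk.kf1
    z2 lt Cfsg.Agent.H62.Jz.norm

theorem stMain : StMain.{u} :=
  main lt Cfsg.Agent.H62.Jz.sc Cfsg.Agent.H3.Jz.out1 Cfsg.Agent.H25.Jz.out2 setup resA resN kill

theorem s2951 {G : Type u} [Group G] [Finite G] (hL : Cfsg.IsCharacteristicTwoType G) (hN : ∀ N : Subgroup G, Cfsg.IsTwoLocal N → Group.IsSolvable ↥N)
    (hZ : ∀ S : Sylow 2 G, Subgroup.centralizer (Cfsg.omegaCenterOf (S : Subgroup G) : Set G) ≤ Subgroup.normalizer ((S : Subgroup G) : Set G)) (hO : Cfsg.pCore 2 G = ⊥) (S : Sylow 2 G) (M : Subgroup G) (hM : Cfsg.IsTwoLocal M)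
    (hMJ : Subgroup.normalizer (Cfsg.thompsonSubgroupOf 2 (S : Subgroup G) : Set G) ≤ M) (T : Subgroup G) (hT : T ∈ Cfsg.maxStraddlingTwoSubgroups M)
    (hTS : T ≤ (S : Subgroup G)) (K : Subgroup G) (hK : K ∈ Cfsg.jComponentsOutside M T)
    (L : Subgroup G) (hLmax : Cfsg.IsMaximalTwoLocal L) (hKL : K ⊔ Cfsg.thompsonSubgroupOf 2 T ≤ L)
    (Z Z₀ : Subgroup G) (hZdef : Z = Cfsg.omegaCenterOf (S : Subgroup G)) (hZ₀ : Z₀ = Cfsg.omegaCenterOf (Cfsg.thompsonSubgroupOf 2 T)) :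
    Z₀ ⊓ Cfsg.wOf K ≠ ⊥ ∧
      ((Z = Z₀ ∧ Nat.card ↥Z₀ = 2) ∨ (Z = Z₀ ∧ Nat.card ↥Z₀ = 4 ∧ T = (S : Subgroup G)) ∨
        (Cfsg.omegaCenterOf T = Z₀ ∧ Nat.card ↥Z₀ = 4 ∧
          (L ⊓ Subgroup.centralizer (Z₀ : Set G)).relIndex (Subgroup.normalizer (Z₀ : Set G)) = 2)) :=
  result_from stMain
    (fun T hT hT1 K hK => (Cfsg.Agent.H58.Q46.s2946 hL hN hZ T hT hT1 K hK _ rfl).1)
    hL hN hZ hO S M hM hMJ T hT hTS K hK L hLmax hKL Z Z₀ hZdef hZ₀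

theorem s2952 {G : Type u} [Group G] [Finite G] (hL : Cfsg.IsCharacteristicTwoType G) (hN : ∀ N : Subgroup G, Cfsg.IsTwoLocal N → Group.IsSolvable ↥N)
    (hZ : ∀ S : Sylow 2 G, Subgroup.centralizer (Cfsg.omegaCenterOf (S : Subgroup G) : Set G) ≤ Subgroup.normalizer ((S : Subgroup G) : Set G)) (hO : Cfsg.pCore 2 G = ⊥) (S : Sylow 2 G) (M : Subgroup G) (hM : Cfsg.IsTwoLocal M)
    (hMJ : Subgroup.normalizer (Cfsg.thompsonSubgroupOf 2 (S : Subgroup G) : Set G) ≤ M) (T : Subgroup G) (hT : T ∈ Cfsg.maxStraddlingTwoSubgroups M)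
    (K : Subgroup G) (hK : K ∈ Cfsg.jComponentsOutside M T) : (K.subgroupOf (K ⊔ T)).Normal :=
  Cfsg.Agent.H20.Jt.s2952_of
    (fun hL hN hZ hO S M hM hMJ T hT hTS K hK L hLmax hKL Z Z₀ hZdef hZ₀ =>
      s2951 hL hN hZ hO S M hM hMJ T hT hTS K hK L hLmax hKL Z Z₀ hZdef hZ₀)
    hL hN hZ hO S M hM hMJ T hT K hK

end Cfsg.Agent.H62.JzAll

#print axioms Cfsg.Agent.H62.JzAll.s2951
#print axioms Cfsg.Agent.H62.JzAll.s2952
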