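import Cfsg.Agent.H78.OdDefs
import Cfsg.Agent.H42.CharDiag

/-!
# OD-DA1 (helper62, for helper78's S2608, `m = 4` half): a diagonal automorphism of `D₄(F)` acts through
scalars on the fundamental root elements
-/

set_option autoImplicit false
set_option linter.unusedVariables false

namespace Cfsg.Agent.H62.Od

open Cfsg Cfsg.Lie Cfsg.Agent.H23 Cfsg.Agent.H23.Stb Cfsg.Agent.H13.D4N Cfsg.Agent.H78.Od

universe u

/-- **OD-DA1**. -/
theorem dA1 : StDA1.{u} := by
  intro F _ d hd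
  obtain ⟨χ, hχ, hd⟩ := hd
  have hS : Sem chevD4 F zD4 := (packS_D4 F).hP.sem
  have hT := (packS_D4 F).hP.tab
  refine ⟨fun i => (χ (chevD4.simple i) : F), fun i hi => Units.ne_zero _, fun i hi t => ⟨?_, ?_⟩⟩
  · apply eq_xG hS
    rw [hd]
    exact Cfsg.Agent.H42.charDiag_conj chevD4 Cfsg.Agent.H42.chainOK_D4 χ hχ _ (hT.simple_lt i hi) t
  · apply eq_xG hS
    rw [hd]
    have h := Cfsg.Agent.H42.charDiag_conj chevD4 Cfsg.Agent.H42.chainOK_D4 χ hχ _
      (hT.neg_lt _ (hT.simple_lt i hi)) t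
    rw [hχ.1 _ (hT.simple_lt i hi), Units.val_inv_eq_inv_val] at h
    exact h

example : Cfsg.Agent.H78.Od.StDA1.{u} := dA1

end Cfsg.Agent.H62.Od

#print axioms Cfsg.Agent.H62.Od.dA1
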