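import Cfsg.Agent.H78.OdDefs
import Cfsg.Agent.H13.D4Comm

/-!
# OD-FD (helper62, for helper78's S2608, `m = 4` half): over a finite field of odd characteristic the field
automorphisms of `D₄(F)` centralise the diagonal ones modulo inner automorphisms
-/

set_option autoImplicit false
set_option linter.unusedVariables false
set_option linter.unusedSimpArgs false

namespace Cfsg.Agent.H62.Od

open Cfsg Cfsg.Lie Cfsg.Agent.H23 Cfsg.Agent.H23.Stb Cfsg.Agent.H13.D4N Cfsg.Agent.H78.Od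

universe u

/-- In a finite field of odd characteristic, `σ(a) / a` is a square for every automorphism `σ` and `a ≠ 0`. -/
theorem isSquare_ratio {F : Type u} [Field F] [Finite F] (h2 : (2 : F) ≠ 0) (σ : F ≃+* F) {a : F}
    (ha : a ≠ 0) : IsSquare (σ a * a⁻¹) := by
  classical
  cases nonempty_fintype F
  have hF : ringChar F ≠ 2 := by
    intro h
    apply h2
    have h0 := CharP.cast_eq_zero F (ringChar F)
    rw [h] at h0
    exact_mod_cast h0
  have hne : σ a * a⁻¹ ≠ 0 := mul_ne_zero ((map_ne_zero σ).2 ha) (inv_ne_zero ha)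
  rw [FiniteField.isSquare_iff hF hne, mul_pow, inv_pow, ← map_pow]
  rcases FiniteField.pow_dichotomy hF ha with h | h
  · rw [h, map_one]
    simp
  · rw [h, map_neg, map_one]
    simp

/-- The commutator of a field automorphism (with field automorphism `σ`) and an automorphism acting through the
scalars `c` acts through the scalars `σ(c) / c`. -/
theorem diagAct_comm (F : Type u) [Field F] {f d : MulAut ↥(chevD4.group F)} {c : ℕ → F} (σ : F ≃+* F)
    (hσ : ∀ r < chevD4.nroots, ∀ t : F,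
      f (xG (packS_D4 F).hP.sem r t) = xG (packS_D4 F).hP.sem r (σ t))
    (hc : DiagAct F d c) : DiagAct F (f * d * f⁻¹ * d⁻¹) (fun i => σ (c i) * (c i)⁻¹) := by
  have hT := (packS_D4 F).hP.tab
  refine ⟨fun i hi => mul_ne_zero ((map_ne_zero σ).2 (hc.1 i hi)) (inv_ne_zero (hc.1 i hi)),
    fun i hi t => ?_⟩
  have hci := hc.1 i hi
  have hsi := hT.simple_lt i hi
  have hni := hT.neg_lt _ hsi
  have e2 : ∀ r < chevD4.nroots, ∀ s : F,
      f⁻¹ (xG (packS_D4 F).hP.sem r s) = xG (packS_D4 F).hP.sem r (σ.symm s) := by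
    intro r hr s
    have h := hσ r hr (σ.symm s)
    rw [RingEquiv.apply_symm_apply] at h
    rw [← h]
    exact MulAut.inv_apply_self _ f _
  constructor
  · have e1 : d⁻¹ (xG (packS_D4 F).hP.sem (chevD4.simple i) t) =
        xG (packS_D4 F).hP.sem (chevD4.simple i) ((c i)⁻¹ * t) := by
      have h := (hc.2 i hi ((c i)⁻¹ * t)).1
      rw [← mul_assoc, mul_inv_cancel₀ hci, one_mul] at h
      rw [← h]
      exact MulAut.inv_apply_self _ d _
    show f (d (f⁻¹ (d⁻¹ _))) = _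
    rw [e1, e2 _ hsi, (hc.2 i hi _).1, hσ _ hsi]
    congr 1
    show σ (c i * σ.symm ((c i)⁻¹ * t)) = σ (c i) * (c i)⁻¹ * t
    rw [map_mul, RingEquiv.apply_symm_apply, mul_assoc]
  · have e1 : d⁻¹ (xG (packS_D4 F).hP.sem (chevD4.neg (chevD4.simple i)) t) =
        xG (packS_D4 F).hP.sem (chevD4.neg (chevD4.simple i)) (c i * t) := by
      have h := (hc.2 i hi (c i * t)).2
      rw [← mul_assoc, inv_mul_cancel₀ hci, one_mul] at h
      rw [← h]
      exact MulAut.inv_apply_self _ d _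
    show f (d (f⁻¹ (d⁻¹ _))) = _
    rw [e1, e2 _ hni, (hc.2 i hi _).2, hσ _ hni]
    congr 1
    show σ ((c i)⁻¹ * σ.symm (c i * t)) = (σ (c i) * (c i)⁻¹)⁻¹ * t
    rw [map_mul, RingEquiv.apply_symm_apply, map_inv₀, mul_inv, inv_inv]
    ring

/-- **OD-FD**. -/
theorem fD (h1 : StDA1.{u}) (h3 : StInn1.{u}) : StFD.{u} := by
  intro F _ _ h2 f d hf hd
  obtain ⟨σ, hσ⟩ := act_of_isFieldAut F f hf
  obtain ⟨c, hc⟩ := h1 F d hd
  have key := diagAct_comm F σ hσ hc
  have h0 : c 0 ≠ 0 := hc.1 0 (by decide)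
  have h2' : c 2 ≠ 0 := hc.1 2 (by decide)
  have h3' : c 3 ≠ 0 := hc.1 3 (by decide)
  apply h3 F _ _ key
  · have h := isSquare_ratio h2 σ (mul_ne_zero h0 h2')
    rw [map_mul, mul_inv] at h
    have e : σ (c 0) * (c 0)⁻¹ * (σ (c 2) * (c 2)⁻¹) = σ (c 0) * σ (c 2) * ((c 0)⁻¹ * (c 2)⁻¹) := by ring
    rw [e]
    exact h
  · have h := isSquare_ratio h2 σ (mul_ne_zero h0 h3')
    rw [map_mul, mul_inv] at h
    have e : σ (c 0) * (c 0)⁻¹ * (σ (c 3) * (c 3)⁻¹) = σ (c 0) * σ (c 3) * ((c 0)⁻¹ * (c 3)⁻¹) := by ring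
    rw [e]
    exact h

example (h1 : Cfsg.Agent.H78.Od.StDA1.{u}) (h3 : Cfsg.Agent.H78.Od.StInn1.{u}) :
    Cfsg.Agent.H78.Od.StFD.{u} := fD h1 h3

end Cfsg.Agent.H62.Od

#print axioms Cfsg.Agent.H62.Od.fD
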