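import Cfsg.Agent.H78.OdDefs

/-!
# OD-GN (helper62, for helper78's S2608, `m = 4` half): graph automorphisms of `D₄(F)` normalise the
diagonal automorphisms
-/

set_option autoImplicit false
set_option linter.unusedVariables false

namespace Cfsg.Agent.H62.Od

open Cfsg Cfsg.Lie Cfsg.Agent.H23 Cfsg.Agent.H23.Stb Cfsg.Agent.H13.D4N Cfsg.Agent.H78.Od Cfsg.Agent.H78.StbG

universe u

/-- An automorphism is determined by its scalars on the fundamental root elements. -/
theorem diagAct_unique (F : Type u) [Field F] {c : ℕ → F} {d d' : ↥(chevD4.group F) ≃* ↥(chevD4.group F)}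
    (h : DiagAct F d c) (h' : DiagAct F d' c) : d = d' := by
  have hS : Sem chevD4 F zD4 := (packS_D4 F).hP.sem
  apply MulEquiv.toMonoidHom_injective
  apply hom_ext_fundG hS (packS_D4 F).hP.semN (packS_D4 F).hP.tab
  intro y i t hi hy
  rcases hy with hy | hy
  · rw [eq_xG hS y _ t hy]
    exact ((h.2 i hi t).1).trans ((h'.2 i hi t).1).symm
  · rw [eq_xG hS y _ t hy]
    exact ((h.2 i hi t).2).trans ((h'.2 i hi t).2).symm

/-- Each of the six node tables has an inverse table. -/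
theorem six_inv : ∀ L ∈ [[0, 1, 2, 3], [0, 1, 3, 2], [2, 1, 0, 3], [3, 1, 2, 0], [2, 1, 3, 0], [3, 1, 0, 2]],
    ∃ L' ∈ [[0, 1, 2, 3], [0, 1, 3, 2], [2, 1, 0, 3], [3, 1, 2, 0], [2, 1, 3, 0], [3, 1, 0, 2]],
      ∀ j < chevD4.rank, L'.getD j 0 < chevD4.rank ∧ L.getD (L'.getD j 0) 0 = j := by
  decide

/-- Conjugating by an automorphism acting through a node table permutes the scalars. -/
theorem diagAct_conj (F : Type u) [Field F] {L L' : List ℕ} {g d : MulAut ↥(chevD4.group F)} {c : ℕ → F}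
    (hg : ActS F (fun i => L.getD i 0) g) (hd : DiagAct F d c)
    (hL : ∀ j < chevD4.rank, L'.getD j 0 < chevD4.rank ∧ L.getD (L'.getD j 0) 0 = j) :
    DiagAct F (g * d * g⁻¹) (fun j => c (L'.getD j 0)) := by
  refine ⟨fun j hj => hd.1 _ (hL j hj).1, fun j hj t => ?_⟩
  obtain ⟨hi, hLi⟩ := hL j hj
  have hg1 := hg _ hi
  simp only [hLi] at hg1
  have hd1 := hd.2 _ hi
  constructor
  · have e1 : g⁻¹ (xG (packS_D4 F).hP.sem (chevD4.simple j) t) =
        xG (packS_D4 F).hP.sem (chevD4.simple (L'.getD j 0)) t := by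
      rw [← (hg1 t).1]
      exact MulAut.inv_apply_self _ g _
    show g (d (g⁻¹ _)) = _
    rw [e1, (hd1 t).1, (hg1 _).1]
  · have e1 : g⁻¹ (xG (packS_D4 F).hP.sem (chevD4.neg (chevD4.simple j)) t) =
        xG (packS_D4 F).hP.sem (chevD4.neg (chevD4.simple (L'.getD j 0))) t := by
      rw [← (hg1 t).2]
      exact MulAut.inv_apply_self _ g _
    show g (d (g⁻¹ _)) = _
    rw [e1, (hd1 t).2, (hg1 _).2]

/-- **OD-GN**. -/
theorem gN (h1 : StDA1.{u}) (h2 : StDA2.{u}) : StGN.{u} := by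
  intro F _ g d hg hd
  obtain ⟨L, hLmem, hL⟩ := actS_of_isGraphAut F g hg
  obtain ⟨c, hc⟩ := h1 F d hd
  obtain ⟨L', -, hL'⟩ := six_inv L hLmem
  have hconj := diagAct_conj F hL hc hL'
  obtain ⟨d', hd', hc'⟩ := h2 F (fun j => c (L'.getD j 0)) hconj.1
  have e : g * d * g⁻¹ = d' := diagAct_unique F hconj hc'
  rw [e]
  exact hd'

example (h1 : Cfsg.Agent.H78.Od.StDA1.{u}) (h2 : Cfsg.Agent.H78.Od.StDA2.{u}) :
    Cfsg.Agent.H78.Od.StGN.{u} := gN h1 h2

end Cfsg.Agent.H62.Od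

#print axioms Cfsg.Agent.H62.Od.gN
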