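import Mathlib
import Cfsg.Prelude
import Cfsg.Agent.H85.RTDefs

/-!
S5046-FWD (helper62, for helper85's S5046 project): the easy direction.
-/

set_option autoImplicit false
set_option linter.unusedVariables false

namespace Cfsg.Agent.H62.RT

open Cfsg.Agent.H85.RT Cfsg.Agent.H40.RootInv

universe u

/-- for a pair of members with product of order 4, the square of the product is in `D`. -/
theorem sq_mem_of_four {G : Type u} [Group G] {D : Set G} (hD : Cfsg.IsRootInvolutionSet D)
    {a b : G} (ha : a ∈ D) (hb : b ∈ D) (h4 : orderOf (a * b) = 4) : a * b * (a * b) ∈ D := by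
  have ha2 := sq_of_mem hD ha
  have hb2 := sq_of_mem hD hb
  rw [← pow_two]
  rcases hD.pair a ha b hb with h | h | h
  · exfalso
    have h1 : (a * b) ^ 2 = 1 := by
      rw [pow_two]
      calc a * b * (a * b) = a * (b * a) * b := by group
        _ = a * (a * b) * b := by rw [h]
        _ = (a * a) * (b * b) := by group
        _ = 1 := by rw [ha2, hb2, one_mul]
    have h2 := orderOf_dvd_of_pow_eq_one h1
    rw [h4] at h2
    omega
  · exfalso
    rw [h4] at h
    exact absurd h (by decide)
  · exact h.2

theorem fwd : StFwd.{u} := by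
  intro G _ D hD d e f hd he hC hf
  obtain ⟨hfD, hdf⟩ := hf
  have hd2 := sq_of_mem hD hd
  have hf2 := sq_of_mem hD hfD
  have he2 := sq_of_mem hD he
  have h4 : (d * f) ^ 4 = 1 := by
    rw [← hdf]
    exact pow_orderOf_eq_one _
  have hzD := sq_mem_of_four hD hd hfD hdf
  obtain ⟨hz2, hfz, hzf, hdz, hzd⟩ := dih8 hd2 hf2 h4
  obtain ⟨z, hz⟩ : ∃ z, z = d * f * (d * f) := ⟨_, rfl⟩
  rw [← hz] at hzD hz2 hfz hzf hdz hzd
  have hde : d * e = e * d := by
    have h1 : d ∈ Cfsg.commutingMembers D d := ⟨hd, rfl⟩
    rw [hC] at h1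
    exact h1.2
  have hze : z * e = e * z := by
    have h1 : z ∈ Cfsg.commutingMembers D d := ⟨hzD, by rw [hzd, hdz]⟩
    rw [hC] at h1
    exact h1.2
  rcases hD.pair e he f hfD with h | h | h
  · left
    exact ⟨hfD, h.symm⟩
  · exfalso
    obtain ⟨k, hk⟩ : ∃ k, k = orderOf (e * f) := ⟨_, rfl⟩
    have hwk : (e * f) ^ k = 1 := by
      rw [hk]
      exact pow_orderOf_eq_one _
    have hdinv : d⁻¹ = d := inv_eq_of_mul_eq_one_left hd2
    have hconj : d * (e * f) * d⁻¹ = (e * f) * z := by
      rw [hdinv]
      calc d * (e * f) * d = (d * e) * (f * d) := by group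
        _ = (e * d) * (f * d) := by rw [hde]
        _ = e * (d * f * d) := by group
        _ = e * (f * z) := by rw [hfz]
        _ = e * f * z := by group
    have hcomm : Commute (e * f) z := by
      show e * f * z = z * (e * f)
      calc e * f * z = e * (f * z) := by group
        _ = e * (z * f) := by rw [hfz, hzf]
        _ = (e * z) * f := by group
        _ = (z * e) * f := by rw [hze]
        _ = z * (e * f) := by group
    have h1 : (d * (e * f) * d⁻¹) ^ k = 1 := by
      rw [conj_pow, hwk]
      group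
    rw [hconj, hcomm.mul_pow, hwk, one_mul, pow_odd_of_sq hz2 (hk ▸ h)] at h1
    exact ne_one_of_mem hD hzD h1
  · right
    exact ⟨hfD, h.1⟩

end Cfsg.Agent.H62.RT
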