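import Mathlib
import Cfsg.Prelude
import Cfsg.Agent.H85.RTDefs
import Cfsg.Agent.H62.RTFwd

/-!
S5046-C1 (helper62, for helper85's S5046 project).
-/

set_option autoImplicit false
set_option linter.unusedVariables false

namespace Cfsg.Agent.H62.RT

open Cfsg.Agent.H85.RT Cfsg.Agent.H40.RootInv

universe u

theorem c1 : StC1.{u} := by
  intro G _ D hD t d y ht hd hy htd hty
  rintro ⟨hne, hodd⟩
  have ht2 := sq_of_mem hD ht
  have hy2 := sq_of_mem hD hy
  have hd2 := sq_of_mem hD hd
  have h4 : (t * y) ^ 4 = 1 := by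
    rw [← hty]
    exact pow_orderOf_eq_one _
  have hcD := sq_mem_of_four hD ht hy hty
  obtain ⟨hc2, hyc, hcy, htc, hct⟩ := dih8 ht2 hy2 h4
  obtain ⟨c, hc⟩ : ∃ c, c = t * y * (t * y) := ⟨_, rfl⟩
  rw [← hc] at hcD hc2 hyc hcy htc hct
  have hyinv : y⁻¹ = y := inv_eq_of_mul_eq_one_left hy2
  have htcD : t * c ∈ D := by
    rw [htc]
    have := hD.conj_mem t ht y
    rw [hyinv] at this
    exact this
  rw [hyinv, ← htc] at hne hodd
  have hne_tc : t ≠ c := by
    intro h
    rw [← h, ht2] at htc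
    apply ne_one_of_mem hD ht
    calc t = y * (y * t * y) * y := by
          rw [show y * (y * t * y) * y = (y * y) * t * (y * y) by group, hy2, one_mul, mul_one]
      _ = 1 := by rw [← htc, mul_one, hy2]
  have hcomm : t * c = c * t := htc.trans hct.symm
  rcases Cfsg.Agent.H85.RI.nsa hD
      (fun u v x hu hv huv hne huvD hx hxu hodd =>
        Cfsg.Agent.H85.RI.b1 hD hu hv huv hne huvD hx hxu hodd)
      ht hcD hcomm hne_tc htcD hd hne hodd with ⟨h1, h2⟩ | ⟨h1, h2⟩
  · have h3 : (t * d) ^ 2 = 1 := by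
      rw [pow_two]
      calc t * d * (t * d) = t * (d * t) * d := by group
        _ = t * (t * d) * d := by rw [htd]
        _ = (t * t) * (d * d) := by group
        _ = 1 := by rw [ht2, hd2, one_mul]
    have h5 := odd_dvd_two h2 (orderOf_dvd_of_pow_eq_one h3)
    rw [orderOf_eq_one_iff] at h5
    apply h1
    have h6 : t⁻¹ = d := inv_eq_of_mul_eq_one_right h5
    rw [← h6]
    exact inv_eq_of_mul_eq_one_left ht2
  · exact h1 (Cfsg.Agent.H85.RI.b1 hD ht hcD hcomm hne_tc htcD hd htd.symm h2)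

end Cfsg.Agent.H62.RT
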