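import Mathlib
import Cfsg.Prelude
import Cfsg.Agent.H85.RTDefs

/-!
S5046-TRANS (helper62, for helper85's S5046 project): the normalizer of a twin class is
transitive on it.
-/

set_option autoImplicit false
set_option linter.unusedVariables false

namespace Cfsg.Agent.H62.RT

open Cfsg.Agent.H85.RT Cfsg.Agent.H40.RootInv

universe u

theorem trans : StTrans.{u} := by
  intro G _ D hD hc r r' hr hr' htw
  by_cases hrr : r = r'
  · subst hrr
    exact ⟨1, by simp, fun w hw h => by simpa using h⟩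
  · have hpath := hc r hr r' hr'
    obtain ⟨y, hy⟩ : ∃ y, Cfsg.OddAdj D r y := by
      rcases Relation.ReflTransGen.cases_head hpath with h | ⟨y, hy, -⟩
      · exact absurd h hrr
      · exact ⟨y, hy⟩
    obtain ⟨-, hyD, hne, hodd⟩ := hy
    have hyr : y ∈ Cfsg.oddPartners D r := ⟨hyD, Ne.symm hne, hodd⟩
    have hyr' : y ∈ Cfsg.oddPartners D r' := htw ▸ hyr
    obtain ⟨-, hne', hodd'⟩ := hyr'
    have hr2 := sq_of_mem hD hr
    have hy2 := sq_of_mem hD hyD
    have hr'2 := sq_of_mem hD hr'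
    obtain ⟨g₁, hg₁⟩ := conj_of_odd hr2 hy2 hodd
    have hodd'' : Odd (orderOf (y * r')) := by
      rw [orderOf_mul_comm']
      exact hodd'
    obtain ⟨g₂, hg₂⟩ := conj_of_odd hy2 hr'2 hodd''
    have h2 : (g₂ * g₁) * r * (g₂ * g₁)⁻¹ = r' := by
      rw [hg₂, hg₁]
      group
    refine ⟨g₂ * g₁, h2, ?_⟩
    intro w hw htw'
    have h1 := tw_conj hD (g₂ * g₁) htw'
    rw [h2] at h1
    exact h1.trans htw.symm

end Cfsg.Agent.H62.RT
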