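import Mathlib
import Cfsg.Prelude
import Cfsg.Agent.H85.RXDefs

/-!
S5047-INJA (helper62, for helper85's S5047 project): `Φ(g₁) = Φ(g₂)` forces `(g₁ x)² = (g₂ x)²`.
-/

set_option autoImplicit false
set_option linter.unusedVariables false

namespace Cfsg.Agent.H62.RX

open Cfsg.Agent.H85.RT Cfsg.Agent.H85.RX Cfsg.Agent.H40.RootInv

universe u

/-- (F3): for `f ∈ D` commuting with `x`, with `f x ∈ D` and `o(f a)` not odd, `o(f x a)` is
odd. -/
theorem inja_f3 {G : Type u} [Group G] {D : Set G} (hD : Cfsg.IsRootInvolutionSet D)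
    {a x f : G} (ha : a ∈ D) (hxD : x ∈ D) (hxa : x ≠ a) (hodd : Odd (orderOf (a * x)))
    (hfD : f ∈ D) (hfx : f * x = x * f) (hfxD : f * x ∈ D) (hno : ¬ Odd (orderOf (f * a))) :
    Odd (orderOf (f * x * a)) := by
  have hff := sq_of_mem hD hfD
  have hx1 := ne_one_of_mem hD hxD
  have e1 : f * (f * x) = x := by rw [← mul_assoc, hff, one_mul]
  have huv : f * (f * x) = (f * x) * f := by rw [e1, hfx, mul_assoc, hff, mul_one]
  have hne : f ≠ f * x := by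
    intro h
    apply hx1
    have : f * 1 = f * x := by rw [mul_one]; exact h
    exact (mul_left_cancel this).symm
  have huvD : f * (f * x) ∈ D := by rw [e1]; exact hxD
  have hxne : a ≠ f * (f * x) := by rw [e1]; exact Ne.symm hxa
  have hodd' : Odd (orderOf (f * (f * x) * a)) := by
    rw [e1, orderOf_mul_comm']; exact hodd
  rcases Cfsg.Agent.H85.RI.nsa hD
      (fun u v x hu hv huv hne huvD hx hxu hodd =>
        Cfsg.Agent.H85.RI.b1 hD hu hv huv hne huvD hx hxu hodd)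
      hfD hfxD huv hne huvD ha hxne hodd' with h | h
  · exact absurd h.2 hno
  · exact h.2

theorem inj_a (hv : StVOdd.{u}) (hom : StOddMul.{u}) : StInjA.{u} := by
  intro G _ D hD a x g₁ g₂ ha hx hg₁ hg₂ hPhi
  obtain ⟨hxD, hxa, hodd⟩ := hx
  obtain ⟨hg₁D, hg₁a, hg₁ne, hg₁aD, hg₁x4⟩ := hg₁
  obtain ⟨hg₂D, hg₂a, hg₂ne, hg₂aD, hg₂x4⟩ := hg₂
  have haa := sq_of_mem hD ha
  have hxx := sq_of_mem hD hxD
  have hx1 := ne_one_of_mem hD hxD
  obtain ⟨f₁, hf₁, hf₁D, hf₁f₁, -, hf₁x, -, -, -, -, -, -, hf₁xD⟩ := d8_pack hD hg₁D hxD hg₁x4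
  obtain ⟨f₂, hf₂, hf₂D, hf₂f₂, -, hf₂x, -, -, -, -, -, -, hf₂xD⟩ := d8_pack hD hg₂D hxD hg₂x4
  have hV₁ := hv hD hg₁D ha hxD ha hg₁a hg₁ne hg₁aD hg₁x4 (Tw.refl a) ⟨hxD, hxa, hodd⟩
  have hV₂ := hv hD hg₂D ha hxD ha hg₂a hg₂ne hg₂aD hg₂x4 (Tw.refl a) ⟨hxD, hxa, hodd⟩
  rw [← hf₁] at hV₁
  rw [← hf₂] at hV₂
  obtain ⟨hf₁a4, -⟩ := hV₁
  obtain ⟨hf₂a4, -⟩ := hV₂
  obtain ⟨p₁, hp₁, hp₁D, hp₁p₁, -, -, -, hp₁a, -, -, -, -, -⟩ := d8_pack hD hf₁D ha hf₁a4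
  obtain ⟨p₂, hp₂, hp₂D, hp₂p₂, -, -, -, hp₂a, -, -, -, -, -⟩ := d8_pack hD hf₂D ha hf₂a4
  have hpp : p₁ = p₂ := by
    rw [hp₁, hp₂, hf₁, hf₂]
    exact hPhi
  rw [← hf₁, ← hf₂]
  -- `f₁ a f₁ = f₂ a f₂`
  have hkey : f₁ * a * f₁ = f₂ * a * f₂ := by rw [← hp₁a, ← hp₂a, hpp]
  have hp₁1 := ne_one_of_mem hD hp₁D
  -- `w₀ = f₂ f₁` commutes with `a`
  have hw₀a : f₂ * f₁ * a = a * (f₂ * f₁) := by
    calc f₂ * f₁ * a = f₂ * (f₁ * a * f₁) * f₁ := by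
          rw [mul_assoc, mul_assoc, mul_assoc, mul_assoc, hf₁f₁, mul_one]
      _ = f₂ * (f₂ * a * f₂) * f₁ := by rw [hkey]
      _ = (f₂ * f₂) * a * (f₂ * f₁) := by simp only [mul_assoc]
      _ = a * (f₂ * f₁) := by rw [hf₂f₂, one_mul]
  have hinv : (f₂ * f₁)⁻¹ = f₁ * f₂ := by
    apply inv_eq_of_mul_eq_one_left
    calc f₁ * f₂ * (f₂ * f₁) = f₁ * (f₂ * f₂) * f₁ := by simp only [mul_assoc]
      _ = 1 := by rw [hf₂f₂, mul_one, hf₁f₁]
  -- `f₁ f₂` commutes with `a`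
  have hw₁a : f₁ * f₂ * a = a * (f₁ * f₂) := by
    have h1 : Commute (f₂ * f₁) a := hw₀a
    have h2 := h1.inv_left
    rw [hinv] at h2
    exact h2
  have hw₁x : f₁ * f₂ * x = x * (f₁ * f₂) := by
    rw [mul_assoc, hf₂x, ← mul_assoc, hf₁x, mul_assoc]
  have hno₁ : ¬ Odd (orderOf (f₁ * a)) := by rw [hf₁a4]; decide
  have hF₁ := inja_f3 hD ha hxD hxa hodd hf₁D hf₁x hf₁xD hno₁
  rcases hD.pair f₁ hf₁D f₂ hf₂D with h | h | h
  · -- commuting
    obtain ⟨w, hw⟩ : ∃ w, w = f₁ * f₂ := ⟨_, rfl⟩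
    have hww : w * w = 1 := by
      rw [hw, ← pow_two]; exact sq_eq_one_of_comm hf₁f₁ hf₂f₂ h
    have hwf₁ : w * f₁ = f₂ := by
      rw [hw, h, mul_assoc, hf₁f₁, mul_one]
    have hwf₁' : w * f₁ = f₁ * w := by
      rw [hwf₁, hw, ← mul_assoc, hf₁f₁, one_mul]
    have hwx : w * x = x * w := by rw [hw]; exact hw₁x
    have hwa : w * a = a * w := by rw [hw]; exact hw₁a
    have hno₂ : ¬ Odd (orderOf (f₂ * a)) := by rw [hf₂a4]; decide
    have hF₂ := inja_f3 hD ha hxD hxa hodd hf₂D hf₂x hf₂xD hno₂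
    have e : f₂ * x * a = w * (f₁ * x * a) := by
      rw [← hwf₁]; simp only [mul_assoc]
    rw [e] at hF₂
    have hcomm : w * (f₁ * x * a) = f₁ * x * a * w := by
      calc w * (f₁ * x * a) = (w * f₁) * x * a := by simp only [mul_assoc]
        _ = f₁ * (w * x) * a := by rw [hwf₁']; simp only [mul_assoc]
        _ = f₁ * x * (w * a) := by rw [hwx]; simp only [mul_assoc]
        _ = f₁ * x * a * w := by rw [hwa]; simp only [mul_assoc]
    have hw1 : w = 1 := hom hww hcomm hF₁ hF₂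
    rw [hw] at hw1
    calc f₁ = f₁ * (f₂ * f₂) := by rw [hf₂f₂, mul_one]
      _ = (f₁ * f₂) * f₂ := by rw [mul_assoc]
      _ = f₂ := by rw [hw1, one_mul]
  · -- odd order
    obtain ⟨u, hu⟩ : ∃ u, u = f₁ * f₂ := ⟨_, rfl⟩
    rw [← hu] at h hw₁x hw₁a
    have hxu : x * u = u * x := hw₁x.symm
    have e : f₁ * x * f₂ = x * u := by
      rw [hu, hf₁x]; simp only [mul_assoc]
    have hu1 : u = 1 → f₁ = f₂ := by
      intro hu1
      rw [hu] at hu1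
      calc f₁ = f₁ * (f₂ * f₂) := by rw [hf₂f₂, mul_one]
        _ = (f₁ * f₂) * f₂ := by rw [mul_assoc]
        _ = f₂ := by rw [hu1, one_mul]
    have hpow : ∀ n : ℕ, (x * u) ^ n = x ^ n * u ^ n := fun n => (show Commute x u from hxu).mul_pow n
    rcases hD.pair (f₁ * x) hf₁xD f₂ hf₂D with h' | h' | h'
    · -- commute
      apply hu1
      have hf₁xf₁x : f₁ * x * (f₁ * x) = 1 := sq_of_mem hD hf₁xD
      have h2 : (f₁ * x * f₂) ^ 2 = 1 := sq_eq_one_of_comm hf₁xf₁x hf₂f₂ h'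
      rw [e, hpow, pow_two x, hxx, one_mul] at h2
      exact orderOf_eq_one_iff.mp (odd_dvd_two h (orderOf_dvd_of_pow_eq_one h2))
    · exfalso
      rw [e] at h'
      exact hx1 (hom hxx hxu h h')
    · apply hu1
      have h4 : (f₁ * x * f₂) ^ 4 = 1 := by rw [← h'.1]; exact pow_orderOf_eq_one _
      have hx4 : x ^ 4 = 1 := by
        rw [show (4 : ℕ) = 2 * 2 from rfl, pow_mul, pow_two x, hxx, one_pow]
      rw [e, hpow, hx4, one_mul] at h4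
      exact orderOf_eq_one_iff.mp (odd_dvd_four h (orderOf_dvd_of_pow_eq_one h4))
  · -- order four
    exfalso
    obtain ⟨z, hz, hzD, hzz, hzf₁, hzf₂, hf₁z, -, -, -, -, -, -⟩ := d8_pack hD hf₁D hf₂D h.1
    have hz1 := ne_one_of_mem hD hzD
    have hzx : z * x = x * z := by
      have h1 : Commute (f₁ * f₂) x := hw₁x
      have h2 := h1.pow_left 2
      rw [← hz] at h2
      exact h2
    have hza : z * a = a * z := by
      have h1 : Commute (f₁ * f₂) a := hw₁a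
      have h2 := h1.pow_left 2
      rw [← hz] at h2
      exact h2
    obtain ⟨f₃, hf₃⟩ : ∃ f₃, f₃ = f₁ * z := ⟨_, rfl⟩
    have hf₂inv : f₂⁻¹ = f₂ := inv_eq_of_mul_eq_one_left hf₂f₂
    have hf₃' : f₃ = f₂ * f₁ * f₂⁻¹ := by rw [hf₃, hf₁z, hf₂inv]
    have hf₃D : f₃ ∈ D := by rw [hf₃']; exact hD.conj_mem f₁ hf₁D f₂
    have hf₃x : f₃ * x = x * f₃ := by
      rw [hf₃, mul_assoc, hzx, ← mul_assoc, hf₁x, mul_assoc]
    have hf₃xD : f₃ * x ∈ D := by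
      have e : f₃ * x = f₂ * (f₁ * x) * f₂⁻¹ := by
        rw [hf₃', hf₂inv]
        calc f₂ * f₁ * f₂ * x = f₂ * f₁ * (f₂ * x) := by simp only [mul_assoc]
          _ = f₂ * (f₁ * x) * f₂ := by rw [hf₂x]; simp only [mul_assoc]
      rw [e]
      exact hD.conj_mem (f₁ * x) hf₁xD f₂
    -- `(f₃ a)² = (f₁ a)²`
    have hsq : (f₃ * a) ^ 2 = p₁ := by
      have e : f₃ * a = z * (f₁ * a) := by rw [hf₃, ← hzf₁, mul_assoc]
      have hc : Commute z (f₁ * a) := by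
        show z * (f₁ * a) = f₁ * a * z
        rw [← mul_assoc, hzf₁, mul_assoc, hza, mul_assoc]
      rw [e, hc.mul_pow, pow_two z, hzz, one_mul, hp₁]
    have hno₃ : ¬ Odd (orderOf (f₃ * a)) := by
      intro ho
      have h4 : (f₃ * a) ^ 4 = 1 := by
        rw [show (4 : ℕ) = 2 * 2 from rfl, pow_mul, hsq, pow_two, hp₁p₁]
      have h1 : f₃ * a = 1 := orderOf_eq_one_iff.mp (odd_dvd_four ho (orderOf_dvd_of_pow_eq_one h4))
      rw [h1, one_pow] at hsq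
      exact hp₁1 hsq.symm
    have hF₃ := inja_f3 hD ha hxD hxa hodd hf₃D hf₃x hf₃xD hno₃
    have e : f₃ * x * a = z * (f₁ * x * a) := by
      rw [hf₃, ← hzf₁]; simp only [mul_assoc]
    rw [e] at hF₃
    have hcomm : z * (f₁ * x * a) = f₁ * x * a * z := by
      calc z * (f₁ * x * a) = (z * f₁) * x * a := by simp only [mul_assoc]
        _ = f₁ * (z * x) * a := by rw [hzf₁]; simp only [mul_assoc]
        _ = f₁ * x * (z * a) := by rw [hzx]; simp only [mul_assoc]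
        _ = f₁ * x * a * z := by rw [hza]; simp only [mul_assoc]
    exact hz1 (hom hzz hcomm hF₁ hF₃)

end Cfsg.Agent.H62.RX
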