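import Mathlib
import Cfsg.Prelude
import Cfsg.Agent.H85.RXDefs

/-!
S5047-PHIMEM (helper62, for helper85's S5047 project): `Φ` maps `S(a, x)` into itself.
-/

set_option autoImplicit false
set_option linter.unusedVariables false

namespace Cfsg.Agent.H62.RX

open Cfsg.Agent.H85.RT Cfsg.Agent.H85.RX Cfsg.Agent.H40.RootInv

universe u

theorem phi_mem (hv : StVOdd.{u}) : StPhiMem.{u} := by
  intro G _ D hD a x g ha hx hg
  obtain ⟨hxD, hxa, hodd⟩ := hx
  obtain ⟨hgD, hga, hgne, hgaD, hgx4⟩ := hg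
  have haa := sq_of_mem hD ha
  have hxx := sq_of_mem hD hxD
  obtain ⟨f, hf, hfD, hff, hfg, hfx, -, -, -, hfnex, -, -, -⟩ := d8_pack hD hgD hxD hgx4
  have hV := hv hD hgD ha hxD ha hga hgne hgaD hgx4 (Tw.refl a) ⟨hxD, hxa, hodd⟩
  rw [← hf] at hV
  obtain ⟨hfa4, hg'D⟩ := hV
  obtain ⟨g', hg', -, hg'g', hg'f, hg'a, -, -, hg'nef, hg'nea, -, hfg'D, hg'aD⟩ :=
    d8_pack hD hfD ha hfa4
  have hPhi : Phi a x g = g' := by
    rw [hg', hf]
    rfl
  rw [hPhi]
  refine ⟨by rw [hg']; exact hg'D, hg'a, hg'nea, hg'aD, ?_⟩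
  have hg'D' : g' ∈ D := by rw [hg']; exact hg'D
  rcases hD.pair g' hg'D' x hxD with h | h | h
  · exfalso
    exact hxa (Cfsg.Agent.H85.RI.b1 hD hg'D' ha hg'a hg'nea hg'aD hxD h.symm hodd)
  · exfalso
    have hxg' : x = g' :=
      Cfsg.Agent.H85.RI.b1 hD hfD hg'D' hg'f.symm (Ne.symm hg'nef) hfg'D hxD hfx.symm h
    have hax : a * x = x * a := by rw [hxg']; exact hg'a.symm
    have h2 : (a * x) ^ 2 = 1 := sq_eq_one_of_comm haa hxx hax
    have h3 := odd_dvd_two hodd (orderOf_dvd_of_pow_eq_one h2)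
    have h4 : a * x = 1 := orderOf_eq_one_iff.mp h3
    apply hxa
    calc x = (a * a) * x := by rw [haa, one_mul]
      _ = a * (a * x) := by rw [mul_assoc]
      _ = a := by rw [h4, mul_one]
  · exact h.1

end Cfsg.Agent.H62.RX
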