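import Mathlib
import Cfsg.Agent.H96.RoDefs

/-!
# RO-CARD (helper62, for helper96, S2127): a field with `3^(2m+1)` elements has `2m+1`
automorphisms.
-/

set_option autoImplicit false
set_option linter.style.haveILetI false

namespace Cfsg.Agent.H62.Ro

open Cfsg.Agent.H96.Ro

universe u

/-- **RO-CARD**. -/
theorem card : StCard.{u} := by
  intro K _ _ m hF
  haveI : Fact (Nat.Prime 3) := ⟨Nat.prime_three⟩
  haveI : CharP K 3 := charP_of_card_eq_prime_pow hF
  letI : Algebra (ZMod 3) K := ZMod.algebra K 3
  have h2 : Module.finrank (ZMod 3) K = 2 * m + 1 := by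
    have := FiniteField.pow_finrank_eq_card 3 K
    rw [hF] at this
    exact Nat.pow_right_injective (by norm_num : 2 ≤ 3) this
  rw [← h2, ← IsGalois.card_aut_eq_finrank (ZMod 3) K]
  have hcomm : ∀ (σ : K ≃+* K) (x : ZMod 3),
      σ (algebraMap (ZMod 3) K x) = algebraMap (ZMod 3) K x := by
    intro σ x
    exact RingHom.congr_fun (Subsingleton.elim
      ((σ : K →+* K).comp (algebraMap (ZMod 3) K)) (algebraMap (ZMod 3) K)) x
  refine Nat.card_congr
    { toFun := fun σ => AlgEquiv.ofRingEquiv (f := σ) (hcomm σ)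
      invFun := fun τ => τ.toRingEquiv
      left_inv := fun σ => by ext x; rfl
      right_inv := fun τ => by ext x; rfl }

end Cfsg.Agent.H62.Ro
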