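import Mathlib
import Cfsg.Agent.H96.RoDefs

/-!
# RO-NORM (helper62, for helper96, S2127): after an inner automorphism, an automorphism preserves
`U` and `H`.
-/

set_option autoImplicit false

namespace Cfsg.Agent.H62.Ro

open Cfsg.Agent.H96.Ro

universe u v

/-- **RO-NORM**. -/
theorem norm (hA : StNormA.{u, v}) (hB : StNormB.{u, v}) : StNorm.{u, v} := by
  intro K _ _ G _ _ n D α
  obtain ⟨g, hg⟩ := hA K G n D α
  obtain ⟨β, hβ⟩ : ∃ β : G ≃* G, ∀ x, β x = g * α x * g⁻¹ :=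
    ⟨α.trans (MulAut.conj g), fun x => rfl⟩
  obtain ⟨a, b, c, habc⟩ := hB K G n D β (fun t u v => by rw [hβ]; exact hg t u v)
  refine ⟨(D.R a b c)⁻¹ * g, ?_, ?_⟩
  · intro t u v
    obtain ⟨P, hP⟩ := D.syl
    obtain ⟨t', u', v', h1⟩ := hg t u v
    have h2 : (D.R a b c)⁻¹ * D.R t' u' v' * D.R a b c ∈ P :=
      mul_mem (mul_mem (inv_mem ((hP _).mpr ⟨a, b, c, rfl⟩)) ((hP _).mpr ⟨t', u', v', rfl⟩))
        ((hP _).mpr ⟨a, b, c, rfl⟩)
    obtain ⟨t'', u'', v'', h3⟩ := (hP _).mp h2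
    refine ⟨t'', u'', v'', ?_⟩
    rw [← h3, ← h1]
    group
  · intro κ
    obtain ⟨κ', h1⟩ := habc κ
    refine ⟨κ', ?_⟩
    rw [← h1, hβ]
    group

end Cfsg.Agent.H62.Ro
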