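import Mathlib
import Cfsg.Agent.H96.RoDefs

/-!
# RO-TRIV1 (helper62, for helper96, S2127): the shape of a multiplicative `H`-equivariant
self-map of `(K³, rm)` which is the identity on the first coordinate of `(t, 0, 0)`.
-/

set_option autoImplicit false
set_option linter.unusedVariables false
set_option linter.unusedSimpArgs false

namespace Cfsg.Agent.H62.Ro

open Cfsg.Agent.H96.Ro

universe u

/-- The generic form of RO-TRIV1 (any exponent `N ≠ 0` for which the cube formula holds). -/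
theorem triv1_gen {K : Type u} [Field K] (N : ℕ) (hN : N ≠ 0)
    (hcube : ∀ a : K × K × K, rm N (rm N a a) a = (0, 0, -(a.1 ^ (N + 2))))
    (γ : K × K × K → K × K × K)
    (hM : ∀ a b, γ (rm N a b) = rm N (γ a) (γ b))
    (hE : ∀ κ : K, κ ≠ 0 → ∀ a, γ (ha N κ a) = ha N κ (γ a))
    (hI : ∀ t : K, (γ (t, 0, 0)).1 = t) :
    ∃ F2 G3 f3 g1 g2 : K → K,
      (∀ t u v : K, γ (t, u, v) = (t, g1 t + F2 u, g2 t + G3 u + f3 v)) ∧
      (∀ x y : K, F2 (x + y) = F2 x + F2 y) ∧ (∀ x y : K, G3 (x + y) = G3 x + G3 y) ∧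
      (∀ x y : K, f3 (x + y) = f3 x + f3 y) ∧
      (∀ κ : K, κ ≠ 0 → ∀ x : K, F2 (κ ^ (N + 1) * x) = κ ^ (N + 1) * F2 x) ∧
      (∀ κ : K, κ ≠ 0 → ∀ x : K, G3 (κ ^ (N + 1) * x) = κ ^ (N + 2) * G3 x) ∧
      (∀ κ : K, κ ≠ 0 → ∀ x : K, g1 (κ * x) = κ ^ (N + 1) * g1 x) ∧
      (∀ κ : K, κ ≠ 0 → ∀ x : K, g2 (κ * x) = κ ^ (N + 2) * g2 x) := by
  have hN0 : (0 : K) ^ N = 0 := zero_pow hN
  -- γ 0 = 0
  have h0 : γ (0, 0, 0) = (0, 0, 0) := by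
    have e : rm N ((0 : K), (0 : K), (0 : K)) (0, 0, 0) = (0, 0, 0) := by
      simp [rm]
    have h := hM (0, 0, 0) (0, 0, 0)
    rw [e] at h
    obtain ⟨p, q, r, hpqr⟩ : ∃ p q r, γ (0, 0, 0) = (p, q, r) := ⟨_, _, _, rfl⟩
    have hp : p = 0 := by
      have h5 := hI 0
      rw [hpqr] at h5
      exact h5
    rw [hpqr] at h ⊢
    simp only [rm, Prod.mk.injEq] at h
    obtain ⟨-, hq, hr⟩ := h
    rw [hp] at hq hr
    have hq' : q = 0 := by linear_combination -hq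
    rw [hq'] at hr
    have hr' : r = 0 := by linear_combination -hr
    rw [hp, hq', hr']
  -- first coordinate of γ (0, u, v)
  have h1 : ∀ u v : K, (γ (0, u, v)).1 = 0 := by
    intro u v
    have e1 : rm N (rm N ((0 : K), u, v) (0, u, v)) (0, u, v) = (0, 0, 0) := by
      rw [hcube]
      show ((0 : K), (0 : K), -((0 : K) ^ (N + 2))) = (0, 0, 0)
      rw [zero_pow (Nat.succ_ne_zero _), neg_zero]
    have h2 : rm N (rm N (γ (0, u, v)) (γ (0, u, v))) (γ (0, u, v)) = γ (0, 0, 0) := by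
      rw [← hM, ← hM, e1]
    rw [hcube, h0] at h2
    have h3 : -((γ (0, u, v)).1 ^ (N + 2)) = 0 := congrArg (fun a => a.2.2) h2
    rw [neg_eq_zero] at h3
    exact (pow_eq_zero_iff (Nat.succ_ne_zero _)).mp h3
  -- second coordinate of γ (0, 0, v)
  have h2 : ∀ v : K, (γ (0, 0, v)).2.1 = 0 := by
    intro v
    have e1 : rm N ((0 : K), (0 : K), v) (1, 0, 0) = rm N (1, 0, 0) (0, 0, v) := by
      simp [rm, hN0]
    have h3 : rm N (γ (0, 0, v)) (γ (1, 0, 0)) = rm N (γ (1, 0, 0)) (γ (0, 0, v)) := by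
      rw [← hM, ← hM, e1]
    obtain ⟨a, b, hab⟩ : ∃ a b, γ (0, 0, v) = (0, a, b) := ⟨_, _, Prod.ext (h1 0 v) rfl⟩
    obtain ⟨c, e, hce⟩ : ∃ c e, γ (1, 0, 0) = (1, c, e) := ⟨_, _, Prod.ext (hI 1) rfl⟩
    rw [hab, hce] at h3
    simp only [rm, Prod.mk.injEq] at h3
    have h4 := h3.2.2
    rw [hN0] at h4
    rw [hab]
    show a = 0
    linear_combination -h4
  have hdec : ∀ t u v : K, rm N (t, 0, 0) (rm N (0, u, 0) (0, 0, v)) = (t, u, v) := by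
    intro t u v
    simp [rm, hN0]
  refine ⟨fun u => (γ (0, u, 0)).2.1, fun u => (γ (0, u, 0)).2.2, fun v => (γ (0, 0, v)).2.2,
    fun t => (γ (t, 0, 0)).2.1, fun t => (γ (t, 0, 0)).2.2, ?_, ?_, ?_, ?_, ?_, ?_, ?_, ?_⟩
  · intro t u v
    have hfin : γ (t, u, v) = rm N (γ (t, 0, 0)) (rm N (γ (0, u, 0)) (γ (0, 0, v))) := by
      rw [← hM, ← hM, hdec]
    have hA := hI t
    have hB := h1 u 0
    have hC1 := h1 0 v
    have hC2 := h2 v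
    show γ (t, u, v) = (t, (γ (t, 0, 0)).2.1 + (γ (0, u, 0)).2.1,
      (γ (t, 0, 0)).2.2 + (γ (0, u, 0)).2.2 + (γ (0, 0, v)).2.2)
    rw [hfin]
    obtain ⟨A, hAdef⟩ : ∃ A, A = γ (t, 0, 0) := ⟨_, rfl⟩
    obtain ⟨B, hBdef⟩ : ∃ B, B = γ (0, u, 0) := ⟨_, rfl⟩
    obtain ⟨C, hCdef⟩ : ∃ C, C = γ (0, 0, v) := ⟨_, rfl⟩
    rw [← hAdef] at hA ⊢
    rw [← hBdef] at hB ⊢
    rw [← hCdef] at hC1 hC2 ⊢
    obtain ⟨a1, a2, a3⟩ := A
    obtain ⟨b1, b2, b3⟩ := B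
    obtain ⟨c1, c2, c3⟩ := C
    simp only at hA hB hC1 hC2
    subst hA hB hC1 hC2
    simp only [rm, Prod.mk.injEq, add_zero, zero_add, hN0]
    refine ⟨trivial, ?_, ?_⟩
    · ring
    · ring
  · intro x y
    have e : rm N ((0 : K), x, (0 : K)) (0, y, 0) = (0, x + y, 0) := by
      simp [rm, hN0]
    have h := hM (0, x, 0) (0, y, 0)
    rw [e] at h
    show (γ (0, x + y, 0)).2.1 = (γ (0, x, 0)).2.1 + (γ (0, y, 0)).2.1
    rw [h]
    show (γ (0, x, 0)).2.1 + (γ (0, y, 0)).2.1 - (γ (0, y, 0)).1 ^ N * (γ (0, x, 0)).1 = _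
    rw [h1 x 0]
    ring
  · intro x y
    have e : rm N ((0 : K), x, (0 : K)) (0, y, 0) = (0, x + y, 0) := by
      simp [rm, hN0]
    have h := hM (0, x, 0) (0, y, 0)
    rw [e] at h
    show (γ (0, x + y, 0)).2.2 = (γ (0, x, 0)).2.2 + (γ (0, y, 0)).2.2
    rw [h]
    show (γ (0, x, 0)).2.2 + (γ (0, y, 0)).2.2 - (γ (0, y, 0)).1 * (γ (0, x, 0)).2.1 +
      (γ (0, y, 0)).1 ^ N * (γ (0, x, 0)).1 * (γ (0, y, 0)).1 -
      (γ (0, y, 0)).1 ^ N * (γ (0, x, 0)).1 ^ 2 = _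
    rw [h1 x 0, h1 y 0]
    ring
  · intro x y
    have e : rm N ((0 : K), (0 : K), x) (0, 0, y) = (0, 0, x + y) := by
      simp [rm, hN0]
    have h := hM (0, 0, x) (0, 0, y)
    rw [e] at h
    show (γ (0, 0, x + y)).2.2 = (γ (0, 0, x)).2.2 + (γ (0, 0, y)).2.2
    rw [h]
    show (γ (0, 0, x)).2.2 + (γ (0, 0, y)).2.2 - (γ (0, 0, y)).1 * (γ (0, 0, x)).2.1 +
      (γ (0, 0, y)).1 ^ N * (γ (0, 0, x)).1 * (γ (0, 0, y)).1 -
      (γ (0, 0, y)).1 ^ N * (γ (0, 0, x)).1 ^ 2 = _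
    rw [h1 0 x, h1 0 y]
    ring
  · intro κ hκ x
    have e : ha N κ ((0 : K), x, (0 : K)) = (0, κ ^ (N + 1) * x, 0) := by
      simp [ha]
    have h := hE κ hκ (0, x, 0)
    rw [e] at h
    show (γ (0, κ ^ (N + 1) * x, 0)).2.1 = κ ^ (N + 1) * (γ (0, x, 0)).2.1
    rw [h]
    rfl
  · intro κ hκ x
    have e : ha N κ ((0 : K), x, (0 : K)) = (0, κ ^ (N + 1) * x, 0) := by
      simp [ha]
    have h := hE κ hκ (0, x, 0)
    rw [e] at h
    show (γ (0, κ ^ (N + 1) * x, 0)).2.2 = κ ^ (N + 2) * (γ (0, x, 0)).2.2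
    rw [h]
    rfl
  · intro κ hκ x
    have e : ha N κ (x, (0 : K), (0 : K)) = (κ * x, 0, 0) := by
      simp [ha]
    have h := hE κ hκ (x, 0, 0)
    rw [e] at h
    show (γ (κ * x, 0, 0)).2.1 = κ ^ (N + 1) * (γ (x, 0, 0)).2.1
    rw [h]
    rfl
  · intro κ hκ x
    have e : ha N κ (x, (0 : K), (0 : K)) = (κ * x, 0, 0) := by
      simp [ha]
    have h := hE κ hκ (x, 0, 0)
    rw [e] at h
    show (γ (κ * x, 0, 0)).2.2 = κ ^ (N + 2) * (γ (x, 0, 0)).2.2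
    rw [h]
    rfl

/-- **RO-TRIV1**. -/
theorem triv1 (hc : StCube.{u, u}) : StTriv1.{u} := by
  intro K _ _ _ m hm hcard γ hM hE hI
  exact triv1_gen (3 ^ (m + 1)) (pow_ne_zero _ (by norm_num)) (hc K (3 ^ (m + 1))).1 γ hM hE hI

end Cfsg.Agent.H62.Ro
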