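import Mathlib
import Cfsg.Agent.H99.S4Defs
import Cfsg.Agent.H99.Heis

/-!
S6000-NORM (helper62, for helper99's S6000 project): normalising a symplectic basis of `R`
suffices to normalise `R`.
-/

set_option autoImplicit false
set_option linter.unusedVariables false
set_option linter.style.haveILetI false

namespace Cfsg.Agent.H62.S4

open Cfsg.Agent.H99.S4

universe u

/-- the scalar `i` as an element of `GL_4(F)`. -/
def iotaU {F : Type u} [Field F] (i : F) (hi : i * i = -1) : G4 F :=
  ⟨i • (1 : M4 F), (-i) • (1 : M4 F),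
    by rw [smul_mul_smul_comm, mul_one, mul_neg, hi, neg_neg, one_smul],
    by rw [smul_mul_smul_comm, mul_one, neg_mul, hi, neg_neg, one_smul]⟩

theorem iotaU_val {F : Type u} [Field F] (i : F) (hi : i * i = -1) :
    ((iotaU i hi : G4 F) : M4 F) = i • (1 : M4 F) := rfl

theorem iotaU_mem {F : Type u} [Field F] {R : Subgroup (G4 F)} {i : F} (hS : IsS4 R i) :
    iotaU i hS.isq ∈ R := hS.imem _ rfl

/-- scalars are central. -/
theorem conj_iotaU {F : Type u} [Field F] (i : F) (hi : i * i = -1) (w : G4 F) :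
    w * iotaU i hi * w⁻¹ = iotaU i hi := by
  apply Units.ext
  simp only [Units.val_mul]
  rw [iotaU_val, Matrix.mul_smul, mul_one, Matrix.smul_mul, Units.mul_inv]

theorem normS (hgen : StGen.{u}) : StNorm.{u} := by
  intro F _ R i h2 hS a b c d hB w ha hb hc hd
  haveI : Finite R := Nat.finite_of_card_ne_zero (by rw [hS.card]; norm_num)
  show w ∈ Subgroup.normalizer (R : Set (G4 F))
  apply Cfsg.Agent.H99.mem_normalizer_of_finite
  intro h hh
  obtain ⟨k, e, f, g, l, hform⟩ := hgen F R i h2 hS a b c d hB h hh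
  have hιR : iotaU i hS.isq ∈ R := iotaU_mem hS
  have hheq : h = iotaU i hS.isq ^ k * a ^ e * b ^ f * c ^ g * d ^ l := by
    apply Units.ext
    rw [hform]
    simp only [Units.val_mul, Units.val_pow_eq_pow_val]
    rw [iotaU_val, smul_pow, one_pow]
    simp only [Matrix.smul_mul, one_mul, mul_assoc]
  have hconj : w * h * w⁻¹ = (w * iotaU i hS.isq * w⁻¹) ^ k * (w * a * w⁻¹) ^ e *
      (w * b * w⁻¹) ^ f * (w * c * w⁻¹) ^ g * (w * d * w⁻¹) ^ l := by
    rw [hheq]
    simp only [conj_pow]
    simp only [mul_assoc, inv_mul_cancel_left]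
  rw [hconj, conj_iotaU]
  exact R.mul_mem (R.mul_mem (R.mul_mem (R.mul_mem (R.pow_mem hιR k) (R.pow_mem ha e))
    (R.pow_mem hb f)) (R.pow_mem hc g)) (R.pow_mem hd l)

example : StGen.{u} → StNorm.{u} := normS

end Cfsg.Agent.H62.S4

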