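import Mathlib
import Cfsg.Agent.H99.S4Defs
import Cfsg.Agent.H62.S4Norm

/-!
S6000-BIG (helper62, for helper99's S6000 project): an element of the normaliser of `R` whose
`r`-th power is scalar, `r ≥ 7` prime, is scalar.
-/

set_option autoImplicit false
set_option linter.unusedVariables false
set_option linter.style.haveILetI false
set_option linter.unusedSimpArgs false

namespace Cfsg.Agent.H62.S4

open Cfsg.Agent.H99.S4

universe u

theorem iotaU_pow_val {F : Type u} [Field F] (i : F) (hi : i * i = -1) (k : ℕ) :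
    ((iotaU i hi ^ k : G4 F) : M4 F) = i ^ k • (1 : M4 F) := by
  rw [Units.val_pow_eq_pow_val, iotaU_val, smul_pow, one_pow]

theorem orderOf_iotaU {F : Type u} [Field F] (h2 : (2 : F) ≠ 0) (i : F) (hi : i * i = -1) :
    orderOf (iotaU i hi) = 4 := by
  have hιsq : iotaU i hi * iotaU i hi = -1 := by
    apply Units.ext
    rw [Units.val_mul, iotaU_val, smul_mul_smul_comm, mul_one, hi, Units.val_neg, Units.val_one,
      neg_smul, one_smul]
  have h1 : ¬ iotaU i hi ^ 2 ^ 1 = 1 := by
    intro h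
    rw [pow_one, pow_two, hιsq] at h
    have h' := congrArg (fun g : G4 F => (g : M4 F) 0 0) h
    simp only [Units.val_neg, Units.val_one, Matrix.neg_apply, Matrix.one_apply_eq] at h'
    apply h2
    linear_combination -h'
  have h4 : iotaU i hi ^ 2 ^ (1 + 1) = 1 := by
    have e4 : (2 : ℕ) ^ (1 + 1) = 2 + 2 := by norm_num
    rw [e4, pow_add, pow_two, hιsq, neg_mul_neg, one_mul]
  have h5 := orderOf_eq_prime_pow h1 h4
  rw [h5]; norm_num

/-- anticommuting invertible matrices do not commute. -/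
theorem not_comm_of_anticomm {F : Type u} [Field F] (h2 : (2 : F) ≠ 0) (x y : G4 F)
    (h : (x : M4 F) * (y : M4 F) = -((y : M4 F) * (x : M4 F))) : x * y ≠ y * x := by
  intro hc
  have hc' : (x : M4 F) * (y : M4 F) = (y : M4 F) * (x : M4 F) := by
    have h0 := congrArg (fun g : G4 F => (g : M4 F)) hc
    simpa only [Units.val_mul] using h0
  rw [hc'] at h
  have h1 : (2 : F) • ((y : M4 F) * (x : M4 F)) = 0 := by
    rw [two_smul]; exact eq_neg_iff_add_eq_zero.mp h
  rcases smul_eq_zero.mp h1 with h3 | h3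
  · exact h2 h3
  · exact Units.ne_zero (y * x) (by rw [Units.val_mul]; exact h3)

theorem finite_of_le_s4 {G : Type*} [Group G] {K R : Subgroup G} [Finite R] (h : K ≤ R) :
    Finite K :=
  Finite.of_injective (Subgroup.inclusion h) (Subgroup.inclusion_injective h)

theorem big_aux {F : Type u} [Field F] (R : Subgroup (G4 F)) (i : F) (h2 : (2 : F) ≠ 0)
    (hS : IsS4 R i) (y : G4 F) (hy : y ∈ Cfsg.Geo.subgroupNormalizer R) (z : F)
    (hy7 : (y : M4 F) ^ 7 = z • (1 : M4 F)) (h8 : Nat.card (CentR R y) = 8) : False := by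
  classical
  haveI hfinR : Finite R := Nat.finite_of_card_ne_zero (by rw [hS.card]; norm_num)
  have hyN : ∀ h : G4 F, h ∈ R → y * h * y⁻¹ ∈ R := fun h hh =>
    (Subgroup.mem_set_normalizer_iff.mp hy h).mp hh
  obtain ⟨ι, hιdef⟩ : ∃ ι : G4 F, ι = iotaU i hS.isq := ⟨_, rfl⟩
  have hιR : ι ∈ R := by rw [hιdef]; exact iotaU_mem hS
  have hιcentral : ∀ g : G4 F, g * ι = ι * g := by
    intro g
    rw [hιdef]
    apply Units.ext
    rw [Units.val_mul, Units.val_mul, iotaU_val, Matrix.smul_mul, Matrix.mul_smul, one_mul,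
      mul_one]
  have hιord : orderOf ι = 4 := by rw [hιdef]; exact orderOf_iotaU h2 i hS.isq
  -- the centralizer of `y` in `R`
  obtain ⟨C, hC⟩ : ∃ C : Subgroup (G4 F), C = R ⊓ Subgroup.centralizer {y} := ⟨_, rfl⟩
  have hCR : C ≤ R := by rw [hC]; exact inf_le_left
  haveI : Finite C := finite_of_le_s4 hCR
  have hcardC : Nat.card C = 8 := by
    rw [← h8]
    symm
    apply Nat.card_congr
    exact Equiv.subtypeEquivRight (fun h => by
      rw [hC, Subgroup.mem_inf, Subgroup.mem_centralizer_singleton_iff]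
      constructor
      · rintro ⟨h1, h3⟩; exact ⟨h1, h3.symm⟩
      · rintro ⟨h1, h3⟩; exact ⟨h1, h3.symm⟩)
  -- the scalars of `R`
  obtain ⟨Z, hZ⟩ : ∃ Z : Subgroup (G4 F), Z = Subgroup.zpowers ι := ⟨_, rfl⟩
  have hcardZ : Nat.card Z = 4 := by rw [hZ, Nat.card_zpowers, hιord]
  have hιC : ι ∈ C := by
    rw [hC, Subgroup.mem_inf, Subgroup.mem_centralizer_singleton_iff]
    exact ⟨hιR, (hιcentral y).symm⟩
  have hZC : Z ≤ C := by rw [hZ, Subgroup.zpowers_le]; exact hιC
  haveI : Finite Z := finite_of_le_s4 (hZC.trans hCR)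
  -- a non-scalar element of `C`
  have hex : ∃ v ∈ C, v ∉ Z := by
    by_contra hne
    push Not at hne
    have h1 := Subgroup.card_le_of_le (H := C) (K := Z) hne
    rw [hcardC, hcardZ] at h1
    omega
  obtain ⟨v, hvC, hvZ⟩ := hex
  have hvR : v ∈ R := hCR hvC
  have hvy : v * y = y * v := by
    rw [hC, Subgroup.mem_inf, Subgroup.mem_centralizer_singleton_iff] at hvC
    exact hvC.2
  -- an element of `R` anticommuting with `v`
  have hexw : ∃ w ∈ R, (v : M4 F) * (w : M4 F) = -((w : M4 F) * (v : M4 F)) := by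
    by_contra hne
    push Not at hne
    have hall : ∀ w ∈ R, (v : M4 F) * (w : M4 F) = (w : M4 F) * (v : M4 F) := by
      intro w hw
      rcases hS.comm v hvR w hw with h | h
      · exact h
      · exact absurd h (hne w hw)
    obtain ⟨k, hk⟩ := hS.cent v hvR hall
    apply hvZ
    have h1 : v = ι ^ k := by
      apply Units.ext
      rw [hk, hιdef, iotaU_pow_val]
    rw [h1, hZ]
    exact Subgroup.pow_mem _ (Subgroup.mem_zpowers ι) k
  obtain ⟨w, hwR, hvw⟩ := hexw
  -- the centralizer of `v` in `R` has index two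
  obtain ⟨SV, hSV⟩ : ∃ SV : Subgroup (G4 F), SV = R ⊓ Subgroup.centralizer {v} := ⟨_, rfl⟩
  have hSVR : SV ≤ R := by rw [hSV]; exact inf_le_left
  have hmemSV : ∀ h : G4 F, h ∈ SV ↔ h ∈ R ∧ h * v = v * h := by
    intro h; rw [hSV, Subgroup.mem_inf, Subgroup.mem_centralizer_singleton_iff]
  have hidx : (SV.subgroupOf R).index = 2 := by
    rw [Subgroup.index_eq_two_iff]
    refine ⟨⟨w, hwR⟩, ?_⟩
    intro b
    rw [Subgroup.mem_subgroupOf, Subgroup.mem_subgroupOf, hmemSV, hmemSV]
    change Xor ((b : G4 F) * w ∈ R ∧ (b : G4 F) * w * v = v * ((b : G4 F) * w))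
      ((b : G4 F) ∈ R ∧ (b : G4 F) * v = v * (b : G4 F))
    rcases hS.comm v hvR b b.2 with hcomm | hanti
    · refine Or.inr ⟨⟨b.2, ?_⟩, ?_⟩
      · apply Units.ext
        rw [Units.val_mul, Units.val_mul]
        exact hcomm.symm
      · rintro ⟨-, h⟩
        have hanti' : (v : M4 F) * (((b : G4 F) * w : G4 F) : M4 F) =
            -((((b : G4 F) * w : G4 F) : M4 F) * (v : M4 F)) := by
          rw [Units.val_mul, ← mul_assoc, hcomm, mul_assoc, hvw, mul_neg, mul_assoc]
        exact not_comm_of_anticomm h2 v _ hanti' h.symm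
    · refine Or.inl ⟨⟨R.mul_mem b.2 hwR, ?_⟩, ?_⟩
      · apply Units.ext
        simp only [Units.val_mul]
        rw [← mul_assoc (v : M4 F), hanti, neg_mul, mul_assoc _ (v : M4 F), hvw, mul_neg,
          neg_neg, mul_assoc]
      · rintro ⟨-, h⟩
        exact not_comm_of_anticomm h2 v _ hanti h.symm
  have hcardSV : Nat.card SV = 32 := by
    have h1 := Subgroup.card_mul_index (SV.subgroupOf R)
    rw [hidx, hS.card, Nat.card_congr (Subgroup.subgroupOfEquivOfLe hSVR).toEquiv] at h1
    omega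
  -- the fixed points of `y` on `SV`
  obtain ⟨D, hD⟩ : ∃ D : Subgroup (G4 F), D = SV ⊓ Subgroup.centralizer {y} := ⟨_, rfl⟩
  have hDC : D ≤ C := by
    rw [hD, hC]; exact inf_le_inf_right _ hSVR
  haveI : Finite D := finite_of_le_s4 (hDC.trans hCR)
  have hmemD : ∀ g : G4 F, g ∈ D ↔ g ∈ SV ∧ g * y = y * g := by
    intro g; rw [hD, Subgroup.mem_inf, Subgroup.mem_centralizer_singleton_iff]
  have hZD : Z ≤ D := by
    rw [hZ, Subgroup.zpowers_le, hD, Subgroup.mem_inf, hmemSV,
      Subgroup.mem_centralizer_singleton_iff]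
    exact ⟨⟨hιR, (hιcentral v).symm⟩, (hιcentral y).symm⟩
  have hvD : v ∈ D := by
    rw [hD, Subgroup.mem_inf, hmemSV, Subgroup.mem_centralizer_singleton_iff]
    exact ⟨⟨hvR, rfl⟩, hvy⟩
  have hcardD : Nat.card D = 8 := by
    have h1 : Nat.card Z ∣ Nat.card D := Subgroup.card_dvd_of_le hZD
    have h3 : Nat.card D ∣ Nat.card C := Subgroup.card_dvd_of_le hDC
    rw [hcardZ] at h1
    rw [hcardC] at h3
    have h4 : Nat.card D ≠ 4 := by
      intro h
      have h5 : Z = D := Subgroup.eq_of_le_of_card_ge hZD (by rw [h, hcardZ])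
      exact hvZ (h5 ▸ hvD)
    have h5 : Nat.card D ≤ 8 := Nat.le_of_dvd (by norm_num) h3
    obtain ⟨n, hn⟩ : ∃ n, n = Nat.card D := ⟨_, rfl⟩
    rw [← hn] at h1 h3 h4 h5 ⊢
    interval_cases n <;> first | rfl | omega
  -- the permutation
  haveI : Finite SV := finite_of_le_s4 hSVR
  letI : Fintype SV := Fintype.ofFinite SV
  haveI : Fact (Nat.Prime 7) := ⟨by norm_num⟩
  have hyinv : y⁻¹ * v = v * y⁻¹ := by
    calc y⁻¹ * v = y⁻¹ * (v * y) * y⁻¹ := by group
      _ = y⁻¹ * (y * v) * y⁻¹ := by rw [hvy]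
      _ = v * y⁻¹ := by group
  have hySV : ∀ h : G4 F, h ∈ SV → y * h * y⁻¹ ∈ SV := by
    intro h hh
    rw [hmemSV] at hh ⊢
    refine ⟨hyN h hh.1, ?_⟩
    calc y * h * y⁻¹ * v = y * h * (y⁻¹ * v) := by group
      _ = y * h * (v * y⁻¹) := by rw [hyinv]
      _ = y * (h * v) * y⁻¹ := by group
      _ = y * (v * h) * y⁻¹ := by rw [hh.2]
      _ = (y * v) * h * y⁻¹ := by group
      _ = (v * y) * h * y⁻¹ := by rw [hvy]
      _ = v * (y * h * y⁻¹) := by group
  have hcentral : ∀ h : G4 F, y ^ 7 * h = h * y ^ 7 := by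
    intro h
    apply Units.ext
    rw [Units.val_mul, Units.val_mul, Units.val_pow_eq_pow_val, hy7, Matrix.smul_mul,
      Matrix.mul_smul, one_mul, mul_one]
  obtain ⟨f, hf⟩ : ∃ f : Function.End SV, ∀ h : SV, ((f h : SV) : G4 F) = y * h * y⁻¹ :=
    ⟨fun h => ⟨y * h * y⁻¹, hySV h h.2⟩, fun _ => rfl⟩
  have hpow : ∀ n : ℕ, ∀ h : SV, (((f ^ n) h : SV) : G4 F) = y ^ n * h * (y ^ n)⁻¹ := by
    intro n
    induction n with
    | zero =>
      intro h
      rw [pow_zero, pow_zero, one_mul, inv_one, mul_one]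
      rfl
    | succ n ih =>
      intro h
      have e1 : (f ^ (n + 1)) h = f ((f ^ n) h) := by
        rw [pow_succ']
        rfl
      rw [e1, hf, ih, pow_succ']
      group
  have hfr : f ^ 7 ^ 1 = 1 := by
    rw [pow_one]
    funext h
    apply Subtype.ext
    rw [hpow, hcentral, mul_inv_cancel_right]
    rfl
  have hmod := Equiv.Perm.card_fixedPoints_modEq (f := f) (p := 7) (n := 1) hfr
  have hcardSV' : Fintype.card SV = 32 := by
    rw [← Nat.card_eq_fintype_card, hcardSV]
  obtain ⟨e⟩ : Nonempty (↥(Function.fixedPoints f) ≃ ↥D) :=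
    ⟨{ toFun := fun h => ⟨h.1.1, by
          rw [hmemD]
          refine ⟨h.1.2, ?_⟩
          have h' : f h.1 = h.1 := h.2
          have h'' := congrArg (fun g : SV => (g : G4 F)) h'
          simp only [hf] at h''
          exact (mul_inv_eq_iff_eq_mul.mp h'').symm⟩
       invFun := fun h => ⟨⟨h.1, ((hmemD h.1).mp h.2).1⟩, by
          have h1 := (hmemD h.1).mp h.2
          show f ⟨h.1, _⟩ = ⟨h.1, _⟩
          apply Subtype.ext
          rw [hf]
          exact mul_inv_eq_iff_eq_mul.mpr h1.2.symm⟩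
       left_inv := fun h => Subtype.ext (Subtype.ext rfl)
       right_inv := fun h => Subtype.ext rfl }⟩
  have hgen : ∀ inst : Fintype ↥(Function.fixedPoints f),
      @Fintype.card _ inst = Nat.card ↥(Function.fixedPoints f) :=
    fun inst => (@Nat.card_eq_fintype_card _ inst).symm
  have key : ∃ c : ℕ, Fintype.card SV ≡ c [MOD 7] ∧ c = Nat.card D :=
    ⟨_, hmod, (hgen _).trans (Nat.card_congr e)⟩
  obtain ⟨c, hc1, hc2⟩ := key
  rw [hcardSV', hc2, hcardD] at hc1
  exact absurd hc1 (by decide)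

theorem bigS (hfix : StFix.{u}) (hcent : StCent.{u}) : StBig.{u} := by
  intro F _ R i h2 hS y hy r z hr hr7 hyr
  have hdvd := hfix F R i h2 hS y hy r z hr hyr
  rcases hcent F R i h2 hS y with hsc | h4 | h8 | h16 | h32
  · exact hsc
  · exfalso
    rw [h4] at hdvd
    norm_num at hdvd
    have hle : r ≤ 60 := Nat.le_of_dvd (by norm_num) hdvd
    interval_cases r <;> first | omega | (revert hr; norm_num)
  · exfalso
    rw [h8] at hdvd
    norm_num at hdvd
    have hle : r ≤ 56 := Nat.le_of_dvd (by norm_num) hdvd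
    have hr7' : r = 7 := by
      interval_cases r <;> first | rfl | omega | (exfalso; revert hr; norm_num)
    subst hr7'
    exact big_aux R i h2 hS y hy z hyr h8
  · exfalso
    rw [h16] at hdvd
    norm_num at hdvd
    have hle : r ≤ 48 := Nat.le_of_dvd (by norm_num) hdvd
    interval_cases r <;> first | omega | (revert hr; norm_num)
  · exfalso
    rw [h32] at hdvd
    norm_num at hdvd
    have hle : r ≤ 32 := Nat.le_of_dvd (by norm_num) hdvd
    interval_cases r <;> first | omega | (revert hr; norm_num)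

example : StFix.{u} → StCent.{u} → StBig.{u} := bigS

end Cfsg.Agent.H62.S4
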