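import Mathlib
import Cfsg.Agent.H99.S4Defs
import Cfsg.Agent.H62.S4Norm

/-!
S6000-REFL (helper62, for helper99's S6000 project): the reflection
`s = (1 - a - c - a c) / 2` lies in the normaliser of `R`, is an involution and has trace `2`.
-/

set_option autoImplicit false
set_option linter.unusedVariables false
set_option linter.style.haveILetI false
set_option linter.unusedSimpArgs false

namespace Cfsg.Agent.H62.S4

open Cfsg.Agent.H99.S4

universe u

/-- an invertible matrix anticommuting with an invertible matrix is not a scalar. -/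
theorem not_scalar_of_anticomm {F : Type u} [Field F] (h2 : (2 : F) ≠ 0) (x y : G4 F)
    (h : (x : M4 F) * (y : M4 F) = -((y : M4 F) * (x : M4 F))) (t : F) :
    (x : M4 F) ≠ t • (1 : M4 F) := by
  intro hx
  rw [hx, Matrix.smul_mul, Matrix.mul_smul, one_mul, mul_one] at h
  have h1 : (t + t) • (y : M4 F) = 0 := by
    rw [add_smul]
    exact eq_neg_iff_add_eq_zero.mp h
  rcases smul_eq_zero.mp h1 with h3 | h3
  · have ht : t = 0 := by
      have h4 : (2 : F) * t = 0 := by rw [two_mul]; exact h3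
      exact (mul_eq_zero.mp h4).resolve_left h2
    rw [ht, zero_smul] at hx
    exact Units.ne_zero x hx
  · exact Units.ne_zero y h3

theorem quarter_smul {F : Type u} [Field F] (h2 : (2 : F) ≠ 0) (Y : M4 F) :
    ((2 : F)⁻¹ * (2 : F)⁻¹) • (Y + Y + Y + Y) = Y := by
  have h4 : Y + Y + Y + Y = (4 : F) • Y := by module
  have h5 : (2 : F)⁻¹ * (2 : F)⁻¹ * 4 = 1 := by field_simp; norm_num
  rw [h4, smul_smul, h5, one_smul]

theorem refl_TT {Rg : Type*} [Ring Rg] (A C : Rg) (hAA : A * A = 1) (hCC : C * C = 1)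
    (hAC : A * C = C * A) :
    (1 - A - C - A * C) * (1 - A - C - A * C) = 1 + 1 + 1 + 1 := by
  have hCA : C * A = A * C := hAC.symm
  have hAA' : ∀ X : Rg, A * (A * X) = X := fun X => by rw [← mul_assoc, hAA, one_mul]
  have hCC' : ∀ X : Rg, C * (C * X) = X := fun X => by rw [← mul_assoc, hCC, one_mul]
  have hCA' : ∀ X : Rg, C * (A * X) = A * (C * X) := fun X => by
    rw [← mul_assoc, hCA, mul_assoc]
  simp only [mul_add, add_mul, mul_sub, sub_mul, mul_one, one_mul, mul_assoc, hAA, hCC, hCA,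
    hAA', hCC', hCA']
  abel

theorem refl_TAT {Rg : Type*} [Ring Rg] (A C : Rg) (hAA : A * A = 1) (hCC : C * C = 1)
    (hAC : A * C = C * A) :
    (1 - A - C - A * C) * A * (1 - A - C - A * C) = A + A + A + A := by
  have hCA : C * A = A * C := hAC.symm
  have hAA' : ∀ X : Rg, A * (A * X) = X := fun X => by rw [← mul_assoc, hAA, one_mul]
  have hCC' : ∀ X : Rg, C * (C * X) = X := fun X => by rw [← mul_assoc, hCC, one_mul]
  have hCA' : ∀ X : Rg, C * (A * X) = A * (C * X) := fun X => by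
    rw [← mul_assoc, hCA, mul_assoc]
  simp only [mul_add, add_mul, mul_sub, sub_mul, mul_one, one_mul, mul_assoc, hAA, hCC, hCA,
    hAA', hCC', hCA']
  abel

theorem refl_TCT {Rg : Type*} [Ring Rg] (A C : Rg) (hAA : A * A = 1) (hCC : C * C = 1)
    (hAC : A * C = C * A) :
    (1 - A - C - A * C) * C * (1 - A - C - A * C) = C + C + C + C := by
  have hCA : C * A = A * C := hAC.symm
  have hAA' : ∀ X : Rg, A * (A * X) = X := fun X => by rw [← mul_assoc, hAA, one_mul]
  have hCC' : ∀ X : Rg, C * (C * X) = X := fun X => by rw [← mul_assoc, hCC, one_mul]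
  have hCA' : ∀ X : Rg, C * (A * X) = A * (C * X) := fun X => by
    rw [← mul_assoc, hCA, mul_assoc]
  simp only [mul_add, add_mul, mul_sub, sub_mul, mul_one, one_mul, mul_assoc, hAA, hCC, hCA,
    hAA', hCC', hCA']
  abel

/-- `B` anticommutes with `A` and commutes with `C`. -/
theorem refl_TBT {Rg : Type*} [Ring Rg] (A C B : Rg) (hAA : A * A = 1) (hCC : C * C = 1)
    (hAC : A * C = C * A) (hBA : B * A = -(A * B)) (hCB : C * B = B * C) :
    (1 - A - C - A * C) * B * (1 - A - C - A * C) =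
      -(B * C) + -(B * C) + -(B * C) + -(B * C) := by
  have hCA : C * A = A * C := hAC.symm
  have hAA' : ∀ X : Rg, A * (A * X) = X := fun X => by rw [← mul_assoc, hAA, one_mul]
  have hCC' : ∀ X : Rg, C * (C * X) = X := fun X => by rw [← mul_assoc, hCC, one_mul]
  have hCA' : ∀ X : Rg, C * (A * X) = A * (C * X) := fun X => by
    rw [← mul_assoc, hCA, mul_assoc]
  have hBA' : ∀ X : Rg, B * (A * X) = -(A * (B * X)) := fun X => by
    rw [← mul_assoc, hBA, neg_mul, mul_assoc]
  have hCB' : ∀ X : Rg, C * (B * X) = B * (C * X) := fun X => by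
    rw [← mul_assoc, hCB, mul_assoc]
  simp only [mul_add, add_mul, mul_sub, sub_mul, mul_one, one_mul, mul_assoc, mul_neg, neg_mul,
    neg_neg, hAA, hCC, hCA, hBA, hCB, hAA', hCC', hCA', hBA', hCB']
  abel

theorem reflS (hnorm : StNorm.{u}) (htr : StTr0.{u}) : StRefl.{u} := by
  intro F _ R i h2 hS a b c d hB
  obtain ⟨T, hT⟩ : ∃ T : M4 F, T = 1 - (a : M4 F) - (c : M4 F) - (a : M4 F) * (c : M4 F) :=
    ⟨_, rfl⟩
  obtain ⟨S, hSdef⟩ : ∃ S : M4 F, S = (2 : F)⁻¹ • T := ⟨_, rfl⟩
  have hBA : (b : M4 F) * (a : M4 F) = -((a : M4 F) * (b : M4 F)) := by rw [hB.ab, neg_neg]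
  have hDC : (d : M4 F) * (c : M4 F) = -((c : M4 F) * (d : M4 F)) := by rw [hB.cd, neg_neg]
  have key : ∀ X Y : M4 F, T * X * T = Y + Y + Y + Y → S * X * S = Y := by
    intro X Y h
    rw [hSdef, Matrix.smul_mul, Matrix.smul_mul, Matrix.mul_smul, smul_smul, h]
    exact quarter_smul h2 Y
  have hSS : S * S = 1 := by
    have h1 := key 1 1 (by rw [mul_one, hT]; exact refl_TT _ _ hB.aa hB.cc hB.ac)
    rwa [mul_one] at h1
  have hSA : S * (a : M4 F) * S = a :=
    key _ _ (by rw [hT]; exact refl_TAT _ _ hB.aa hB.cc hB.ac)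
  have hSC : S * (c : M4 F) * S = c :=
    key _ _ (by rw [hT]; exact refl_TCT _ _ hB.aa hB.cc hB.ac)
  have hSB : S * (b : M4 F) * S = -((b : M4 F) * (c : M4 F)) :=
    key _ _ (by rw [hT]; exact refl_TBT _ _ _ hB.aa hB.cc hB.ac hBA hB.bc.symm)
  have hSD : S * (d : M4 F) * S = -((d : M4 F) * (a : M4 F)) :=
    key _ _ (by
      have hT' : T = 1 - (c : M4 F) - (a : M4 F) - (c : M4 F) * (a : M4 F) := by
        rw [hT, hB.ac]; abel
      rw [hT']; exact refl_TBT _ _ _ hB.cc hB.aa hB.ac.symm hDC hB.ad)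
  obtain ⟨s, hs1, hs2⟩ : ∃ s : G4 F, (s : M4 F) = S ∧ ((s⁻¹ : G4 F) : M4 F) = S :=
    ⟨⟨S, S, hSS, hSS⟩, rfl, rfl⟩
  have hι := iotaU_mem hS
  have hneg : ((iotaU i hS.isq * iotaU i hS.isq : G4 F) : M4 F) = -1 := by
    rw [Units.val_mul, iotaU_val, smul_mul_smul_comm, mul_one, hS.isq, neg_smul, one_smul]
  have hnegR : iotaU i hS.isq * iotaU i hS.isq ∈ R := R.mul_mem hι hι
  have ha' : s * a * s⁻¹ ∈ R := by
    have h1 : s * a * s⁻¹ = a := by
      apply Units.ext
      rw [Units.val_mul, Units.val_mul, hs1, hs2, hSA]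
    rw [h1]; exact hB.ha
  have hc' : s * c * s⁻¹ ∈ R := by
    have h1 : s * c * s⁻¹ = c := by
      apply Units.ext
      rw [Units.val_mul, Units.val_mul, hs1, hs2, hSC]
    rw [h1]; exact hB.hc
  have hb' : s * b * s⁻¹ ∈ R := by
    have h1 : s * b * s⁻¹ = iotaU i hS.isq * iotaU i hS.isq * (b * c) := by
      apply Units.ext
      rw [Units.val_mul, Units.val_mul, hs1, hs2, hSB, Units.val_mul, hneg, Units.val_mul,
        neg_one_mul]
    rw [h1]; exact R.mul_mem hnegR (R.mul_mem hB.hb hB.hc)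
  have hd' : s * d * s⁻¹ ∈ R := by
    have h1 : s * d * s⁻¹ = iotaU i hS.isq * iotaU i hS.isq * (d * a) := by
      apply Units.ext
      rw [Units.val_mul, Units.val_mul, hs1, hs2, hSD, Units.val_mul, hneg, Units.val_mul,
        neg_one_mul]
    rw [h1]; exact R.mul_mem hnegR (R.mul_mem hB.hd hB.ha)
  have hta : Matrix.trace (a : M4 F) = 0 :=
    htr F R i h2 hS a hB.ha (fun k => not_scalar_of_anticomm h2 a b hB.ab _)
  have htc : Matrix.trace (c : M4 F) = 0 :=
    htr F R i h2 hS c hB.hc (fun k => not_scalar_of_anticomm h2 c d hB.cd _)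
  have htac : Matrix.trace ((a : M4 F) * (c : M4 F)) = 0 := by
    have hanti : ((a * c : G4 F) : M4 F) * (b : M4 F) = -((b : M4 F) * ((a * c : G4 F) : M4 F)) := by
      rw [Units.val_mul, mul_assoc, ← hB.bc, ← mul_assoc, hB.ab, neg_mul, mul_assoc]
    have h1 := htr F R i h2 hS (a * c) (R.mul_mem hB.ha hB.hc)
      (fun k => not_scalar_of_anticomm h2 (a * c) b hanti _)
    rwa [Units.val_mul] at h1
  refine ⟨s, hnorm F R i h2 hS a b c d hB s ha' hb' hc' hd', ?_, ?_⟩
  · rw [hs1]; exact hSS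
  · rw [hs1, hSdef, hT, Matrix.trace_smul, Matrix.trace_sub, Matrix.trace_sub, Matrix.trace_sub,
      hta, htc, htac, Matrix.trace_one, Fintype.card_fin]
    simp only [sub_zero, smul_eq_mul]
    push_cast
    field_simp
    norm_num

example : StNorm.{u} → StTr0.{u} → StRefl.{u} := reflS

end Cfsg.Agent.H62.S4
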