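import Mathlib
import Cfsg.Agent.H99.S4Defs

/-!
S6000-TRID (helper62, for helper99's S6000 project): the trace identity
`4 tr(y) tr(y⁻¹) = |C_R(y)|` for `y` in the normaliser of `R` with `y ^ m` scalar, `m` odd.
-/

set_option autoImplicit false
set_option linter.unusedVariables false
set_option linter.style.haveILetI false
set_option linter.unusedSimpArgs false

namespace Cfsg.Agent.H62.S4

open Cfsg.Agent.H99.S4

universe u

theorem trId (htr : StTr0.{u}) : StTrId.{u} := by
  intro F _ R i h2 hS y hy m z hm hym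
  classical
  haveI hfinR : Finite R := Nat.finite_of_card_ne_zero (by rw [hS.card]; norm_num)
  letI : Fintype R := Fintype.ofFinite R
  have hcardR : Fintype.card R = 64 := by rw [← Nat.card_eq_fintype_card, hS.card]
  have h4 : (4 : F) ≠ 0 := by
    have e : (4 : F) = 2 * 2 := by norm_num
    rw [e]; exact mul_ne_zero h2 h2
  have hyN : ∀ h : G4 F, h ∈ R → y * h * y⁻¹ ∈ R := fun h hh =>
    (Subgroup.mem_set_normalizer_iff.mp hy h).mp hh
  -- `y ^ m` is central
  have hcentral : ∀ h : G4 F, y ^ m * h * (y ^ m)⁻¹ = h := by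
    intro h
    have e : y ^ m * h = h * y ^ m := by
      apply Units.ext
      rw [Units.val_mul, Units.val_mul, Units.val_pow_eq_pow_val, hym, Matrix.smul_mul,
        Matrix.mul_smul, one_mul, mul_one]
    rw [e, mul_inv_cancel_right]
  -- the conjugates and their sum
  obtain ⟨u, hu⟩ : ∃ u : R → G4 F, u = fun h : R => (h : G4 F)⁻¹ * y * (h : G4 F) := ⟨_, rfl⟩
  obtain ⟨S, hSdef⟩ : ∃ S : M4 F, S = ∑ h : R, ((u h : G4 F) : M4 F) := ⟨_, rfl⟩
  have hconjS : ∀ g : R, (((g : G4 F)⁻¹ : G4 F) : M4 F) * S * ((g : G4 F) : M4 F) = S := by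
    intro g
    rw [hSdef, Finset.mul_sum, Finset.sum_mul]
    apply Fintype.sum_equiv (Equiv.mulRight g)
    intro h
    have e : (g : G4 F)⁻¹ * u h * (g : G4 F) = u (Equiv.mulRight g h) := by
      rw [hu]
      show (g : G4 F)⁻¹ * ((h : G4 F)⁻¹ * y * (h : G4 F)) * (g : G4 F) =
        (((h * g : R) : G4 F))⁻¹ * y * ((h * g : R) : G4 F)
      rw [Subgroup.coe_mul]
      group
    rw [← e, Units.val_mul, Units.val_mul]
  have hcommS : ∀ x ∈ R, S * (x : M4 F) = (x : M4 F) * S := by
    intro x hx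
    have h1 := hconjS ⟨x, hx⟩
    have h3 : (x : M4 F) * ((((x : G4 F)⁻¹ : G4 F) : M4 F) * S * (x : M4 F)) = S * (x : M4 F) := by
      rw [← mul_assoc, ← mul_assoc, Units.mul_inv, one_mul]
    rw [← h3, h1]
  obtain ⟨c, hc⟩ := hS.commutant S hcommS
  -- the trace of `S`
  have htrS : Matrix.trace S = 64 * Matrix.trace (y : M4 F) := by
    rw [hSdef, Matrix.trace_sum]
    have h1 : ∀ h : R, Matrix.trace ((u h : G4 F) : M4 F) = Matrix.trace (y : M4 F) := by
      intro h
      rw [hu]
      show Matrix.trace ((((h : G4 F)⁻¹ * y * (h : G4 F) : G4 F)) : M4 F) = _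
      rw [Units.val_mul, Units.val_mul, Matrix.trace_mul_comm, ← mul_assoc, Units.mul_inv,
        one_mul]
    rw [Finset.sum_congr rfl (fun h _ => h1 h), Finset.sum_const, Finset.card_univ, hcardR,
      nsmul_eq_mul]
    norm_num
  have hcval : c = 16 * Matrix.trace (y : M4 F) := by
    have h1 : Matrix.trace S = c * 4 := by
      rw [hc, Matrix.trace_smul, Matrix.trace_one, Fintype.card_fin, smul_eq_mul]
      norm_num
    rw [htrS] at h1
    apply mul_right_cancel₀ h4
    rw [← h1]
    ring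
  -- the second trace
  have htr2 : Matrix.trace (S * ((y⁻¹ : G4 F) : M4 F)) =
      16 * Matrix.trace (y : M4 F) * Matrix.trace ((y⁻¹ : G4 F) : M4 F) := by
    rw [hc, Matrix.smul_mul, one_mul, Matrix.trace_smul, smul_eq_mul, hcval]
  have hterm : ∀ h : R, Matrix.trace (((u h : G4 F) : M4 F) * ((y⁻¹ : G4 F) : M4 F)) =
      if y * (h : G4 F) = (h : G4 F) * y then (4 : F) else 0 := by
    intro h
    obtain ⟨ρ, hρ⟩ : ∃ ρ : G4 F, ρ = (h : G4 F)⁻¹ * (y * (h : G4 F) * y⁻¹) := ⟨_, rfl⟩
    have hρR : ρ ∈ R := by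
      rw [hρ]; exact R.mul_mem (R.inv_mem h.2) (hyN _ h.2)
    have hmat : ((u h : G4 F) : M4 F) * ((y⁻¹ : G4 F) : M4 F) = (ρ : M4 F) := by
      rw [← Units.val_mul, hρ, hu]
      congr 1
      group
    rw [hmat]
    by_cases hcomm : y * (h : G4 F) = (h : G4 F) * y
    · rw [if_pos hcomm]
      have hρ1 : ρ = 1 := by
        rw [hρ, hcomm]; group
      rw [hρ1, Units.val_one, Matrix.trace_one, Fintype.card_fin]
      norm_num
    · rw [if_neg hcomm]
      apply htr F R i h2 hS ρ hρR
      intro k hk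
      apply hcomm
      -- `y h y⁻¹ = i^k h` as matrices
      have hstep : ((y * (h : G4 F) * y⁻¹ : G4 F) : M4 F) = i ^ k • ((h : G4 F) : M4 F) := by
        have e : y * (h : G4 F) * y⁻¹ = (h : G4 F) * ρ := by rw [hρ]; group
        rw [e, Units.val_mul, hk, Matrix.mul_smul, mul_one]
      have hind : ∀ n : ℕ, ((y ^ n * (h : G4 F) * (y ^ n)⁻¹ : G4 F) : M4 F) =
          (i ^ k) ^ n • ((h : G4 F) : M4 F) := by
        intro n
        induction n with
        | zero => simp
        | succ n ih =>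
          have e : y ^ (n + 1) * (h : G4 F) * (y ^ (n + 1))⁻¹ =
              y * (y ^ n * (h : G4 F) * (y ^ n)⁻¹) * y⁻¹ := by
            rw [pow_succ']; group
          rw [e, Units.val_mul, Units.val_mul, ih, Matrix.mul_smul, Matrix.smul_mul,
            ← Units.val_mul, ← Units.val_mul, hstep, smul_smul, pow_succ]
      have h1 := hind m
      rw [hcentral] at h1
      have h5 : ((i ^ k) ^ m - 1) • ((h : G4 F) : M4 F) = 0 := by
        rw [sub_smul, one_smul, ← h1, sub_self]
      have h6 : (i ^ k) ^ m = 1 := by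
        rcases smul_eq_zero.mp h5 with h7 | h7
        · exact sub_eq_zero.mp h7
        · exact absurd h7 (Units.ne_zero (h : G4 F))
      have h8 : (i ^ k) ^ 4 = 1 := by
        have e4 : i ^ 4 = 1 := by
          have e : i ^ 4 = (i * i) * (i * i) := by ring
          rw [e, hS.isq]; ring
        rw [← pow_mul, mul_comm, pow_mul, e4, one_pow]
      have hcop : Nat.Coprime m 4 := by
        have e : (4 : ℕ) = 2 ^ 2 := by norm_num
        rw [e]
        exact Nat.Coprime.pow_right 2 (Nat.coprime_two_right.mpr hm)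
      have h9 : i ^ k = 1 := by
        have h10 : (i ^ k) ^ Nat.gcd m 4 = 1 := pow_gcd_eq_one.mpr ⟨h6, h8⟩
        rwa [Nat.Coprime.gcd_eq_one hcop, pow_one] at h10
      have hρ1 : ρ = 1 := by
        apply Units.ext
        rw [hk, h9, one_smul, Units.val_one]
      have e : y * (h : G4 F) * y⁻¹ = (h : G4 F) * ρ := by rw [hρ]; group
      rw [hρ1, mul_one] at e
      exact mul_inv_eq_iff_eq_mul.mp e
  have hsum : Matrix.trace (S * ((y⁻¹ : G4 F) : M4 F)) = (Nat.card (CentR R y) : F) * 4 := by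
    rw [hSdef, Finset.sum_mul, Matrix.trace_sum, Finset.sum_congr rfl (fun h _ => hterm h)]
    rw [Finset.sum_ite, Finset.sum_const, Finset.sum_const_zero, add_zero, nsmul_eq_mul]
    congr 2
    have e1 : Nat.card (CentR R y) = Nat.card {h : R // y * (h : G4 F) = (h : G4 F) * y} :=
      Nat.card_congr (Equiv.subtypeSubtypeEquivSubtypeInter (fun h : G4 F => h ∈ R)
        (fun h : G4 F => y * h = h * y)).symm
    rw [e1, Nat.card_eq_fintype_card, Fintype.card_subtype]
  rw [htr2] at hsum
  apply mul_left_cancel₀ h4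
  linear_combination hsum

example : StTr0.{u} → StTrId.{u} := trId

end Cfsg.Agent.H62.S4
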