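import Mathlib
import Cfsg.Agent.H91.SMDefs
import Cfsg.Agent.H54.CartanLin
import Cfsg.Agent.S0248

/-!
# S2086-STEM (helper62): `SL_n(F) → PSL_n(F)` is a stem extension with cyclic kernel of order
`gcd(n, q - 1)`
-/

set_option autoImplicit false
set_option linter.style.haveILetI false
set_option linter.unusedSimpArgs false
set_option linter.unusedSectionVars false
set_option linter.unusedVariables false

namespace Cfsg.Agent.H62.SM

open Matrix Subgroup Cfsg.Agent.H91.SM

universe u

theorem exists_sq_ne_one {F : Type*} [Field F] [Fintype F] (h : 4 ≤ Fintype.card F) :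
    ∃ a : F, a ≠ 0 ∧ a ^ 2 ≠ 1 := by
  classical
  by_contra hcon
  push Not at hcon
  have hsub : (Finset.univ : Finset F) ⊆ {0, 1, -1} := by
    intro x _
    by_cases hx : x = 0
    · simp [hx]
    · have h1 := hcon x hx
      have h2 : (x - 1) * (x + 1) = 0 := by linear_combination h1
      rcases mul_eq_zero.mp h2 with h3 | h3
      · have h4 : x = 1 := by linear_combination h3
        simp [h4]
      · have h4 : x = -1 := by linear_combination h3
        simp [h4]
  have h5 := Finset.card_le_card hsub
  have h3 : ({0, 1, -1} : Finset F).card ≤ 3 := Finset.card_le_three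
  rw [Finset.card_univ] at h5
  omega

theorem sln_perfect {F : Type*} [Field F] [Fintype F] (n : ℕ) (hn : 2 ≤ n)
    (hn2 : n = 2 → 4 ≤ Fintype.card F) : commutator (SLn n F) = ⊤ := by
  rcases Nat.lt_or_ge n 3 with h | h
  · have h2 : n = 2 := by omega
    subst h2
    obtain ⟨a, ha, hasq⟩ := exists_sq_ne_one (hn2 rfl)
    exact Matrix.SL2.commutator_eq_top ha hasq
  · exact Cfsg.Agent.S0248.result n h

theorem center_sln_equiv {F : Type*} [Field F] [Fintype F] (n : ℕ) (hn : 2 ≤ n) :
    Nonempty (↥(center (SLn n F)) ≃* Multiplicative (ZMod (Nat.gcd n (Fintype.card F - 1)))) := by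
  classical
  have e1 := Matrix.SpecialLinearGroup.center_equiv_rootsOfUnity (n := Fin n) (R := F)
  have hk : max (Fintype.card (Fin n)) 1 = n := by
    rw [Fintype.card_fin]
    omega
  rw [hk] at e1
  haveI : NeZero n := ⟨by omega⟩
  haveI hcyc : IsCyclic ↥(rootsOfUnity n F) := rootsOfUnity.isCyclic F n
  have hcard : Nat.card ↥(rootsOfUnity n F) = Nat.gcd n (Fintype.card F - 1) := by
    rw [← Cfsg.Agent.H54.CartanLin.card_pow_eq_one_units (K := F) n]
    exact Nat.card_congr (Equiv.subtypeEquivRight (fun ω => mem_rootsOfUnity n ω))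
  have e2 := zmodCyclicMulEquiv hcyc
  rw [hcard] at e2
  exact ⟨e1.trans e2.symm⟩

theorem stem : StemStmt.{u} := by
  intro F _ _ n hn hn2
  refine ⟨⟨QuotientGroup.mk'_surjective _, ?_, ?_⟩, ?_⟩
  · rw [QuotientGroup.ker_mk']
  · rw [sln_perfect n hn hn2]
    exact le_top
  · rw [QuotientGroup.ker_mk']
    exact center_sln_equiv n hn

end Cfsg.Agent.H62.SM
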