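import Mathlib

/-!
# Fixed points of an element of order three acting on a subgroup (for S2772)
-/

set_option autoImplicit false
set_option linter.style.haveILetI false
set_option linter.unusedVariables false
set_option linter.unusedSimpArgs false

namespace Cfsg.Agent.H62.Sm

universe u

/-- If `y ^ 3 = 1` and `y` normalizes the finite subgroup `X`, then `|X| ≡ |C_X(y)|` mod 3. -/
theorem card_fix_mod3 {M : Type u} [Group M] (X : Subgroup M) [Finite X] (y : M)
    (hy3 : y ^ 3 = 1) (hX : ∀ x ∈ X, y * x * y⁻¹ ∈ X) :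
    Nat.card X ≡ Nat.card (X ⊓ Subgroup.centralizer ({y} : Set M) : Subgroup M) [MOD 3] := by
  classical
  haveI : Fact (Nat.Prime 3) := ⟨by norm_num⟩
  haveI : Fintype X := Fintype.ofFinite X
  let φ : Function.End X := fun x => ⟨y * x * y⁻¹, hX x x.2⟩
  have hφ : φ ^ 3 ^ 1 = 1 := by
    funext x
    apply Subtype.ext
    show y * (y * (y * x * y⁻¹) * y⁻¹) * y⁻¹ = x
    have h1 : y * (y * (y * (x : M) * y⁻¹) * y⁻¹) * y⁻¹ = y ^ 3 * x * (y ^ 3)⁻¹ := by
      simp only [pow_succ, pow_zero, one_mul, mul_inv_rev, mul_assoc]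
    rw [h1, hy3, one_mul, inv_one, mul_one]
  have h := Equiv.Perm.card_fixedPoints_modEq (p := 3) (n := 1) hφ
  rw [Nat.card_eq_fintype_card]
  have e : Function.fixedPoints φ ≃ (X ⊓ Subgroup.centralizer ({y} : Set M) : Subgroup M) :=
    { toFun := fun x => ⟨(x.1 : M), by
        have hx : φ x.1 = x.1 := x.2
        have hx' : y * (x.1 : M) * y⁻¹ = x.1 := congrArg Subtype.val hx
        rw [Subgroup.mem_inf, Subgroup.mem_centralizer_singleton_iff]
        refine ⟨x.1.2, ?_⟩
        calc (x.1 : M) * y = y * (x.1 : M) * y⁻¹ * y := by rw [hx']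
          _ = y * (x.1 : M) := by group⟩
      invFun := fun z => ⟨⟨z.1, (Subgroup.mem_inf.1 z.2).1⟩, by
        have hz := (Subgroup.mem_inf.1 z.2).2
        rw [Subgroup.mem_centralizer_singleton_iff] at hz
        show φ _ = _
        apply Subtype.ext
        show y * (z.1 : M) * y⁻¹ = z.1
        rw [← hz, mul_inv_cancel_right]⟩
      left_inv := fun x => rfl
      right_inv := fun z => rfl }
  have h2 : Fintype.card (Function.fixedPoints φ) =
      Nat.card (X ⊓ Subgroup.centralizer ({y} : Set M) : Subgroup M) := by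
    rw [← Nat.card_eq_fintype_card]
    exact Nat.card_congr e
  rw [← h2]
  exact h

end Cfsg.Agent.H62.Sm
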