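import Mathlib
import Cfsg.Agent.H52.SmDefs
import Cfsg.Agent.H62.SmFix

/-!
# SM-ELEM (S2772): `Q` of order 8 is elementary abelian
-/

set_option autoImplicit false
set_option linter.style.haveILetI false
set_option linter.unusedVariables false
set_option linter.unusedSimpArgs false

namespace Cfsg.Agent.H62.Sm

universe u

theorem d3_r16 : (DihedralGroup.r 1 : DihedralGroup 3) ^ 16 ≠ 1 := by decide

/-- The center of a noncommutative group of order 8 has order 2. -/
theorem center_card_two_of_card_eight {G : Type u} [Group G] [Finite G] (h8 : Nat.card G = 8)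
    (hnc : ¬ ∀ a b : G, a * b = b * a) : Nat.card (Subgroup.center G) = 2 := by
  classical
  haveI : Fact (Nat.Prime 2) := ⟨Nat.prime_two⟩
  have hp : IsPGroup 2 G := IsPGroup.of_card (n := 3) (by rw [h8]; norm_num)
  haveI : Nontrivial G := (Finite.one_lt_card_iff_nontrivial).1 (by rw [h8]; norm_num)
  haveI hnt := hp.center_nontrivial
  have h1 : 1 < Nat.card (Subgroup.center G) := Finite.one_lt_card_iff_nontrivial.2 hnt
  have hdvd : Nat.card (Subgroup.center G) ∣ 8 := by
    rw [← h8]; exact Subgroup.card_subgroup_dvd_card _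
  have h8' : Nat.card (Subgroup.center G) ≠ 8 := by
    intro h
    have htop : Subgroup.center G = ⊤ := Subgroup.eq_top_of_card_eq _ (by rw [h, h8])
    apply hnc
    intro a b
    have ha : a ∈ Subgroup.center G := by rw [htop]; trivial
    exact ((Subgroup.mem_center_iff.1 ha) b).symm
  have h4 : Nat.card (Subgroup.center G) ≠ 4 := by
    intro h
    have hidx : (Subgroup.center G).index = 2 := by
      have := (Subgroup.center G).card_mul_index; rw [h, h8] at this; omega
    have hq : Nat.card (G ⧸ Subgroup.center G) = 2 := hidx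
    haveI : IsCyclic (G ⧸ Subgroup.center G) := isCyclic_of_prime_card (p := 2) hq
    apply hnc
    exact commutative_of_cyclic_center_quotient (QuotientGroup.mk' (Subgroup.center G))
      (by rw [QuotientGroup.ker_mk'])
  have hle : Nat.card (Subgroup.center G) ≤ 8 := Nat.le_of_dvd (by norm_num) hdvd
  generalize Nat.card (Subgroup.center G) = n at *
  interval_cases n <;> first | rfl | omega | (exfalso; revert hdvd; decide)

theorem elem : Cfsg.Agent.H52.Sm.StElem.{u} := by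
  intro M _ _ Q S hyp hQ8
  classical
  haveI := hyp.Qn
  have hQn := hyp.Qn
  obtain ⟨f, hf, hker⟩ := hyp.dih
  have hM : Nat.card M = 48 := by
    have h1 := f.ker.card_mul_index
    rw [Subgroup.index_ker, MonoidHom.range_eq_top.2 hf, Subgroup.card_top,
      DihedralGroup.nat_card, hker, hQ8] at h1
    omega
  -- (1) `Q` is abelian
  have hab : ∀ a ∈ Q, ∀ b ∈ Q, a * b = b * a := by
    by_contra hcon
    have hnc : ¬ ∀ a b : Q, a * b = b * a := by
      intro h; apply hcon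
      intro a ha b hb
      exact congrArg Subtype.val (h ⟨a, ha⟩ ⟨b, hb⟩)
    have hc2 := center_card_two_of_card_eight hQ8 hnc
    obtain ⟨ZQ, hZQ⟩ : ∃ ZQ : Subgroup M, ZQ = Q ⊓ Subgroup.centralizer (Q : Set M) := ⟨_, rfl⟩
    have hZQle : ZQ ≤ Q := by rw [hZQ]; exact inf_le_left
    have hZQ2 : Nat.card ZQ = 2 := by
      rw [← hc2]
      have h1 : ZQ.subgroupOf Q = Subgroup.center Q := by
        ext ⟨q, hq⟩
        rw [Subgroup.mem_subgroupOf, hZQ, Subgroup.mem_inf, Subgroup.mem_centralizer_iff,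
          Subgroup.mem_center_iff]
        constructor
        · rintro ⟨-, h⟩ ⟨g, hg⟩
          exact Subtype.ext (h g hg)
        · intro h
          exact ⟨hq, fun g hg => congrArg Subtype.val (h ⟨g, hg⟩)⟩
      rw [← h1]
      exact (Nat.card_congr (Subgroup.subgroupOfEquivOfLe hZQle).toEquiv).symm
    obtain ⟨ZS, hZS⟩ : ∃ ZS : Subgroup M, ZS = S ⊓ Subgroup.centralizer (S : Set M) := ⟨_, rfl⟩
    have hS16 : Nat.card S = 16 := by rw [hyp.card, hQ8]
    have hSp : IsPGroup 2 S := IsPGroup.of_card (n := 4) (by rw [hS16]; norm_num)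
    haveI : Fact (Nat.Prime 2) := ⟨Nat.prime_two⟩
    haveI : Nontrivial S := (Finite.one_lt_card_iff_nontrivial).1 (by rw [hS16]; norm_num)
    haveI hnt := hSp.center_nontrivial
    obtain ⟨z, hz1⟩ := exists_ne (1 : Subgroup.center S)
    have hzS : ((z : S) : M) ∈ ZS := by
      rw [hZS, Subgroup.mem_inf, Subgroup.mem_centralizer_iff]
      refine ⟨(z : S).2, fun s hs => ?_⟩
      have := (Subgroup.mem_center_iff.1 z.2) ⟨s, hs⟩
      exact congrArg Subtype.val this
    have hZSne : ZS ≠ ⊥ := by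
      intro h
      rw [h, Subgroup.mem_bot] at hzS
      apply hz1
      apply Subtype.ext; apply Subtype.ext; exact hzS
    have hZSle : ZS ≤ ZQ := by
      intro z hz
      rw [hZS, Subgroup.mem_inf, Subgroup.mem_centralizer_iff] at hz
      have hzc : z ∈ Subgroup.centralizer (Q : Set M) := by
        rw [Subgroup.mem_centralizer_iff]
        intro q hq
        exact hz.2 q (hyp.QS hq)
      rw [hZQ, Subgroup.mem_inf]
      exact ⟨hyp.cent hzc, hzc⟩
    have hZeq : ZS = ZQ := by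
      apply Subgroup.eq_of_le_of_card_ge hZSle
      rw [hZQ2]
      exact (Subgroup.one_lt_card_iff_ne_bot _).2 hZSne
    apply hyp.zs
    intro m z hz
    rw [← hZS] at hz ⊢
    rw [hZeq] at hz ⊢
    rw [hZQ, Subgroup.mem_inf, Subgroup.mem_centralizer_iff] at hz ⊢
    refine ⟨hQn.conj_mem z hz.1 m, fun q hq => ?_⟩
    have h1 := hz.2 (m⁻¹ * q * m) (by have := hQn.conj_mem q hq m⁻¹; simpa using this)
    calc q * (m * z * m⁻¹) = m * (m⁻¹ * q * m * z) * m⁻¹ := by group
      _ = m * (z * (m⁻¹ * q * m)) * m⁻¹ := by rw [h1]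
      _ = m * z * m⁻¹ * q := by group
  -- (2) an element of order three
  obtain ⟨x, hx⟩ := hf (DihedralGroup.r 1)
  obtain ⟨y, hy⟩ : ∃ y : M, y = x ^ 16 := ⟨_, rfl⟩
  have hy3 : y ^ 3 = 1 := by
    rw [hy, ← pow_mul]
    have h := pow_card_eq_one' (G := M) (x := x)
    rw [hM] at h; exact h
  have hfy : f y ≠ 1 := by
    rw [hy, map_pow, hx]; exact d3_r16
  have hyQ : ∀ q ∈ Q, y * q * y⁻¹ ∈ Q := fun q hq => hQn.conj_mem q hq y
  obtain ⟨C, hC⟩ : ∃ C : Subgroup M, C = Q ⊓ Subgroup.centralizer ({y} : Set M) := ⟨_, rfl⟩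
  have hCQ : C ≤ Q := by rw [hC]; exact inf_le_left
  have hC2 : Nat.card C = 2 := by
    have hmod := card_fix_mod3 Q y hy3 hyQ
    rw [← hC, hQ8] at hmod
    have hCcard : Nat.card C ∣ 8 := by rw [← hQ8]; exact Subgroup.card_dvd_of_le hCQ
    have hC8 : Nat.card C ≠ 8 := by
      intro h8
      have hCeq : C = Q := Subgroup.eq_of_le_of_card_ge hCQ (by rw [h8, hQ8])
      have hyQ : y ∈ Q := by
        apply hyp.cent
        rw [Subgroup.mem_centralizer_iff]
        intro q hq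
        have h5 : q ∈ C := by rw [hCeq]; exact hq
        rw [hC] at h5
        have h6 := (Subgroup.mem_inf.1 h5).2
        rw [Subgroup.mem_centralizer_singleton_iff] at h6
        exact h6
      rw [← hker] at hyQ
      exact hfy hyQ
    have hle : Nat.card C ≤ 8 := Nat.le_of_dvd (by norm_num) hCcard
    unfold Nat.ModEq at hmod
    have hpos : 0 < Nat.card C := Nat.card_pos
    generalize Nat.card C = n at *
    interval_cases n <;> first | rfl | omega | (exfalso; revert hCcard; decide)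
  have hA : ∀ B : Subgroup M, B ≤ Q → (∀ b ∈ B, y * b * y⁻¹ ∈ B) → Nat.card B = 4 →
      ∀ b ∈ B, y * b * y⁻¹ = b → b = 1 := by
    intro B hBQ hBy hB4 b hb hyb
    have hmod := card_fix_mod3 B y hy3 hBy
    obtain ⟨D, hD⟩ : ∃ D : Subgroup M, D = B ⊓ Subgroup.centralizer ({y} : Set M) := ⟨_, rfl⟩
    rw [← hD, hB4] at hmod
    have hDB : D ≤ B := by rw [hD]; exact inf_le_left
    have hDC : D ≤ C := by rw [hD, hC]; exact inf_le_inf_right _ hBQ
    have hDle : Nat.card D ≤ 2 := by rw [← hC2]; exact Subgroup.card_le_of_le hDC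
    have hD1 : Nat.card D = 1 := by
      unfold Nat.ModEq at hmod
      have hpos : 0 < Nat.card D := Nat.card_pos
      omega
    have hDbot : D = ⊥ := Subgroup.card_eq_one.1 hD1
    have hbD : b ∈ D := by
      rw [hD, Subgroup.mem_inf, Subgroup.mem_centralizer_singleton_iff]
      refine ⟨hb, ?_⟩
      calc b * y = y * b * y⁻¹ * y := by rw [hyb]
        _ = y * b := by group
    rw [hDbot] at hbD; exact Subgroup.mem_bot.1 hbD
  have hB : ∀ A : Subgroup M, A ≤ Q → (∀ a ∈ A, y * a * y⁻¹ ∈ A) → Nat.card A = 2 →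
      ∀ a ∈ A, y * a * y⁻¹ = a := by
    intro A hAQ hAy hA2 a ha
    have hmod := card_fix_mod3 A y hy3 hAy
    obtain ⟨D, hD⟩ : ∃ D : Subgroup M, D = A ⊓ Subgroup.centralizer ({y} : Set M) := ⟨_, rfl⟩
    rw [← hD, hA2] at hmod
    have hDA : D ≤ A := by rw [hD]; exact inf_le_left
    have hDle : Nat.card D ≤ 2 := by rw [← hA2]; exact Subgroup.card_le_of_le hDA
    have hD2 : Nat.card D = 2 := by
      unfold Nat.ModEq at hmod
      have hpos : 0 < Nat.card D := Nat.card_pos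
      omega
    have hDeq : D = A := Subgroup.eq_of_le_of_card_ge hDA (by rw [hD2, hA2])
    have haD : a ∈ D := by rw [hDeq]; exact ha
    rw [hD, Subgroup.mem_inf, Subgroup.mem_centralizer_singleton_iff] at haD
    rw [← haD.2, mul_inv_cancel_right]
  -- the squaring homomorphism
  let sqh : Q →* M := MonoidHom.mk' (fun q => (q : M) * q) (by
    intro a b
    show ((a * b : Q) : M) * ((a * b : Q) : M) = (a : M) * a * ((b : M) * b)
    rw [Subgroup.coe_mul]
    have := hab a a.2 b b.2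
    calc (a : M) * b * (a * b) = a * (b * a) * b := by group
      _ = a * (a * b) * b := by rw [this]
      _ = a * a * (b * b) := by group)
  have hsq : ∀ q : Q, sqh q = (q : M) * q := fun q => rfl
  obtain ⟨X, hX⟩ : ∃ X : Subgroup M, X = sqh.range := ⟨_, rfl⟩
  obtain ⟨Ω, hΩ⟩ : ∃ Ω : Subgroup M, Ω = sqh.ker.map Q.subtype := ⟨_, rfl⟩
  have hmemX : ∀ z, z ∈ X ↔ ∃ q ∈ Q, z = q * q := by
    intro z; rw [hX, MonoidHom.mem_range]
    constructor
    · rintro ⟨q, rfl⟩; exact ⟨q, q.2, rfl⟩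
    · rintro ⟨q, hq, rfl⟩; exact ⟨⟨q, hq⟩, rfl⟩
  have hmemΩ : ∀ z, z ∈ Ω ↔ z ∈ Q ∧ z * z = 1 := by
    intro z; rw [hΩ, Subgroup.mem_map]
    constructor
    · rintro ⟨q, hq, rfl⟩; exact ⟨q.2, hq⟩
    · rintro ⟨hz, hzz⟩; exact ⟨⟨z, hz⟩, hzz, rfl⟩
  have hXQ : X ≤ Q := by
    intro z hz; obtain ⟨q, hq, rfl⟩ := (hmemX z).1 hz; exact Q.mul_mem hq hq
  have hΩQ : Ω ≤ Q := fun z hz => ((hmemΩ z).1 hz).1
  have hXy : ∀ z ∈ X, y * z * y⁻¹ ∈ X := by
    intro z hz; obtain ⟨q, hq, rfl⟩ := (hmemX z).1 hz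
    exact (hmemX _).2 ⟨y * q * y⁻¹, hyQ q hq, by group⟩
  have hΩy : ∀ z ∈ Ω, y * z * y⁻¹ ∈ Ω := by
    intro z hz; obtain ⟨hzQ, hzz⟩ := (hmemΩ z).1 hz
    refine (hmemΩ _).2 ⟨hyQ z hzQ, ?_⟩
    calc y * z * y⁻¹ * (y * z * y⁻¹) = y * (z * z) * y⁻¹ := by group
      _ = 1 := by rw [hzz]; group
  have hcard : Nat.card Ω * Nat.card X = 8 := by
    have h1 := sqh.ker.card_mul_index
    rw [Subgroup.index_ker, hQ8] at h1
    rw [hΩ, hX, Subgroup.card_map_of_injective Q.subtype_injective]; exact h1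
  have hΩ2 : 2 ≤ Nat.card Ω := by
    haveI : Fact (Nat.Prime 2) := ⟨Nat.prime_two⟩
    obtain ⟨u, hu⟩ := exists_prime_orderOf_dvd_card' (G := Q) 2 (by rw [hQ8]; norm_num)
    have hu1 : u ≠ 1 := by rintro rfl; rw [orderOf_one] at hu; omega
    have huΩ : (u : M) ∈ Ω := by
      refine (hmemΩ _).2 ⟨u.2, ?_⟩
      have := pow_orderOf_eq_one u; rw [hu, pow_two] at this
      exact congrArg Subtype.val this
    have : Ω ≠ ⊥ := by
      intro h; rw [h, Subgroup.mem_bot] at huΩ
      exact hu1 (Subtype.ext huΩ)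
    exact (Subgroup.one_lt_card_iff_ne_bot _).2 this
  intro x₀ hx₀
  by_contra hne
  have hX2 : 2 ≤ Nat.card X := by
    have hmem : x₀ * x₀ ∈ X := (hmemX _).2 ⟨x₀, hx₀, rfl⟩
    have : X ≠ ⊥ := by
      intro h; rw [h, Subgroup.mem_bot] at hmem; exact hne hmem
    exact (Subgroup.one_lt_card_iff_ne_bot _).2 this
  have hcases : (Nat.card Ω = 4 ∧ Nat.card X = 2) ∨ (Nat.card Ω = 2 ∧ Nat.card X = 4) := by
    generalize Nat.card Ω = a at *
    generalize Nat.card X = b at *
    have ha : a ≤ 4 := by nlinarith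
    have hb : b ≤ 4 := by nlinarith
    interval_cases a <;> interval_cases b <;> omega
  rcases hcases with ⟨hΩ4, hX2'⟩ | ⟨hΩ2', hX4⟩
  · have hz : x₀ * x₀ ∈ X := (hmemX _).2 ⟨x₀, hx₀, rfl⟩
    have hzfix := hB X hXQ hXy hX2' _ hz
    have hzΩ : x₀ * x₀ ∈ Ω := by
      refine (hmemΩ _).2 ⟨hXQ hz, ?_⟩
      have h1 := pow_card_eq_one' (G := X) (x := ⟨x₀ * x₀, hz⟩)
      rw [hX2', pow_two] at h1
      exact congrArg Subtype.val h1
    exact hne (hA Ω hΩQ hΩy hΩ4 _ hzΩ hzfix)
  · haveI : Fact (Nat.Prime 2) := ⟨Nat.prime_two⟩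
    obtain ⟨u, hu⟩ := exists_prime_orderOf_dvd_card' (G := X) 2 (by rw [hX4]; norm_num)
    have hu1 : u ≠ 1 := by rintro rfl; rw [orderOf_one] at hu; omega
    have huΩ : (u : M) ∈ Ω := by
      refine (hmemΩ _).2 ⟨hXQ u.2, ?_⟩
      have := pow_orderOf_eq_one u; rw [hu, pow_two] at this
      exact congrArg Subtype.val this
    have hufix := hB Ω hΩQ hΩy hΩ2' _ huΩ
    have := hA X hXQ hXy hX4 _ u.2 hufix
    exact hu1 (Subtype.ext this)

example : Cfsg.Agent.H52.Sm.StElem.{u} := elem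

end Cfsg.Agent.H62.Sm
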