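import Mathlib
import Cfsg.Agent.H52.SmDefs
import Cfsg.Agent.H52.ThS4

/-!
# SM-SURJ (S2772): a surjection onto `S₄`
-/

set_option autoImplicit false
set_option linter.style.haveILetI false
set_option linter.unusedVariables false
set_option linter.unusedSimpArgs false

namespace Cfsg.Agent.H62.Sm

universe u

/-- Elements of `zpowers y` for `y ^ 3 = 1`. -/
theorem zpowers_three {M : Type u} [Group M] (y : M) (hy3 : y ^ 3 = 1) :
    ∀ z ∈ Subgroup.zpowers y, z = 1 ∨ z = y ∨ z = y⁻¹ := by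
  have hyinv : y ^ 2 = y⁻¹ := by
    apply eq_inv_of_mul_eq_one_left
    rw [← pow_succ]; exact hy3
  intro z hz
  obtain ⟨k, rfl⟩ := Subgroup.mem_zpowers_iff.1 hz
  have hk : y ^ k = y ^ (k % 3) := by
    conv_lhs => rw [← Int.mul_ediv_add_emod k 3]
    rw [zpow_add, zpow_mul, show y ^ (3:ℤ) = 1 from by exact_mod_cast hy3, one_zpow, one_mul]
  have h3 : k % 3 = 0 ∨ k % 3 = 1 ∨ k % 3 = 2 := by omega
  rcases h3 with h | h | h
  · left; rw [hk, h, zpow_zero]
  · right; left; rw [hk, h, zpow_one]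
  · right; right; rw [hk, h]; exact_mod_cast hyinv

/-- An element commuting with `y` normalizes `zpowers y`. -/
theorem commute_mem_normalizer {M : Type u} [Group M] (y c : M) (hc : c * y = y * c) :
    c ∈ Subgroup.normalizer (Subgroup.zpowers y : Set M) := by
  have hcz : ∀ c : M, c * y = y * c → ∀ z ∈ Subgroup.zpowers y, c * z * c⁻¹ = z := by
    intro c hc z hz
    obtain ⟨k, rfl⟩ := Subgroup.mem_zpowers_iff.1 hz
    have : Commute c (y ^ k) := (show Commute c y from hc).zpow_right k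
    rw [this.eq, mul_inv_cancel_right]
  have hc' : c⁻¹ * y = y * c⁻¹ := by
    have : Commute c⁻¹ y := (show Commute c y from hc).inv_left
    exact this.eq
  rw [Subgroup.mem_normalizer_iff]
  intro z
  constructor
  · intro hz; rw [hcz c hc z hz]; exact hz
  · intro hz
    have h1 := hcz c⁻¹ hc' _ hz
    have h2 : c⁻¹ * (c * z * c⁻¹) * c⁻¹⁻¹ = z := by group
    rw [h2] at h1
    rw [h1]; exact hz

theorem d3_rot : ∀ d : DihedralGroup 3, d ≠ 1 → d ^ 3 = 1 →
    ∃ i : ZMod 3, d = DihedralGroup.r i ∧ i ≠ 0 := by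
  decide

theorem d3_pow1 : ∀ i : ZMod 3, i ≠ 0 →
    (DihedralGroup.r 1 : DihedralGroup 3) ^ (i.val : ℤ) = DihedralGroup.r i := by
  decide

theorem d3_pow2 : ∀ i : ZMod 3, i ≠ 0 →
    (DihedralGroup.r 1 : DihedralGroup 3) = (DihedralGroup.r i) ^ (i.val : ℤ) := by
  decide

theorem d3_inv : ∀ i : ZMod 3, i ≠ 0 →
    (DihedralGroup.sr 0 : DihedralGroup 3) * DihedralGroup.r i * (DihedralGroup.sr 0)⁻¹ ≠
      DihedralGroup.r i := by
  decide

theorem surj : Cfsg.Agent.H52.Sm.StSurj.{u} := by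
  intro M _ _ W f y hWn hW hf hWk h2 hy3 hfy hfix hker
  classical
  haveI := hWn
  haveI : Fact (Nat.Prime 3) := ⟨by norm_num⟩
  have hy1 : y ≠ 1 := by rintro rfl; exact hfy (map_one f)
  obtain ⟨i, hi, hi0⟩ := d3_rot (f y) hfy (by rw [← map_pow, hy3, map_one])
  have hzp := zpowers_three y hy3
  set N : Subgroup M := Subgroup.normalizer (Subgroup.zpowers y : Set M) with hN
  have hyN : y ∈ N := Subgroup.le_normalizer (Subgroup.mem_zpowers y)
  have hHy : ∀ h ∈ N, h * y * h⁻¹ = y ∨ h * y * h⁻¹ = y⁻¹ := by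
    intro h hh
    have h1 : h * y * h⁻¹ ∈ Subgroup.zpowers y :=
      (Subgroup.mem_normalizer_iff.1 hh y).1 (Subgroup.mem_zpowers y)
    rcases hzp _ h1 with h2 | h2 | h2
    · exfalso; apply hy1
      exact conj_eq_one_iff.1 h2
    · exact Or.inl h2
    · exact Or.inr h2
  have hcN : ∀ c : M, c * y = y * c → c ∈ N := fun c hc => commute_mem_normalizer y c hc
  -- the preimage of the rotations
  set R : Subgroup (DihedralGroup 3) := Subgroup.zpowers (DihedralGroup.r 1) with hR
  have hRcard : Nat.card R = 3 := by rw [hR, Nat.card_zpowers, DihedralGroup.orderOf_r_one]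
  have hRidx : R.index = 2 := by
    have := R.card_mul_index; rw [hRcard, DihedralGroup.nat_card] at this; omega
  haveI hRn : R.Normal := Subgroup.normal_of_index_eq_two hRidx
  set K : Subgroup M := R.comap f with hK
  haveI hKn : K.Normal := hRn.comap f
  have hKidx : K.index = 2 := by rw [hK, Subgroup.index_comap_of_surjective _ hf, hRidx]
  have hyK : y ∈ K := by
    rw [hK, Subgroup.mem_comap, hi, hR, Subgroup.mem_zpowers_iff]
    exact ⟨(i.val : ℤ), d3_pow1 i hi0⟩
  have hzK : Subgroup.zpowers y ≤ K := by rw [Subgroup.zpowers_le]; exact hyK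
  obtain ⟨n, hn⟩ := (IsPGroup.iff_card.1 h2)
  have hM : Nat.card M = 2 ^ n * 6 := by
    have h1 := f.ker.card_mul_index
    rw [Subgroup.index_ker, hn] at h1
    have h3 : Nat.card f.range = 6 := by
      rw [MonoidHom.range_eq_top.2 hf, Subgroup.card_top, DihedralGroup.nat_card]
    rw [h3] at h1; exact h1.symm
  have hKcard : Nat.card K = 2 ^ n * 3 := by
    have := K.card_mul_index; rw [hKidx, hM] at this; omega
  have hycard : Nat.card (Subgroup.zpowers y) = 3 := by
    rw [Nat.card_zpowers]; exact orderOf_eq_prime hy3 hy1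
  have hPG : IsPGroup 3 ((Subgroup.zpowers y).subgroupOf K) := by
    apply IsPGroup.of_card (n := 1)
    rw [pow_one, ← hycard]
    exact Nat.card_congr (Subgroup.subgroupOfEquivOfLe hzK).toEquiv
  have hidx : ¬ 3 ∣ ((Subgroup.zpowers y).subgroupOf K).index := by
    have h1 := ((Subgroup.zpowers y).subgroupOf K).card_mul_index
    rw [Nat.card_congr (Subgroup.subgroupOfEquivOfLe hzK).toEquiv, hycard, hKcard] at h1
    have h4 : ((Subgroup.zpowers y).subgroupOf K).index = 2 ^ n := by
      generalize (2:ℕ) ^ n = a at h1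
      omega
    rw [h4]
    intro hdvd
    have := (Nat.Prime.dvd_of_dvd_pow (by norm_num : Nat.Prime 3) hdvd)
    omega
  let P : Sylow 3 K := hPG.toSylow hidx
  have hFr := Sylow.normalizer_sup_eq_top P
  have hPmap : (P : Subgroup K).map K.subtype = Subgroup.zpowers y := by
    show ((Subgroup.zpowers y).subgroupOf K).map K.subtype = _
    exact Subgroup.map_subgroupOf_eq_of_le hzK
  rw [hPmap] at hFr
  have hKle : K ≤ W ⊔ N := by
    intro k hk
    rw [hK, Subgroup.mem_comap, hR, Subgroup.mem_zpowers_iff] at hk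
    obtain ⟨e, he⟩ := hk
    have : ∃ e' : ℤ, f k = (f y) ^ e' := by
      rw [hi, ← he]
      have h1 : (DihedralGroup.r 1 : DihedralGroup 3) = (DihedralGroup.r i) ^ (i.val : ℤ) :=
        d3_pow2 i hi0
      exact ⟨i.val * e, by rw [zpow_mul, ← h1]⟩
    obtain ⟨e', he'⟩ := this
    have hx : k * (y ^ e')⁻¹ ∈ f.ker := by
      rw [MonoidHom.mem_ker, map_mul, map_inv, map_zpow, he', mul_inv_cancel]
    obtain ⟨w, hw, c, hc, hxc⟩ := hker _ hx
    have : k = w * (c * y ^ e') := by
      rw [← mul_assoc, ← hxc, inv_mul_cancel_right]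
    rw [this]
    exact Subgroup.mul_mem_sup hw (N.mul_mem (hcN c hc) (N.zpow_mem hyN e'))
  have hsup : W ⊔ N = ⊤ := by
    rw [eq_top_iff, ← hFr]
    exact sup_le le_sup_right hKle
  obtain ⟨m, hm⟩ := hf (DihedralGroup.sr 0)
  have hmem : m ∈ W ⊔ N := by rw [hsup]; trivial
  obtain ⟨w, hw, g, hg, hwg⟩ := Subgroup.mem_sup_of_normal_left.1 hmem
  have hfg : f g = DihedralGroup.sr 0 := by
    have h1 : f w = 1 := hWk hw
    rw [← hm, ← hwg, map_mul, h1, one_mul]
  have hgy : g * y * g⁻¹ = y⁻¹ := by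
    rcases hHy g hg with h | h
    · exfalso
      have h5 := congrArg f h
      rw [map_mul, map_mul, map_inv, hfg, hi] at h5
      exact d3_inv i hi0 h5
    · exact h
  exact Cfsg.Agent.H52.exists_surj_perm4 W N hW hsup y g hyN hg hHy hy3 hgy hfix

example : Cfsg.Agent.H52.Sm.StSurj.{u} := surj

end Cfsg.Agent.H62.Sm
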