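import Mathlib
import Cfsg.Agent.H52.SmDefs
import Cfsg.Agent.H62.SmSurj
import Cfsg.Agent.H62.SmFix

/-!
# SM-ID24 (S2772): the group of order 24
-/

set_option autoImplicit false
set_option linter.style.haveILetI false
set_option linter.unusedVariables false
set_option linter.unusedSimpArgs false

namespace Cfsg.Agent.H62.Sm

universe u

theorem d3_r8 : (DihedralGroup.r 1 : DihedralGroup 3) ^ 8 ≠ 1 := by decide

theorem id24 : Cfsg.Agent.H52.Sm.StId24.{u} := by
  intro M _ _ Q hQn hQ4 hcent ⟨f, hf, hker⟩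
  classical
  haveI := hQn
  have hM : Nat.card M = 24 := by
    have h1 := f.ker.card_mul_index
    rw [Subgroup.index_ker, MonoidHom.range_eq_top.2 hf, Subgroup.card_top,
      DihedralGroup.nat_card, hker, hQ4] at h1
    omega
  obtain ⟨x, hx⟩ := hf (DihedralGroup.r 1)
  obtain ⟨y, hy⟩ : ∃ y : M, y = x ^ 8 := ⟨_, rfl⟩
  have hy3 : y ^ 3 = 1 := by
    rw [hy, ← pow_mul]
    have h := pow_card_eq_one' (G := M) (x := x)
    rw [hM] at h; exact h
  have hfy : f y ≠ 1 := by
    rw [hy, map_pow, hx]; exact d3_r8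
  have h2 : IsPGroup 2 f.ker := by
    rw [hker]; exact IsPGroup.of_card (n := 2) (by rw [hQ4]; norm_num)
  have hfix : ∀ w ∈ Q, y * w * y⁻¹ = w → w = 1 := by
    have hmod := card_fix_mod3 Q y hy3 (fun x hx => hQn.conj_mem x hx y)
    obtain ⟨C, hC⟩ : ∃ C : Subgroup M, C = Q ⊓ Subgroup.centralizer ({y} : Set M) := ⟨_, rfl⟩
    rw [← hC] at hmod
    have hCQ : C ≤ Q := by rw [hC]; exact inf_le_left
    have hCcard : Nat.card C ∣ 4 := by rw [← hQ4]; exact Subgroup.card_dvd_of_le hCQ
    have hC4 : Nat.card C ≠ 4 := by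
      intro h4
      have hCeq : C = Q := Subgroup.eq_of_le_of_card_ge hCQ (by rw [h4, hQ4])
      have hyQ : y ∈ Q := by
        apply hcent
        rw [Subgroup.mem_centralizer_iff]
        intro q hq
        have h5 : q ∈ C := by rw [hCeq]; exact hq
        rw [hC] at h5
        have h6 := (Subgroup.mem_inf.1 h5).2
        rw [Subgroup.mem_centralizer_singleton_iff] at h6
        exact h6
      rw [← hker] at hyQ
      exact hfy hyQ
    have hC1 : Nat.card C = 1 := by
      have hle : Nat.card C ≤ 4 := Nat.le_of_dvd (by norm_num) hCcard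
      rw [hQ4] at hmod
      unfold Nat.ModEq at hmod
      have hpos : 0 < Nat.card C := Nat.card_pos
      omega
    have hCbot : C = ⊥ := Subgroup.card_eq_one.1 hC1
    intro w hw hyw
    have hwC : w ∈ C := by
      rw [hC, Subgroup.mem_inf, Subgroup.mem_centralizer_singleton_iff]
      refine ⟨hw, ?_⟩
      calc w * y = y * w * y⁻¹ * y := by rw [hyw]
        _ = y * w := by group
    rw [hCbot] at hwC; exact Subgroup.mem_bot.1 hwC
  obtain ⟨ψ, hψ⟩ := surj M Q f y hQn hQ4 hf (by rw [hker]) h2 hy3 hfy hfix (by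
    intro x hx
    exact ⟨x, by rw [← hker]; exact hx, 1, by simp, by simp⟩)
  have hbij : Function.Bijective ψ := by
    rw [Nat.bijective_iff_surjective_and_card]
    refine ⟨hψ, ?_⟩
    rw [hM, Nat.card_perm, Nat.card_fin]
    rfl
  exact ⟨MulEquiv.ofBijective ψ hbij⟩

example : Cfsg.Agent.H52.Sm.StId24.{u} := id24

end Cfsg.Agent.H62.Sm
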