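import Mathlib
import Cfsg.Agent.H42.SpnDefs

/-!
# SPN-UFORM (helper62): `(u, v) ↦ B u ((T - 1) ^ (e - 1) v)` is `(-1)^e`-symmetric
-/

set_option autoImplicit false
set_option linter.style.haveILetI false
set_option linter.unusedSimpArgs false
set_option linter.unusedSectionVars false
set_option linter.unusedVariables false

namespace Cfsg.Agent.H62.Spn

open Cfsg.Agent.H42.Spn

universe u v

section

variable {F : Type u} [Field F] {V : Type v} [AddCommGroup V] [Module F V]

theorem iso_step (B : V →ₗ[F] V →ₗ[F] F) (T : Module.End F V) (h : Iso B T) (a b : V) :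
    B ((T - 1) a) b = -B (T a) ((T - 1) b) := by
  have h1 := h.isom a b
  have h2 : B (T a) (T b) = B (T a) ((T - 1) b) + B ((T - 1) a) b + B a b := by
    simp only [LinearMap.sub_apply, Module.End.one_apply, map_sub]
    ring
  rw [h2] at h1
  linear_combination h1

theorem iso_step_pow (B : V →ₗ[F] V →ₗ[F] F) (T : Module.End F V) (h : Iso B T) (k : ℕ) :
    ∀ a b : V, B (((T - 1) ^ k) a) b = (-1) ^ k * B ((T ^ k) a) (((T - 1) ^ k) b) := by
  induction k with
  | zero =>
    intro a b
    simp
  | succ k ih =>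
    intro a b
    have hc : (T - 1) ^ k * T = T * (T - 1) ^ k :=
      (((Commute.refl T).sub_left (Commute.one_left T)).pow_left k).eq
    have h1 : ((T - 1) ^ (k + 1)) a = (T - 1) (((T - 1) ^ k) a) := by
      rw [pow_succ', Module.End.mul_apply]
    have h2 : T (((T - 1) ^ k) a) = ((T - 1) ^ k) (T a) := by
      rw [← Module.End.mul_apply, ← Module.End.mul_apply, hc]
    have h3 : ((T - 1) ^ k) ((T - 1) b) = ((T - 1) ^ (k + 1)) b := by
      rw [pow_succ, Module.End.mul_apply]
    have h4 : (T ^ k) (T a) = (T ^ (k + 1)) a := by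
      rw [pow_succ, Module.End.mul_apply]
    rw [h1, iso_step B T h, h2, ih (T a) ((T - 1) b), h3, h4, pow_succ]
    ring

theorem pow_sub_mem (T : Module.End F V) (W : Submodule F V) (hW : ∀ x ∈ W, T x ∈ W) (u : V)
    (hu : u ∈ W) (m : ℕ) : ∃ y ∈ W, (T ^ m) u = u + (T - 1) y := by
  induction m with
  | zero => exact ⟨0, W.zero_mem, by simp⟩
  | succ m ih =>
    obtain ⟨y, hy, h⟩ := ih
    refine ⟨u + T y, W.add_mem hu (hW y hy), ?_⟩
    rw [pow_succ', Module.End.mul_apply, h]
    simp only [LinearMap.sub_apply, Module.End.one_apply, map_add, map_sub]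
    abel

end

theorem uniForm : StUniForm.{u, v} := by
  intro F _ _ V _ _ _ B T h W hW e he hN u hu v hv
  rw [Module.End.mem_invtSubmodule_iff_forall_mem_of_mem] at hW
  obtain ⟨k, rfl⟩ : ∃ k, e = k + 1 := ⟨e - 1, by omega⟩
  rw [Nat.add_sub_cancel]
  have hskew : ∀ x y : V, B x y = -B y x := by
    intro x y
    have h1 := h.alt (x + y)
    simp only [map_add, LinearMap.add_apply, h.alt x, h.alt y] at h1
    linear_combination h1
  obtain ⟨y, hy, hTy⟩ := pow_sub_mem T W hW u hu k
  have h1 := iso_step_pow B T h k u v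
  have h2 : B ((T - 1) y) (((T - 1) ^ k) v) = 0 := by
    rw [iso_step B T h]
    have h3 : (T - 1) (((T - 1) ^ k) v) = ((T - 1) ^ (k + 1)) v := by
      rw [pow_succ', Module.End.mul_apply]
    rw [h3, hN v hv, map_zero, neg_zero]
  rw [hTy, map_add, LinearMap.add_apply, h2, add_zero] at h1
  rw [hskew v, h1, pow_succ]
  ring

end Cfsg.Agent.H62.Spn
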