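import Mathlib
import Cfsg.Agent.H42.SpnDefs

/-!
# SPN-UNIQ (helper62): the sums `∑ min e s` determine a multiset of positive integers
-/

set_option autoImplicit false
set_option linter.style.haveILetI false
set_option linter.unusedSimpArgs false
set_option linter.unusedSectionVars false
set_option linter.unusedVariables false

namespace Cfsg.Agent.H62.Spn

open Cfsg.Agent.H42.Spn

theorem sum_min_succ (μ : Multiset ℕ) (e : ℕ) :
    (μ.map (fun s => min (e + 1) s)).sum =
      (μ.map (fun s => min e s)).sum + (μ.filter (fun s => e + 1 ≤ s)).card := by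
  induction μ using Multiset.induction_on with
  | empty => simp
  | cons a μ ih =>
    rw [Multiset.map_cons, Multiset.sum_cons, Multiset.map_cons, Multiset.sum_cons, ih]
    by_cases h : e + 1 ≤ a
    · rw [Multiset.filter_cons_of_pos _ h, Multiset.card_cons]
      have h1 : min (e + 1) a = e + 1 := min_eq_left h
      have h2 : min e a = e := min_eq_left (by omega)
      rw [h1, h2]
      ring
    · rw [Multiset.filter_cons_of_neg _ h]
      have h1 : min (e + 1) a = a := min_eq_right (by omega)
      have h2 : min e a = a := min_eq_right (by omega)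
      rw [h1, h2]
      ring

theorem card_filter_le_eq (μ : Multiset ℕ) (a : ℕ) :
    (μ.filter (fun s => a ≤ s)).card = μ.count a + (μ.filter (fun s => a + 1 ≤ s)).card := by
  induction μ using Multiset.induction_on with
  | empty => simp
  | cons s μ ih =>
    by_cases h1 : a + 1 ≤ s
    · rw [Multiset.filter_cons_of_pos _ (show a ≤ s by omega), Multiset.filter_cons_of_pos _ h1,
        Multiset.card_cons, Multiset.card_cons, Multiset.count_cons_of_ne (by omega), ih]
      ring
    · by_cases h2 : a = s
      · subst h2
        rw [Multiset.filter_cons_of_pos _ (le_refl a), Multiset.filter_cons_of_neg _ h1,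
          Multiset.card_cons, Multiset.count_cons_self, ih]
        ring
      · rw [Multiset.filter_cons_of_neg _ (show ¬ a ≤ s by omega),
          Multiset.filter_cons_of_neg _ h1, Multiset.count_cons_of_ne h2, ih]

theorem uniq : StUniq := by
  intro μ μ' hμ hμ' h
  have hf : ∀ e : ℕ, (μ.filter (fun s => e + 1 ≤ s)).card =
      (μ'.filter (fun s => e + 1 ≤ s)).card := by
    intro e
    have h1 := sum_min_succ μ e
    have h2 := sum_min_succ μ' e
    have h3 := h e
    have h4 := h (e + 1)
    omega
  ext a
  rcases Nat.eq_zero_or_pos a with rfl | ha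
  · rw [Multiset.count_eq_zero_of_notMem (fun hm => (lt_irrefl 0 (hμ 0 hm))),
      Multiset.count_eq_zero_of_notMem (fun hm => (lt_irrefl 0 (hμ' 0 hm)))]
  · obtain ⟨e, rfl⟩ : ∃ e, a = e + 1 := ⟨a - 1, by omega⟩
    have h1 := card_filter_le_eq μ (e + 1)
    have h2 := card_filter_le_eq μ' (e + 1)
    have h3 := hf e
    have h4 := hf (e + 1)
    omega

end Cfsg.Agent.H62.Spn
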