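import Mathlib
import Cfsg.Agent.H78.SvDefs

/-!
# S2425-HALL (helper62): Philip Hall's chain formula gives the Moebius function
-/

set_option autoImplicit false
set_option linter.style.haveILetI false
set_option linter.unusedSimpArgs false
set_option linter.unusedSectionVars false
set_option linter.unusedVariables false

namespace Cfsg.Agent.H62.Sv

open Cfsg.Agent.H78.Sv
open scoped MatrixGroups

section Hall

variable {L : Type*} [PartialOrder L] [OrderBot L] [Fintype L]

theorem chain_greatest (C : Finset L) (hC : IsChain (· ≤ ·) (C : Set L)) (hne : C.Nonempty) :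
    ∃ w ∈ C, ∀ x ∈ C, x ≤ w := by
  classical
  obtain ⟨w, hw, hmax⟩ := C.exists_maximal hne
  refine ⟨w, hw, fun x hx => ?_⟩
  rcases eq_or_ne x w with rfl | hxw
  · exact le_rfl
  · rcases hC (Finset.mem_coe.mpr hx) (Finset.mem_coe.mpr hw) hxw with h | h
    · exact h
    · exact hmax hx h

open Classical in
theorem chainSum_rec (u : L) :
    chainSum u = 1 - ∑ w : L, if ⊥ < w ∧ w < u then chainSum w else 0 := by
  have step4 : ∀ w : L, ∑ C : Finset L, (if (w ∈ C ∧ ∀ x ∈ C, x ≤ w) ∧
      (IsChain (· ≤ ·) (C : Set L) ∧ ∀ x ∈ C, ⊥ < x ∧ x < u) then (-1 : ℤ) ^ C.card else 0) =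
      -(if ⊥ < w ∧ w < u then chainSum w else 0) := by
    intro w
    by_cases hw : ⊥ < w ∧ w < u
    · rw [if_pos hw]
      unfold chainSum
      rw [← Finset.sum_neg_distrib, ← Finset.sum_filter]
      have h5 : ∀ C : Finset L, -(if (IsChain (· ≤ ·) (C : Set L) ∧ ∀ x ∈ C, ⊥ < x ∧ x < w)
          then (-1 : ℤ) ^ C.card else 0) = (if (IsChain (· ≤ ·) (C : Set L) ∧
            ∀ x ∈ C, ⊥ < x ∧ x < w) then -(-1 : ℤ) ^ C.card else 0) := by
        intro C
        split_ifs <;> simp
      rw [Finset.sum_congr rfl (fun C _ => h5 C), ← Finset.sum_filter]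
      refine Finset.sum_nbij' (fun C => C.erase w) (fun C' => insert w C') ?_ ?_ ?_ ?_ ?_
      · intro C hC
        rw [Finset.mem_filter] at hC ⊢
        obtain ⟨-, ⟨hwC, hmax⟩, hch, hb⟩ := hC
        refine ⟨Finset.mem_univ _, ?_, ?_⟩
        · exact hch.mono (by
            intro x hx
            exact Finset.mem_coe.mpr (Finset.mem_of_mem_erase (Finset.mem_coe.mp hx)))
        · intro x hx
          have hxC := Finset.mem_of_mem_erase hx
          exact ⟨(hb x hxC).1, lt_of_le_of_ne (hmax x hxC) (Finset.ne_of_mem_erase hx)⟩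
      · intro C' hC'
        rw [Finset.mem_filter] at hC' ⊢
        obtain ⟨-, hch, hb⟩ := hC'
        refine ⟨Finset.mem_univ _, ⟨Finset.mem_insert_self _ _, ?_⟩, ?_, ?_⟩
        · intro x hx
          rcases Finset.mem_insert.mp hx with rfl | hx
          · exact le_rfl
          · exact (hb x hx).2.le
        · rw [Finset.coe_insert]
          apply hch.insert
          intro b hb' _
          exact Or.inr (hb b (Finset.mem_coe.mp hb')).2.le
        · intro x hx
          rcases Finset.mem_insert.mp hx with rfl | hx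
          · exact hw
          · exact ⟨(hb x hx).1, (hb x hx).2.trans hw.2⟩
      · intro C hC
        rw [Finset.mem_filter] at hC
        exact Finset.insert_erase hC.2.1.1
      · intro C' hC'
        rw [Finset.mem_filter] at hC'
        exact Finset.erase_insert (fun h => lt_irrefl w (hC'.2.2 w h).2)
      · intro C hC
        rw [Finset.mem_filter] at hC
        rw [← Finset.card_erase_add_one hC.2.1.1, pow_succ]
        ring
    · rw [if_neg hw, neg_zero]
      apply Finset.sum_eq_zero
      intro C _
      rw [if_neg]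
      rintro ⟨⟨hwC, -⟩, -, hb⟩
      exact hw (hb w hwC)
  have step2 : ∀ C : Finset L, (if (IsChain (· ≤ ·) (C : Set L) ∧ ∀ x ∈ C, ⊥ < x ∧ x < u)
      then (-1 : ℤ) ^ C.card else 0) =
      (if C = ∅ then 1 else 0) + ∑ w : L, (if (w ∈ C ∧ ∀ x ∈ C, x ≤ w) ∧
      (IsChain (· ≤ ·) (C : Set L) ∧ ∀ x ∈ C, ⊥ < x ∧ x < u) then (-1 : ℤ) ^ C.card else 0) := by
    intro C
    by_cases hC : C = ∅
    · subst hC
      simp
    · rw [if_neg hC, zero_add]
      by_cases hP : IsChain (· ≤ ·) (C : Set L) ∧ ∀ x ∈ C, ⊥ < x ∧ x < u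
      · rw [if_pos hP]
        obtain ⟨w, hwC, hwmax⟩ := chain_greatest C hP.1 (Finset.nonempty_iff_ne_empty.mpr hC)
        rw [Finset.sum_eq_single w]
        · rw [if_pos ⟨⟨hwC, hwmax⟩, hP⟩]
        · intro w' _ hw'
          rw [if_neg]
          rintro ⟨⟨hw'C, hw'max⟩, -⟩
          exact hw' (le_antisymm (hwmax w' hw'C) (hw'max w hwC))
        · intro h
          exact absurd (Finset.mem_univ _) h
      · rw [if_neg hP]
        symm
        apply Finset.sum_eq_zero
        intro w _
        rw [if_neg (fun h => hP h.2)]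
  rw [chainSum, Finset.sum_congr rfl (fun C _ => step2 C), Finset.sum_add_distrib,
    Finset.sum_ite_eq', if_pos (Finset.mem_univ _), Finset.sum_comm,
    Finset.sum_congr rfl (fun w _ => step4 w), Finset.sum_neg_distrib]
  ring

end Hall

theorem isMoeb_moeb {L : Type*} [PartialOrder L] [OrderBot L] [Fintype L] :
    IsMoeb (moeb : L → ℤ) := by
  classical
  intro u
  by_cases hu : u = ⊥
  · rw [if_pos hu, Finset.sum_eq_single (⊥ : L)]
    · rw [if_pos (by rw [hu]), moeb, if_pos rfl]
    · intro w _ hw
      rw [if_neg]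
      intro h
      rw [hu] at h
      exact hw (le_bot_iff.mp h)
    · intro h
      exact absurd (Finset.mem_univ _) h
  · rw [if_neg hu]
    have hterm : ∀ w : L, (if w ≤ u then moeb w else 0) = (if w = ⊥ then (1 : ℤ) else 0) +
        (if w = u then -chainSum u else 0) - (if ⊥ < w ∧ w < u then chainSum w else 0) := by
      intro w
      by_cases hw : w = ⊥
      · subst hw
        rw [if_pos bot_le, if_pos rfl, if_neg (Ne.symm hu), if_neg (by simp), moeb, if_pos rfl]
        ring
      · by_cases hwu : w = u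
        · subst hwu
          rw [if_pos le_rfl, if_neg hw, if_pos rfl, if_neg (by simp), moeb, if_neg hw]
          ring
        · by_cases hle : w ≤ u
          · rw [if_pos hle, if_neg hw, if_neg hwu,
              if_pos ⟨bot_lt_iff_ne_bot.mpr hw, lt_of_le_of_ne hle hwu⟩, moeb, if_neg hw]
            ring
          · rw [if_neg hle, if_neg hw, if_neg hwu, if_neg (fun h => hle h.2.le)]
            ring
    rw [Finset.sum_congr rfl (fun w _ => hterm w), Finset.sum_sub_distrib, Finset.sum_add_distrib,
      Finset.sum_ite_eq', Finset.sum_ite_eq', if_pos (Finset.mem_univ _),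
      if_pos (Finset.mem_univ _), chainSum_rec u]
    ring

end Cfsg.Agent.H62.Sv
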