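import Mathlib
import Cfsg.Agent.H78.SvDefs

/-!
# S2425-WEIS (helper62): Weisner's theorem for the Moebius function from the bottom element
-/

set_option autoImplicit false
set_option linter.style.haveILetI false
set_option linter.unusedSimpArgs false
set_option linter.unusedSectionVars false
set_option linter.unusedVariables false

namespace Cfsg.Agent.H62.Sv

open Cfsg.Agent.H78.Sv
open scoped MatrixGroups

theorem weisner {L : Type*} [Lattice L] [OrderBot L] [Fintype L] (m : L → ℤ) (hm : IsMoeb m)
    (a u : L) (ha : a ≠ ⊥) (hau : a ≤ u) : joinSum m a u = 0 := by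
  classical
  have key : ∀ v : L, a ≤ v → ∑ v' : L, (if v' ≤ v then joinSum m a v' else 0) = 0 := by
    intro v hv
    have h1 : ∀ v' : L, (if v' ≤ v then joinSum m a v' else 0) =
        ∑ w : L, (if v' ≤ v ∧ w ⊔ a = v' then m w else 0) := by
      intro v'
      by_cases h : v' ≤ v
      · rw [if_pos h]
        unfold joinSum
        apply Finset.sum_congr rfl
        intro w _
        by_cases h' : w ⊔ a = v'
        · rw [if_pos h', if_pos ⟨h, h'⟩]
        · rw [if_neg h', if_neg (fun hh => h' hh.2)]
      · rw [if_neg h]
        symm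
        apply Finset.sum_eq_zero
        intro w _
        rw [if_neg (fun hh => h hh.1)]
    rw [Finset.sum_congr rfl (fun v' _ => h1 v'), Finset.sum_comm]
    have h2 : ∀ w : L, ∑ v' : L, (if v' ≤ v ∧ w ⊔ a = v' then m w else 0) =
        if w ≤ v then m w else 0 := by
      intro w
      rw [Finset.sum_eq_single (w ⊔ a)]
      · by_cases h : w ≤ v
        · rw [if_pos ⟨sup_le h hv, rfl⟩, if_pos h]
        · rw [if_neg (fun hh => h (le_sup_left.trans hh.1)), if_neg h]
      · intro v' _ hv'
        rw [if_neg (fun hh => hv' hh.2.symm)]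
      · intro h
        exact absurd (Finset.mem_univ _) h
    rw [Finset.sum_congr rfl (fun w _ => h2 w)]
    have h3 := hm v
    have hvb : v ≠ ⊥ := by
      intro h
      rw [h] at hv
      exact ha (le_bot_iff.mp hv)
    rw [if_neg hvb] at h3
    exact h3
  refine (wellFounded_lt (α := L)).induction (C := fun u => a ≤ u → joinSum m a u = 0) u ?_ hau
  intro u ih hau
  have h1 := key u hau
  rw [← Finset.add_sum_erase Finset.univ _ (Finset.mem_univ u), if_pos le_rfl] at h1
  have h2 : ∑ x ∈ Finset.univ.erase u, (if x ≤ u then joinSum m a x else 0) = 0 := by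
    apply Finset.sum_eq_zero
    intro x hx
    by_cases hxu : x ≤ u
    · rw [if_pos hxu]
      by_cases hax : a ≤ x
      · exact ih x (lt_of_le_of_ne hxu (Finset.ne_of_mem_erase hx)) hax
      · unfold joinSum
        apply Finset.sum_eq_zero
        intro w _
        rw [if_neg]
        intro h
        exact hax (h ▸ le_sup_right)
    · rw [if_neg hxu]
  rw [h2, add_zero] at h1
  exact h1

end Cfsg.Agent.H62.Sv
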