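import Mathlib
import Cfsg.Agent.H91.U62Defs

/-!
# Common lemmas for helper91's team project S5452 (pieces FUS3 and SPAN)
-/

set_option autoImplicit false
set_option linter.style.haveILetI false
set_option linter.unusedSimpArgs false
set_option linter.unusedSectionVars false
set_option linter.unusedVariables false

namespace Cfsg.Agent.H62.U62

open Cfsg.Agent.H91.U62

section
variable {K : Type*} [Field K]

theorem xmat_apply (M : Matrix (Fin 3) (Fin 3) K) (i j : Fin 6) :
    xmat M i j = (1 : Matrix (Fin 6) (Fin 6) K) i j + M (r3 i) (r3 j) := rfl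

theorem xmat_zero : xmat (0 : Matrix (Fin 3) (Fin 3) K) = 1 := by
  ext i j
  rw [xmat_apply]
  simp

theorem sub_mul_sub (h2 : (2 : K) = 0) (M M' : Matrix (Fin 3) (Fin 3) K) :
    M.submatrix r3 r3 * M'.submatrix r3 r3 = 0 := by
  ext i j
  rw [Matrix.mul_apply, Fin.sum_univ_six]
  simp only [Matrix.submatrix_apply, Matrix.zero_apply]
  have e0 : r3 0 = 0 := rfl
  have e1 : r3 1 = 1 := rfl
  have e2 : r3 2 = 2 := rfl
  have e3 : r3 3 = 0 := rfl
  have e4 : r3 4 = 1 := rfl
  have e5 : r3 5 = 2 := rfl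
  rw [e0, e1, e2, e3, e4, e5]
  linear_combination (M (r3 i) 0 * M' 0 (r3 j) + M (r3 i) 1 * M' 1 (r3 j)
    + M (r3 i) 2 * M' 2 (r3 j)) * h2

theorem xmat_mul (h2 : (2 : K) = 0) (M M' : Matrix (Fin 3) (Fin 3) K) :
    xmat M * xmat M' = xmat (M + M') := by
  unfold xmat
  rw [Matrix.add_mul, Matrix.mul_add, Matrix.mul_add, Matrix.one_mul, Matrix.mul_one,
    Matrix.one_mul, sub_mul_sub h2]
  ext i j
  simp
  ring

theorem cj_vv (h4 : ∀ x : K, x ^ 4 = x) (v : Fin 3 → K) : cj (vv v) = vv v := by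
  ext i j
  simp only [cj, vv, Matrix.of_apply]
  have := h4 (v i)
  linear_combination (v j) ^ 2 * this

theorem cj_add (h2 : (2 : K) = 0) (M M' : Matrix (Fin 3) (Fin 3) K) :
    cj (M + M') = cj M + cj M' := by
  ext i j
  simp only [cj, Matrix.of_apply, Matrix.add_apply]
  linear_combination (M j i * M' j i) * h2

end

section
variable {K : Type*} [Field K] [Fintype K]

theorem two_eq_zero (hK : Fintype.card K = 4) : (2 : K) = 0 := by
  obtain ⟨p, hp⟩ := CharP.exists K
  haveI := hp
  haveI : Fact p.Prime := ⟨CharP.char_is_prime K p⟩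
  obtain ⟨n, hn⟩ := FiniteField.card K p
  have h4 : p ^ (n : ℕ) = 4 := by rw [← hn.2, hK]
  have hp2 : p = 2 := by
    have hdvd : p ∣ 4 := by
      rw [← h4]; exact dvd_pow_self p n.ne_zero
    have hle : p ≤ 4 := Nat.le_of_dvd (by norm_num) hdvd
    have hpr := (Fact.out : p.Prime)
    interval_cases p
    · exact absurd hpr (by norm_num)
    · exact absurd hpr (by norm_num)
    · rfl
    · exfalso; omega
    · exact absurd hpr (by norm_num)
  subst hp2
  exact_mod_cast CharP.cast_eq_zero K 2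

theorem pow_four (hK : Fintype.card K = 4) (x : K) : x ^ 4 = x := by
  have := FiniteField.pow_card x
  rwa [hK] at this

theorem pow_three (hK : Fintype.card K = 4) (x : K) (hx : x ≠ 0) : x ^ 3 = 1 := by
  have := FiniteField.pow_card_sub_one_eq_one x hx
  rwa [hK] at this

theorem exists_omega (hK : Fintype.card K = 4) : ∃ ω : K, ω ^ 2 + ω + 1 = 0 := by
  classical
  have h2 := two_eq_zero hK
  have hex : ∃ ω : K, ω ≠ 0 ∧ ω ≠ 1 := by
    by_contra hcon
    push Not at hcon
    have hsub : (Finset.univ : Finset K) ⊆ {0, 1} := by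
      intro x _
      by_cases hx : x = 0
      · simp [hx]
      · simp [hcon x hx]
    have := Finset.card_le_card hsub
    rw [Finset.card_univ, hK] at this
    have h2' : ({0, 1} : Finset K).card ≤ 2 := Finset.card_insert_le _ _
    omega
  obtain ⟨ω, h0, h1⟩ := hex
  refine ⟨ω, ?_⟩
  have h3 := pow_three hK ω h0
  have hfac : (ω - 1) * (ω ^ 2 + ω + 1) = 0 := by linear_combination h3
  rcases mul_eq_zero.mp hfac with h | h
  · exact absurd (sub_eq_zero.mp h) h1
  · exact h

/-- elements of `SU 6 K 2` are determined by their matrices. -/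
theorem su_ext {s t : ↥(Cfsg.SU 6 K 2)}
    (h : (s.1.1 : Matrix (Fin 6) (Fin 6) K) = t.1.1) : s = t :=
  Subtype.ext (Subtype.ext h)

theorem su_mul (s t : ↥(Cfsg.SU 6 K 2)) :
    ((s * t).1.1 : Matrix (Fin 6) (Fin 6) K) = s.1.1 * t.1.1 := rfl

theorem su_one : ((1 : ↥(Cfsg.SU 6 K 2)).1.1 : Matrix (Fin 6) (Fin 6) K) = 1 := rfl

end

end Cfsg.Agent.H62.U62
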