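import Mathlib
import Cfsg.Agent.H91.U62Defs
import Cfsg.Agent.H62.U62Base

/-!
# S5452 piece FUS3 (helper91's team project): a collinear triple and a full line of points
-/

set_option autoImplicit false
set_option linter.style.haveILetI false
set_option linter.unusedSimpArgs false
set_option linter.unusedSectionVars false
set_option linter.unusedVariables false

namespace Cfsg.Agent.H62.U62

open Cfsg.Agent.H91.U62

universe u

theorem xmat_injective {K : Type*} [Field K] {M M' : Matrix (Fin 3) (Fin 3) K}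
    (h : xmat M = xmat M') : M = M' := by
  ext i j
  have h1 := congrFun (congrFun h (Fin.castLE (by norm_num) i)) (Fin.castLE (by norm_num) j)
  rw [xmat_apply, xmat_apply] at h1
  have hi : r3 (Fin.castLE (by norm_num) i) = i := by fin_cases i <;> rfl
  have hj : r3 (Fin.castLE (by norm_num) j) = j := by fin_cases j <;> rfl
  rw [hi, hj] at h1
  exact add_left_cancel h1

/-- two elements with different `vv`-matrices are different. -/
theorem ne_of_vv {K : Type*} [Field K] {a b : ↥(Cfsg.SU 6 K 2)} {v w : Fin 3 → K}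
    (ha : (a.1.1 : Matrix (Fin 6) (Fin 6) K) = xmat (vv v))
    (hb : (b.1.1 : Matrix (Fin 6) (Fin 6) K) = xmat (vv w)) (i j : Fin 3)
    (hne : vv v i j ≠ vv w i j) : a ≠ b := by
  intro hab
  apply hne
  have : xmat (vv v) = xmat (vv w) := by rw [← ha, ← hb, hab]
  rw [xmat_injective this]

theorem fus3 (hx : XStmt.{u}) (hl : LeviStmt.{u}) : Fus3Stmt.{u} := by
  intro K _ _ hK
  have h2 := two_eq_zero hK
  have h4 := pow_four hK
  obtain ⟨ω, hω⟩ := exists_omega hK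
  have hω4 := h4 ω
  have hω3 : ω ^ 3 = 1 := by linear_combination (ω - 1) * hω
  obtain ⟨s, hs⟩ := hx hK (vv ![1, 0, 0]) (cj_vv h4 _)
  obtain ⟨t, ht⟩ := hx hK (vv ![0, 1, 0]) (cj_vv h4 _)
  obtain ⟨r, hr⟩ := hx hK (vv ![1, 1, 0]) (cj_vv h4 _)
  obtain ⟨s₄, hs₄⟩ := hx hK (vv ![1, ω, 0]) (cj_vv h4 _)
  obtain ⟨s₅, hs₅⟩ := hx hK (vv ![1, ω ^ 2, 0]) (cj_vv h4 _)
  obtain ⟨s₆, hs₆⟩ := hx hK (vv ![0, 0, 1]) (cj_vv h4 _)
  have hv1 : (![1, 0, 0] : Fin 3 → K) ≠ 0 := by
    intro h; have := congrFun h 0; simp at this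
  have hv2 : (![0, 1, 0] : Fin 3 → K) ≠ 0 := by
    intro h; have := congrFun h 1; simp at this
  have hv3 : (![1, 1, 0] : Fin 3 → K) ≠ 0 := by
    intro h; have := congrFun h 0; simp at this
  have hv4 : (![1, ω, 0] : Fin 3 → K) ≠ 0 := by
    intro h; have := congrFun h 0; simp at this
  have hv5 : (![1, ω ^ 2, 0] : Fin 3 → K) ≠ 0 := by
    intro h; have := congrFun h 0; simp at this
  have hv6 : (![0, 0, 1] : Fin 3 → K) ≠ 0 := by
    intro h; have := congrFun h 2; simp at this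
  have hsp : s ∈ pts K := ⟨_, hv1, hs⟩
  have htp : t ∈ pts K := ⟨_, hv2, ht⟩
  have hrp : r ∈ pts K := ⟨_, hv3, hr⟩
  have hs₄p : s₄ ∈ pts K := ⟨_, hv4, hs₄⟩
  have hs₅p : s₅ ∈ pts K := ⟨_, hv5, hs₅⟩
  have hs₆p : s₆ ∈ pts K := ⟨_, hv6, hs₆⟩
  refine ⟨⟨s, hsp, t, htp, r, hrp, ?_, ?_, ?_, ?_⟩,
    ⟨s, hsp, t, htp, r, hrp, s₄, hs₄p, s₅, hs₅p, s₆, hs₆p, ?_, ?_, ?_, ?_, ?_, ?_⟩⟩
  · exact ne_of_vv hs ht 0 0 (by simp [vv])
  · exact ne_of_vv hr hs 1 1 (by simp [vv])
  · exact ne_of_vv hr ht 0 0 (by simp [vv])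
  · -- conjugacy
    obtain ⟨A, hA⟩ : ∃ A : Matrix (Fin 3) (Fin 3) K, A = !![1, 1, 0; ω, ω ^ 2, 0; 0, 0, 1] :=
      ⟨_, rfl⟩
    have hdet : A.det = 1 := by
      rw [hA, Matrix.det_fin_three]
      simp
      linear_combination hω - (ω + 1) * h2
    obtain ⟨g, hg⟩ := hl hK A hdet
    have hD : vv ![1, 0, 0] + vv ![0, 1, 0] = (!![1, 0, 0; 0, 1, 0; 0, 0, 0] :
        Matrix (Fin 3) (Fin 3) K) := by
      ext i j
      fin_cases i <;> fin_cases j <;> simp [vv]
    have hR : vv ![1, 0, 0] + vv ![0, 1, 0] + vv ![1, 1, 0] = (!![0, 1, 0; 1, 0, 0; 0, 0, 0] :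
        Matrix (Fin 3) (Fin 3) K) := by
      ext i j
      fin_cases i <;> fin_cases j <;> simp [vv]
      all_goals linear_combination h2
    have hcj : cj A = !![1, ω ^ 2, 0; 1, (ω ^ 2) ^ 2, 0; 0, 0, 1] := by
      rw [hA]
      ext i j
      fin_cases i <;> fin_cases j <;> simp [cj]
    have hmat : A * (vv ![1, 0, 0] + vv ![0, 1, 0]) * cj A =
        vv ![1, 0, 0] + vv ![0, 1, 0] + vv ![1, 1, 0] := by
      rw [hR, hD, hcj, hA]
      ext i j
      fin_cases i <;> fin_cases j <;>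
        simp [Matrix.mul_apply, Fin.sum_univ_three]
      · linear_combination h2
      · linear_combination hω4 + hω - h2
      · linear_combination hω - h2
      · linear_combination (ω ^ 3 + 2) * hω3 + h2
    have h_st : ((s * t).1.1 : Matrix (Fin 6) (Fin 6) K) = xmat (vv ![1, 0, 0] + vv ![0, 1, 0]) := by
      rw [su_mul, hs, ht, xmat_mul h2]
    have h_str : ((s * t * r).1.1 : Matrix (Fin 6) (Fin 6) K) =
        xmat (A * (vv ![1, 0, 0] + vv ![0, 1, 0]) * cj A) := by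
      rw [su_mul, h_st, hr, xmat_mul h2, hmat]
    have := hg _ (s * t) (s * t * r) h_st h_str
    exact (isConj_iff.mpr ⟨g, this⟩).symm
  · -- five points on a line
    have hsum : vv ![1, 0, 0] + vv ![0, 1, 0] + vv ![1, 1, 0] + vv ![1, ω, 0] + vv ![1, ω ^ 2, 0]
        = (0 : Matrix (Fin 3) (Fin 3) K) := by
      ext i j
      fin_cases i <;> fin_cases j <;> simp [vv]
      · linear_combination 2 * h2
      · linear_combination hω4 + hω
      · linear_combination hω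
      · linear_combination 2 * h2 + (ω ^ 3 + 2) * hω3
    apply su_ext
    rw [su_mul, su_mul, su_mul, su_mul, hs, ht, hr, hs₄, hs₅, xmat_mul h2, xmat_mul h2,
      xmat_mul h2, xmat_mul h2, hsum, xmat_zero, su_one]
  · exact ne_of_vv hs₆ hs 2 2 (by simp [vv])
  · exact ne_of_vv hs₆ ht 2 2 (by simp [vv])
  · exact ne_of_vv hs₆ hr 2 2 (by simp [vv])
  · exact ne_of_vv hs₆ hs₄ 2 2 (by simp [vv])
  · exact ne_of_vv hs₆ hs₅ 2 2 (by simp [vv])

/-! Check against the posted statement. -/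

example (hx : XStmt.{u}) (hl : LeviStmt.{u}) : Fus3Stmt.{u} := fus3 hx hl

end Cfsg.Agent.H62.U62
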