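import Mathlib
import Cfsg.Agent.H91.U62Defs
import Cfsg.Agent.H62.U62Base

/-!
# S5452 piece SPAN (helper91's team project): Hermitian `xmat`-elements are generated by points
-/

set_option autoImplicit false
set_option linter.style.haveILetI false
set_option linter.unusedSimpArgs false
set_option linter.unusedSectionVars false
set_option linter.unusedVariables false

namespace Cfsg.Agent.H62.U62

open Cfsg.Agent.H91.U62

universe u

/-- Hermitian matrices all of whose `xmat`-elements are generated by points. -/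
def Gen (K : Type u) [Field K] [Fintype K] (M : Matrix (Fin 3) (Fin 3) K) : Prop :=
  cj M = M ∧ ∀ s : ↥(Cfsg.SU 6 K 2), (s.1.1 : Matrix (Fin 6) (Fin 6) K) = xmat M →
    s ∈ Subgroup.closure (pts K)

section
variable {K : Type u} [Field K] [Fintype K]

theorem gen_zero : Gen K (0 : Matrix (Fin 3) (Fin 3) K) := by
  refine ⟨?_, ?_⟩
  · ext i j
    simp [cj]
  · intro s hs
    have : s = 1 := by
      apply su_ext
      rw [hs, xmat_zero, su_one]
    rw [this]
    exact Subgroup.one_mem _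

theorem gen_vv (hK : Fintype.card K = 4) (v : Fin 3 → K) (hv : v ≠ 0) : Gen K (vv v) := by
  refine ⟨cj_vv (pow_four hK) v, ?_⟩
  intro s hs
  exact Subgroup.subset_closure ⟨v, hv, hs⟩

theorem gen_add (hx : XStmt.{u}) (hK : Fintype.card K = 4) {M M' : Matrix (Fin 3) (Fin 3) K}
    (h : Gen K M) (h' : Gen K M') : Gen K (M + M') := by
  have h2 := two_eq_zero hK
  refine ⟨by rw [cj_add h2, h.1, h'.1], ?_⟩
  intro s hs
  obtain ⟨s₁, hs₁⟩ := hx hK M h.1
  obtain ⟨s₂, hs₂⟩ := hx hK M' h'.1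
  have : s = s₁ * s₂ := by
    apply su_ext
    rw [su_mul, hs₁, hs₂, xmat_mul h2, hs]
  rw [this]
  exact Subgroup.mul_mem _ (h.2 s₁ hs₁) (h'.2 s₂ hs₂)

theorem e0_ne : (![1, 0, 0] : Fin 3 → K) ≠ 0 := by
  intro h
  have := congrFun h 0
  simp at this

theorem e1_ne : (![0, 1, 0] : Fin 3 → K) ≠ 0 := by
  intro h
  have := congrFun h 1
  simp at this

theorem e2_ne : (![0, 0, 1] : Fin 3 → K) ≠ 0 := by
  intro h
  have := congrFun h 2
  simp at this

theorem gen_diag0 (hK : Fintype.card K = 4) (a : K) (ha : a ^ 2 = a) :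
    Gen K !![a, 0, 0; 0, 0, 0; 0, 0, 0] := by
  have h01 : a = 0 ∨ a = 1 := by
    have : a * (a - 1) = 0 := by linear_combination ha
    rcases mul_eq_zero.mp this with h | h
    · exact Or.inl h
    · exact Or.inr (sub_eq_zero.mp h)
  rcases h01 with rfl | rfl
  · have : (!![0, 0, 0; 0, 0, 0; 0, 0, 0] : Matrix (Fin 3) (Fin 3) K) = 0 := by
      ext i j; fin_cases i <;> fin_cases j <;> simp
    rw [this]; exact gen_zero
  · have : (!![1, 0, 0; 0, 0, 0; 0, 0, 0] : Matrix (Fin 3) (Fin 3) K) = vv ![1, 0, 0] := by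
      ext i j; fin_cases i <;> fin_cases j <;> simp [vv]
    rw [this]; exact gen_vv hK _ e0_ne

theorem gen_diag1 (hK : Fintype.card K = 4) (a : K) (ha : a ^ 2 = a) :
    Gen K !![0, 0, 0; 0, a, 0; 0, 0, 0] := by
  have h01 : a = 0 ∨ a = 1 := by
    have : a * (a - 1) = 0 := by linear_combination ha
    rcases mul_eq_zero.mp this with h | h
    · exact Or.inl h
    · exact Or.inr (sub_eq_zero.mp h)
  rcases h01 with rfl | rfl
  · have : (!![0, 0, 0; 0, 0, 0; 0, 0, 0] : Matrix (Fin 3) (Fin 3) K) = 0 := by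
      ext i j; fin_cases i <;> fin_cases j <;> simp
    rw [this]; exact gen_zero
  · have : (!![0, 0, 0; 0, 1, 0; 0, 0, 0] : Matrix (Fin 3) (Fin 3) K) = vv ![0, 1, 0] := by
      ext i j; fin_cases i <;> fin_cases j <;> simp [vv]
    rw [this]; exact gen_vv hK _ e1_ne

theorem gen_diag2 (hK : Fintype.card K = 4) (a : K) (ha : a ^ 2 = a) :
    Gen K !![0, 0, 0; 0, 0, 0; 0, 0, a] := by
  have h01 : a = 0 ∨ a = 1 := by
    have : a * (a - 1) = 0 := by linear_combination ha
    rcases mul_eq_zero.mp this with h | h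
    · exact Or.inl h
    · exact Or.inr (sub_eq_zero.mp h)
  rcases h01 with rfl | rfl
  · have : (!![0, 0, 0; 0, 0, 0; 0, 0, 0] : Matrix (Fin 3) (Fin 3) K) = 0 := by
      ext i j; fin_cases i <;> fin_cases j <;> simp
    rw [this]; exact gen_zero
  · have : (!![0, 0, 0; 0, 0, 0; 0, 0, 1] : Matrix (Fin 3) (Fin 3) K) = vv ![0, 0, 1] := by
      ext i j; fin_cases i <;> fin_cases j <;> simp [vv]
    rw [this]; exact gen_vv hK _ e2_ne

theorem gen_off01 (hx : XStmt.{u}) (hK : Fintype.card K = 4) (m : K) :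
    Gen K !![0, m, 0; m ^ 2, 0, 0; 0, 0, 0] := by
  have h2 := two_eq_zero hK
  by_cases hm : m = 0
  · subst hm
    have : (!![0, 0, 0; 0 ^ 2, 0, 0; 0, 0, 0] : Matrix (Fin 3) (Fin 3) K) = 0 := by
      ext i j; fin_cases i <;> fin_cases j <;> simp
    rw [this]; exact gen_zero
  · have h3 := pow_three hK m hm
    have : (!![0, m, 0; m ^ 2, 0, 0; 0, 0, 0] : Matrix (Fin 3) (Fin 3) K) =
        vv ![m, 1, 0] + vv ![1, 0, 0] + vv ![0, 1, 0] := by
      ext i j
      fin_cases i <;> fin_cases j <;> simp [vv]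
      · linear_combination -h3 - h2
      · linear_combination -h2
    rw [this]
    have hv : (![m, 1, 0] : Fin 3 → K) ≠ 0 := by
      intro h
      have := congrFun h 1
      simp at this
    exact gen_add hx hK (gen_add hx hK (gen_vv hK _ hv) (gen_vv hK _ e0_ne)) (gen_vv hK _ e1_ne)

theorem gen_off02 (hx : XStmt.{u}) (hK : Fintype.card K = 4) (m : K) :
    Gen K !![0, 0, m; 0, 0, 0; m ^ 2, 0, 0] := by
  have h2 := two_eq_zero hK
  by_cases hm : m = 0
  · subst hm
    have : (!![0, 0, 0; 0, 0, 0; 0 ^ 2, 0, 0] : Matrix (Fin 3) (Fin 3) K) = 0 := by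
      ext i j; fin_cases i <;> fin_cases j <;> simp
    rw [this]; exact gen_zero
  · have h3 := pow_three hK m hm
    have : (!![0, 0, m; 0, 0, 0; m ^ 2, 0, 0] : Matrix (Fin 3) (Fin 3) K) =
        vv ![m, 0, 1] + vv ![1, 0, 0] + vv ![0, 0, 1] := by
      ext i j
      fin_cases i <;> fin_cases j <;> simp [vv]
      · linear_combination -h3 - h2
      · linear_combination -h2
    rw [this]
    have hv : (![m, 0, 1] : Fin 3 → K) ≠ 0 := by
      intro h
      have := congrFun h 2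
      simp at this
    exact gen_add hx hK (gen_add hx hK (gen_vv hK _ hv) (gen_vv hK _ e0_ne)) (gen_vv hK _ e2_ne)

theorem gen_off12 (hx : XStmt.{u}) (hK : Fintype.card K = 4) (m : K) :
    Gen K !![0, 0, 0; 0, 0, m; 0, m ^ 2, 0] := by
  have h2 := two_eq_zero hK
  by_cases hm : m = 0
  · subst hm
    have : (!![0, 0, 0; 0, 0, 0; 0, 0 ^ 2, 0] : Matrix (Fin 3) (Fin 3) K) = 0 := by
      ext i j; fin_cases i <;> fin_cases j <;> simp
    rw [this]; exact gen_zero
  · have h3 := pow_three hK m hm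
    have : (!![0, 0, 0; 0, 0, m; 0, m ^ 2, 0] : Matrix (Fin 3) (Fin 3) K) =
        vv ![0, m, 1] + vv ![0, 1, 0] + vv ![0, 0, 1] := by
      ext i j
      fin_cases i <;> fin_cases j <;> simp [vv]
      · linear_combination -h3 - h2
      · linear_combination -h2
    rw [this]
    have hv : (![0, m, 1] : Fin 3 → K) ≠ 0 := by
      intro h
      have := congrFun h 2
      simp at this
    exact gen_add hx hK (gen_add hx hK (gen_vv hK _ hv) (gen_vv hK _ e1_ne)) (gen_vv hK _ e2_ne)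

theorem gen_herm (hx : XStmt.{u}) (hK : Fintype.card K = 4) (M : Matrix (Fin 3) (Fin 3) K)
    (hM : cj M = M) : Gen K M := by
  have hc : ∀ i j, (M j i) ^ 2 = M i j := by
    intro i j
    have := congrFun (congrFun hM i) j
    simpa [cj] using this
  have hdec : M = !![M 0 0, 0, 0; 0, 0, 0; 0, 0, 0] + !![0, 0, 0; 0, M 1 1, 0; 0, 0, 0]
      + !![0, 0, 0; 0, 0, 0; 0, 0, M 2 2] + !![0, M 0 1, 0; M 0 1 ^ 2, 0, 0; 0, 0, 0]
      + !![0, 0, M 0 2; 0, 0, 0; M 0 2 ^ 2, 0, 0] + !![0, 0, 0; 0, 0, M 1 2; 0, M 1 2 ^ 2, 0] := by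
    ext i j
    fin_cases i <;> fin_cases j <;> simp [hc]
  rw [hdec]
  exact gen_add hx hK (gen_add hx hK (gen_add hx hK (gen_add hx hK (gen_add hx hK
    (gen_diag0 hK _ (hc 0 0)) (gen_diag1 hK _ (hc 1 1))) (gen_diag2 hK _ (hc 2 2)))
    (gen_off01 hx hK _)) (gen_off02 hx hK _)) (gen_off12 hx hK _)

end

theorem span (hx : XStmt.{u}) : SpanStmt.{u} := by
  intro K _ _ hK s hs
  obtain ⟨M, hM, hsM⟩ := hs
  exact (gen_herm hx hK M hM).2 s hsM

/-! Check against the posted statement. -/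

example (hx : XStmt.{u}) : SpanStmt.{u} := span hx

end Cfsg.Agent.H62.U62
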