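import Cfsg.Agent.H58.UqDefs
import Cfsg.Agent.H52.SoAsm
import Cfsg.Agent.H14.SnGL
import Cfsg.Agent.H89.SnGLA
import Cfsg.Agent.H5.SnRed
import Cfsg.Agent.H91.SnFinA
import Cfsg.Agent.H63.SnIfSyl
import Cfsg.Agent.H63.SnIfV
import Cfsg.Agent.H63.SnIfZ
import Cfsg.Agent.H71.SnIfS
import Cfsg.Agent.H71.SnIfK
import Cfsg.Agent.H80.SnIfN
import Cfsg.Agent.H25.SoNC
import Cfsg.Agent.H36.SoWid

/-!
# UQ-SIF (helper62, for helper58's S2950): the interface of route B of piece S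

From the abstract statement SABS (in `X = ↥L`, `V = Ω₁(Z(O₂(L)))`): every `L`-conjugate of `J(T)`
normalizes `W_K` for a `J(T)`-component `K ≤ L`, `L` in the family of `T`.
-/

set_option autoImplicit false
set_option linter.unusedVariables false

open Cfsg

namespace Cfsg.Agent.H62.Uq

open Cfsg.Agent.H52.Sn Cfsg.Agent.H58.Uq

universe u

/-- **UQ-SIF**. -/
theorem sB (h : StSAbs.{u}) : StS.{u} := by
  intro G _ _ hZN T hT hT1 L hLT K hKc hKL _ l hl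
  obtain ⟨hL, hNsol, hZ⟩ := hZN
  have F1 := facts (Cfsg.Agent.H14.Sn.gl Cfsg.Agent.H89.Sn.gla) Cfsg.Agent.H5.Sn.red
    Cfsg.Agent.H63.Sn.ifSyl Cfsg.Agent.H63.Sn.ifV Cfsg.Agent.H63.Sn.ifZ Cfsg.Agent.H71.Sn.ifS
    Cfsg.Agent.H71.Sn.ifK Cfsg.Agent.H80.Sn.ifN hL hNsol hZ T hT hT1 L hLT K hKc hKL
  have hO1 := (Cfsg.Agent.H91.Sn.finA _ _ _ _ _ _ _ F1.hT F1.hTi F1.hC F1.hQ F1.hM F1.hTC F1.hJM
    F1.hcomm F1.hKgen F1.hKJ F1.hOK F1.hO).1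
  have hnc1 := Cfsg.Agent.H25.So.nc _ _ _ _ _ _ _ F1
  have hw1 := Cfsg.Agent.H36.So.wid T L K _ hKc hKL F1 hO1 hnc1
  obtain ⟨hVn, hVel, hQV⟩ := Cfsg.Agent.H63.Sn.ifV L
  have hc1 : Nat.card ↥⁅(omegaCenterOf (pCoreOf 2 L)).subgroupOf L, K.subgroupOf L⁆ = 4 := by
    rw [← hKc.2.2.2.2.1, ← hw1]
    exact Nat.card_congr (Subgroup.equivMapOfInjective _ _ (Subgroup.subtype_injective L)).toEquiv
  have hPS := Cfsg.Agent.H71.Sn.ifS hNsol T L hT1 hLT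
  obtain ⟨hred1, hred2⟩ := Cfsg.Agent.H5.Sn.red (T.subgroupOf L)
    ((omegaCenterOf (pCoreOf 2 L)).subgroupOf L) F1.hT F1.hTi hQV F1.hCT
  have hMn := F1.hM
  have hKM : K.subgroupOf L ≤ thompsonSubgroup 2 ↥L := by
    rw [← F1.hKJ]
    exact (Subgroup.commutator_mono le_top F1.hJM).trans (Subgroup.commutator_le_right ⊤ _)
  have hmain := h ((omegaCenterOf (pCoreOf 2 L)).subgroupOf L) hVel hPS hred1 (K.subgroupOf L)
    ((pCoreOf 2 K).subgroupOf L) hKM F1.hOK (hO1.trans F1.hQC) F1.hO3 hc1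
  rintro _ ⟨j, hj, rfl⟩
  have hjT : j ∈ T := by
    have hj2 : j ∈ (thompsonSubgroup 2 ↥T).map T.subtype := hj
    obtain ⟨j', -, hj'⟩ := hj2
    rw [← hj']
    exact j'.2
  have hjL : j ∈ L := hLT.1.1 hjT
  have hjM : (⟨j, hjL⟩ : ↥L) ∈ thompsonSubgroup 2 ↥L :=
    F1.hJM (show (⟨j, hjL⟩ : ↥L) ∈ (thompsonSubgroupOf 2 T).subgroupOf L from hj)
  have hy : (⟨l, hl⟩ * ⟨j, hjL⟩ * ⟨l, hl⟩⁻¹ : ↥L) ∈ thompsonSubgroup 2 ↥L :=
    hMn.conj_mem _ hjM _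
  have hn2 := Subgroup.le_normalizer_map L.subtype ⟨_, hmain hy, rfl⟩
  rw [hw1] at hn2
  exact hn2

example (h : Cfsg.Agent.H58.Uq.StSAbs.{u}) : Cfsg.Agent.H58.Uq.StS.{u} := sB h

end Cfsg.Agent.H62.Uq

#print axioms Cfsg.Agent.H62.Uq.sB
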