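import Mathlib
import Cfsg.Agent.H42.UtDefs
import Cfsg.Agent.H42.UnBase
import Cfsg.Agent.H50.GraphAutUBase

/-!
helper62: piece UT-INVEX of helper42's project S5953.  For `n` even with `(n)_2 < (q + 1)_2`, an
element of `SU_n(q)` with scalar square, not scalar, all of whose invariant totally isotropic
subspaces have dimension `< n / 2`.
-/

set_option autoImplicit false
set_option linter.style.haveILetI false
set_option linter.unusedVariables false
set_option linter.unusedSimpArgs false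

namespace Cfsg.Agent.H62.Ut

open Cfsg.Agent.H45 Cfsg.Agent.H42.Spd Cfsg.Agent.H42.Un Cfsg.Agent.H42.Ut Module Polynomial
open Matrix

universe u

theorem exists_nu {F : Type u} [Field F] [Fintype F] (q : ℕ) (hF : Fintype.card F = q ^ 2)
    (hodd : Odd q) (n : ℕ) (hn0 : 0 < n) (hcond : padicValNat 2 n < padicValNat 2 (q + 1)) :
    ∃ ν : F, ν ^ (q + 1) = 1 ∧ ν ^ n = -1 ∧ (2 : F) ≠ 0 := by
  classical
  obtain ⟨a, n', hn', hna⟩ := Nat.exists_eq_two_pow_mul_odd (n := n) (by omega)
  have hn'0 : n' ≠ 0 := by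
    rintro rfl
    simp at hn'
  have hvaln : padicValNat 2 n = a := by
    have hmd : ¬ 2 ∣ n' := by
      rcases hn' with ⟨d, hd⟩
      omega
    rw [hna, padicValNat.mul (by positivity) hn'0, padicValNat.prime_pow,
      padicValNat.eq_zero_of_not_dvd hmd, add_zero]
  rw [hvaln] at hcond
  have hdvd : 2 ^ (a + 1) ∣ q + 1 :=
    (pow_dvd_pow 2 (by omega : a + 1 ≤ padicValNat 2 (q + 1))).trans pow_padicValNat_dvd
  obtain ⟨c, hc⟩ := hdvd
  have hchar : ringChar F ≠ 2 := by
    intro h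
    have h1 := FiniteField.even_card_iff_char_two.mp h
    rw [hF] at h1
    have h2 : Odd (q ^ 2) := hodd.pow
    rcases h2 with ⟨c, hc⟩
    omega
  obtain ⟨g₀, hg₀⟩ := FiniteField.exists_nonsquare hchar
  have hg0 : g₀ ≠ 0 := by
    rintro rfl
    exact hg₀ ⟨0, (mul_zero 0).symm⟩
  have hgN : g₀ ^ (Fintype.card F / 2) = -1 := by
    rcases FiniteField.pow_dichotomy hchar hg0 with h | h
    · exact absurd ((FiniteField.isSquare_iff hchar hg0).mpr h) hg₀
    · exact h
  have hq1 : 1 ≤ q := hodd.pos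
  obtain ⟨c', hc'⟩ : ∃ c', q = c' + 1 := ⟨q - 1, by omega⟩
  have h3 : q ^ 2 = (q + 1) * (q - 1) + 1 := by
    subst hc'
    simp only [Nat.add_sub_cancel]
    ring
  have hN : Fintype.card F / 2 = (c * (q - 1)) * 2 ^ a := by
    rw [hF]
    have h1 : q ^ 2 = 2 * ((c * (q - 1)) * 2 ^ a) + 1 := by
      rw [h3, hc, pow_succ]
      ring
    rw [h1]
    omega
  refine ⟨g₀ ^ (c * (q - 1)), ?_, ?_, Ring.two_ne_zero hchar⟩
  · rw [← pow_mul]
    have h2 : c * (q - 1) * (q + 1) = (Fintype.card F - 1) * c := by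
      rw [hF, h3, Nat.add_sub_cancel]
      ring
    rw [h2, pow_mul, FiniteField.pow_card_sub_one_eq_one g₀ hg0, one_pow]
  · rw [hna, ← pow_mul, ← mul_assoc, pow_mul, ← hN, hgN]
    exact hn'.neg_one_pow

theorem utInvEx (hH : StUtHalf.{u, u}) : StUtInvEx.{u} := by
  intro F _ _ q hF hodd n hev hn0 hcond
  classical
  obtain ⟨ν, hν1, hνn, h2⟩ := exists_nu q hF hodd n hn0 hcond
  have hν0 : ν ≠ 0 := by
    rintro rfl
    rw [zero_pow (by omega)] at hν1
    exact zero_ne_one hν1
  have hn2 : 2 ≤ n := by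
    rcases hev with ⟨h, hh⟩
    omega
  obtain ⟨i0, hi0⟩ : ∃ i0 : Fin n, i0 = ⟨0, hn0⟩ := ⟨_, rfl⟩
  obtain ⟨i1, hi1⟩ : ∃ i1 : Fin n, i1 = ⟨1, by omega⟩ := ⟨_, rfl⟩
  have hi01 : i1 ≠ i0 := by
    rw [hi0, hi1]
    intro h
    simp [Fin.ext_iff] at h
  obtain ⟨d, hd⟩ : ∃ d : Fin n → F, d = fun i => if i = i0 then -ν else ν := ⟨_, rfl⟩
  have hd0 : d i0 = -ν := by rw [hd]; simp
  have hd1 : ∀ i, i ≠ i0 → d i = ν := by
    intro i hi
    rw [hd]
    simp [hi]
  have hdsq : ∀ i, d i * d i = ν * ν := by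
    intro i
    by_cases hi : i = i0
    · rw [hi, hd0]; ring
    · rw [hd1 i hi]
  have hq1e : Even (q + 1) := by
    rcases hodd with ⟨c, hc⟩
    exact ⟨c + 1, by omega⟩
  have hdq : ∀ i, d i ^ (q + 1) = 1 := by
    intro i
    by_cases hi : i = i0
    · rw [hi, hd0, Even.neg_pow hq1e, hν1]
    · rw [hd1 i hi, hν1]
  have hdet : (Matrix.diagonal d).det = 1 := by
    rw [Matrix.det_diagonal]
    have h1 : ∀ i, d i = (if i = i0 then (-1 : F) else 1) * ν := by
      intro i
      by_cases hi : i = i0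
      · rw [hi, hd0]; simp
      · rw [hd1 i hi]; simp [hi]
    rw [Finset.prod_congr rfl (fun i _ => h1 i), Finset.prod_mul_distrib, Finset.prod_ite_eq',
      Finset.prod_const, Finset.card_univ, Fintype.card_fin, hνn]
    simp
  have hmv : ∀ (u : Fin n → F) (i : Fin n), (Matrix.diagonal d *ᵥ u) i = d i * u i :=
    fun u i => Matrix.mulVec_diagonal d u i
  obtain ⟨x, hx⟩ : ∃ x : Matrix.SpecialLinearGroup (Fin n) F,
      (x : Matrix (Fin n) (Fin n) F) = Matrix.diagonal d := ⟨⟨Matrix.diagonal d, hdet⟩, rfl⟩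
  refine ⟨x, ?_, ⟨ν * ν, ?_⟩, ?_, ?_⟩
  · rw [Cfsg.Agent.H42.Un.mem_SU_iff]
    intro u v
    rw [hx]
    unfold Cfsg.hermForm
    apply Finset.sum_congr rfl
    intro i _
    rw [hmv, hmv]
    have := hdq i
    calc d i * u i * (d i * v i) ^ q = d i ^ (q + 1) * (u i * v i ^ q) := by ring
      _ = u i * v i ^ q := by rw [this, one_mul]
  · rw [Matrix.SpecialLinearGroup.coe_pow, hx, pow_two, Matrix.diagonal_mul_diagonal,
      Matrix.smul_one_eq_diagonal]
    congr 1
    funext i
    exact hdsq i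
  · intro z hz
    rw [hx] at hz
    have hz' : Matrix.diagonal d = Matrix.diagonal (fun _ => z) := by
      rw [← Matrix.smul_one_eq_diagonal]
      exact hz
    have h3 := Matrix.diagonal_injective hz'
    have h4 : d i0 = d i1 := by rw [h3]
    rw [hd0, hd1 i1 hi01] at h4
    have h5 : (2 : F) * ν = 0 := by linear_combination -h4
    rcases mul_eq_zero.mp h5 with h6 | h6
    · exact h2 h6
    · exact hν0 h6
  · intro W hinv hti
    rw [hx] at hinv
    obtain ⟨σ, hσ⟩ : ∃ σ : F →+* F, σ = (Cfsg.Agent.H50.GraphAutU.frobE hF : F →+* F) :=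
      ⟨_, rfl⟩
    have hσq : ∀ x, σ x = x ^ q := by
      intro x
      rw [hσ]
      rfl
    obtain ⟨K, hK⟩ : ∃ K : Submodule F (Fin n → F),
        K = LinearMap.ker (LinearMap.proj i0 : (Fin n → F) →ₗ[F] F) := ⟨_, rfl⟩
    have hmemK : ∀ w : Fin n → F, w ∈ K ↔ w i0 = 0 := by
      intro w
      rw [hK, LinearMap.mem_ker, LinearMap.proj_apply]
    have hWK : W ≤ K := by
      intro w hw
      rw [hmemK]
      by_contra hne
      have hxw : Matrix.toLin' (Matrix.diagonal d) w ∈ W := hinv ⟨w, hw, rfl⟩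
      obtain ⟨e, he⟩ : ∃ e : Fin n → F, e = ν • w - Matrix.toLin' (Matrix.diagonal d) w :=
        ⟨_, rfl⟩
      have heW : e ∈ W := by
        rw [he]
        exact W.sub_mem (W.smul_mem ν hw) hxw
      have hei : ∀ i, e i = ν * w i - d i * w i := by
        intro i
        rw [he, Matrix.toLin'_apply, Pi.sub_apply, Pi.smul_apply, smul_eq_mul, hmv]
      have he0 : e i0 = 2 * ν * w i0 := by
        rw [hei, hd0]; ring
      have he1 : ∀ i, i ≠ i0 → e i = 0 := by
        intro i hi
        rw [hei, hd1 i hi]; ring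
      have h3 := hti e heW e heW
      unfold Cfsg.hermForm at h3
      rw [Finset.sum_eq_single i0 (fun i _ hi => by rw [he1 i hi, zero_mul])
        (fun h => absurd (Finset.mem_univ i0) h)] at h3
      have h4 : e i0 ≠ 0 := by
        rw [he0]
        exact mul_ne_zero (mul_ne_zero h2 hν0) hne
      exact mul_ne_zero h4 (pow_ne_zero q h4) h3
    have hKnd : K ⊓ perp (hermB σ n) K = ⊥ := by
      rw [eq_bot_iff]
      intro y hy
      rw [Submodule.mem_bot]
      have hy1 : y i0 = 0 := (hmemK y).mp hy.1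
      have hy2 : ∀ u ∈ K, hermB σ n u y = 0 := hy.2
      funext j
      by_cases hj : j = i0
      · rw [hj, hy1]; rfl
      · have h3 : (Pi.single j (1 : F) : Fin n → F) ∈ K := by
          rw [hmemK, Pi.single_apply, if_neg (fun h => hj h.symm)]
        have h4 := hy2 _ h3
        rw [hermB_apply, Finset.sum_eq_single j (fun i _ hi => by
          rw [Pi.single_apply, if_neg hi, zero_mul]) (fun h => absurd (Finset.mem_univ j) h),
          Pi.single_apply, if_pos rfl, one_mul, hσq] at h4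
        exact pow_eq_zero_iff (n := q) hodd.pos.ne' |>.mp h4
    have hUTI : UTI (hermB σ n) W := by
      intro u hu v hv
      rw [hermB_eq_hermForm σ hσq]
      exact hti u hu v hv
    have h5 := hH F σ (Fin n → F) (hermB σ n) 1 (uiso_std_one hF σ hσq n) K W hKnd hWK hUTI
    have h6 : Module.finrank F K < n := by
      have h7 : K ≠ ⊤ := by
        intro h8
        have h9 : (Pi.single i0 (1 : F) : Fin n → F) ∈ K := by rw [h8]; exact Submodule.mem_top
        rw [hmemK, Pi.single_apply, if_pos rfl] at h9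
        exact one_ne_zero h9
      have h8 := Submodule.finrank_lt h7
      rw [Module.finrank_pi] at h8
      simpa using h8
    rcases hev with ⟨h, hh⟩
    omega

example (hH : StUtHalf.{u, u}) : StUtInvEx.{u} := utInvEx hH

end Cfsg.Agent.H62.Ut
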