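import Mathlib
import Cfsg.Agent.S0016

/-!
# The nilpotent case of the minimal non-abelian normal subgroup (S0686)

`nilp_case`: a finite non-abelian group of class two in which commuting elements of the same prime
order generate the same subgroup, and whose characteristic subgroups are abelian or everything, is
the quaternion group of order eight.
-/

set_option autoImplicit false
set_option linter.style.haveILetI false
set_option linter.unusedSimpArgs false
set_option linter.unusedSectionVars false
set_option linter.unusedVariables false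

namespace Cfsg.Agent.H62.Z686

/-- commuting family: the join of two commutative subgroups that commute elementwise. -/
theorem sup_comm_of {G : Type*} [Group G] (A D : Subgroup G)
    (hA : ∀ x ∈ A, ∀ y ∈ A, x * y = y * x) (hD : ∀ x ∈ D, ∀ y ∈ D, x * y = y * x)
    (hAD : ∀ x ∈ A, ∀ y ∈ D, x * y = y * x) :
    ∀ x ∈ A ⊔ D, ∀ y ∈ A ⊔ D, x * y = y * x := by
  have key : ∀ y ∈ A ⊔ D, (∀ a ∈ A, a * y = y * a) ∧ (∀ d ∈ D, d * y = y * d) := by
    intro y hy
    have h1 : A ⊔ D ≤ Subgroup.centralizer ((A : Subgroup G) : Set G) := by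
      refine sup_le ?_ ?_
      · intro x hx
        rw [Subgroup.mem_centralizer_iff]
        intro a ha
        exact hA a ha x hx
      · intro x hx
        rw [Subgroup.mem_centralizer_iff]
        intro a ha
        exact hAD a ha x hx
    have h2 : A ⊔ D ≤ Subgroup.centralizer ((D : Subgroup G) : Set G) := by
      refine sup_le ?_ ?_
      · intro x hx
        rw [Subgroup.mem_centralizer_iff]
        intro d hd
        exact (hAD x hx d hd).symm
      · intro x hx
        rw [Subgroup.mem_centralizer_iff]
        intro d hd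
        exact hD d hd x hx
    exact ⟨fun a ha => Subgroup.mem_centralizer_iff.mp (h1 hy) a ha,
      fun d hd => Subgroup.mem_centralizer_iff.mp (h2 hy) d hd⟩
  intro x hx y hy
  have h3 : A ⊔ D ≤ Subgroup.centralizer ({y} : Set G) := by
    refine sup_le ?_ ?_
    · intro a ha
      rw [Subgroup.mem_centralizer_iff]
      intro h hh
      rw [Set.mem_singleton_iff] at hh
      rw [hh]
      exact ((key y hy).1 a ha).symm
    · intro d hd
      rw [Subgroup.mem_centralizer_iff]
      intro h hh
      rw [Set.mem_singleton_iff] at hh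
      rw [hh]
      exact ((key y hy).2 d hd).symm
  have := Subgroup.mem_centralizer_iff.mp (h3 hx) y (Set.mem_singleton y)
  exact this.symm

/-- class two in a generalized quaternion group forces order at most eight. -/
theorem quat_class_two (m : ℕ) [NeZero m]
    (h : ∀ u v w : QuaternionGroup m, (u * v * u⁻¹ * v⁻¹) * w = w * (u * v * u⁻¹ * v⁻¹)) :
    m ∣ 2 := by
  have hinv : (QuaternionGroup.xa (0 : ZMod (2 * m)))⁻¹ = QuaternionGroup.xa (m : ZMod (2 * m)) := by
    apply inv_eq_of_mul_eq_one_right
    rw [QuaternionGroup.xa_mul_xa, QuaternionGroup.one_def]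
    congr 1
    have : ((2 * m : ℕ) : ZMod (2 * m)) = 0 := ZMod.natCast_self (2 * m)
    push_cast at this
    linear_combination this
  have hinv2 : (QuaternionGroup.a (1 : ZMod (2 * m)))⁻¹ = QuaternionGroup.a (-1 : ZMod (2 * m)) := by
    apply inv_eq_of_mul_eq_one_right
    rw [QuaternionGroup.a_mul_a, QuaternionGroup.one_def]
    congr 1
    ring
  have h1 := h (QuaternionGroup.xa 0) (QuaternionGroup.a 1) (QuaternionGroup.xa 0)
  rw [hinv, hinv2] at h1
  simp only [QuaternionGroup.xa_mul_a, QuaternionGroup.xa_mul_xa, QuaternionGroup.a_mul_a,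
    QuaternionGroup.a_mul_xa] at h1
  have h2 : (0 : ZMod (2 * m)) - ((m : ZMod (2 * m)) + (m : ZMod (2 * m)) - (0 + 1) + -1)
      = 0 + ((m : ZMod (2 * m)) + (m : ZMod (2 * m)) - (0 + 1) + -1) := by
    injection h1
  have h0 : ((2 * m : ℕ) : ZMod (2 * m)) = 0 := ZMod.natCast_self (2 * m)
  push_cast at h0
  have h4 : ((4 : ℕ) : ZMod (2 * m)) = 0 := by
    push_cast
    linear_combination h2 + 2 * h0
  have h5 : 2 * m ∣ 4 := (ZMod.natCast_eq_zero_iff 4 (2 * m)).mp h4
  obtain ⟨k, hk⟩ := h5
  refine ⟨k, ?_⟩
  have h6 : 2 * 2 = 2 * (m * k) := by rw [← mul_assoc]; exact hk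
  exact Nat.eq_of_mul_eq_mul_left (by norm_num) h6

theorem nilp_case {G : Type*} [Group G] [Finite G]
    (hu : ∀ r : ℕ, r.Prime → ∀ x y : G, x * y = y * x → x ^ r = 1 → y ^ r = 1 → x ≠ 1 → y ≠ 1 →
      x ∈ Subgroup.zpowers y)
    (hc2 : ∀ x y z : G, (x * y * x⁻¹ * y⁻¹) * z = z * (x * y * x⁻¹ * y⁻¹))
    (hna : ¬ ∀ x y : G, x * y = y * x)
    (hmin : ∀ K : Subgroup G, K.Characteristic → (∀ x ∈ K, ∀ y ∈ K, x * y = y * x) ∨ K = ⊤) :
    Nonempty (G ≃* QuaternionGroup 2) := by
  classical
  -- nilpotent
  have hnil : Group.IsNilpotent G := by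
    refine Subgroup.isNilpotent_of_ker_le_center (Abelianization.of : G →* Abelianization G) ?_
    rw [Abelianization.ker_of, commutator_eq_closure]
    rw [Subgroup.closure_le]
    rintro g ⟨g₁, g₂, rfl⟩
    rw [SetLike.mem_coe, Subgroup.mem_center_iff]
    intro z
    rw [commutatorElement_def]
    exact (hc2 g₁ g₂ z).symm
  have htfae := Group.isNilpotent_of_finite_tfae (G := G)
  have hSyl : ∀ (p : ℕ) (_hp : Fact p.Prime) (P : Sylow p G), (↑P : Subgroup G).Normal :=
    (htfae.out 0 3).mp hnil
  obtain ⟨hiso⟩ : Nonempty ((∀ p : (Nat.card G).primeFactors, ∀ P : Sylow p G,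
      (↑P : Subgroup G)) ≃* G) := (htfae.out 0 4).mp hnil
  -- some Sylow subgroup is non-commutative
  have hex : ∃ (r : ℕ) (_ : Fact r.Prime) (P : Sylow r G),
      ¬ ∀ x ∈ (P : Subgroup G), ∀ y ∈ (P : Subgroup G), x * y = y * x := by
    by_contra hcon
    push Not at hcon
    apply hna
    intro x y
    obtain ⟨a, rfl⟩ := hiso.surjective x
    obtain ⟨b, rfl⟩ := hiso.surjective y
    rw [← map_mul, ← map_mul]
    congr 1
    funext q P
    apply Subtype.ext
    have hq : Fact (q : ℕ).Prime := ⟨Nat.prime_of_mem_primeFactors q.2⟩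
    exact hcon q hq P _ (a q P).2 _ (b q P).2
  obtain ⟨r, hr, P, hP⟩ := hex
  haveI := hr
  have hPn : (↑P : Subgroup G).Normal := hSyl r hr P
  have hPc : (↑P : Subgroup G).Characteristic := Sylow.characteristic_of_normal P hPn
  have hPtop : (↑P : Subgroup G) = ⊤ := (hmin _ hPc).resolve_left hP
  have hG : IsPGroup r G := by
    intro g
    obtain ⟨k, hk⟩ := P.isPGroup' ⟨g, by rw [hPtop]; exact Subgroup.mem_top g⟩
    refine ⟨k, ?_⟩
    have := congrArg Subtype.val hk
    simpa using this
  -- a central element of order r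
  haveI : Nontrivial G := by
    by_contra hnt
    rw [not_nontrivial_iff_subsingleton] at hnt
    exact hna (fun x y => Subsingleton.elim _ _)
  haveI : Nontrivial (Subgroup.center G) := hG.center_nontrivial
  have hrdvd : r ∣ Nat.card (Subgroup.center G) := by
    obtain ⟨k, hk⟩ := (hG.to_subgroup (Subgroup.center G)).exists_card_eq
    rw [hk]
    rcases Nat.eq_zero_or_pos k with h0 | hpos
    · exfalso
      rw [h0, pow_zero] at hk
      have := Finite.one_lt_card (α := Subgroup.center G)
      omega
    · exact dvd_pow_self r (by omega)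
  obtain ⟨z₀, hz₀⟩ := exists_prime_orderOf_dvd_card' r hrdvd
  obtain ⟨z, hz⟩ : ∃ z : G, z = (z₀ : G) := ⟨_, rfl⟩
  have hzo : orderOf z = r := by rw [hz, Subgroup.orderOf_coe]; exact hz₀
  have hzc : ∀ g : G, g * z = z * g := by
    intro g
    rw [hz]
    exact Subgroup.mem_center_iff.mp z₀.2 g
  have hz1 : z ≠ 1 := by
    intro h1
    rw [h1, orderOf_one] at hzo
    exact hr.out.one_lt.ne hzo
  have hzr : z ^ r = 1 := by rw [← hzo]; exact pow_orderOf_eq_one z
  have hcardz : Nat.card (Subgroup.zpowers z) = r := by rw [Nat.card_zpowers, hzo]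
  -- every subgroup of order r is zpowers z
  have huq : ∀ K : Subgroup G, Nat.card K = r → K = Subgroup.zpowers z := by
    intro K hK
    have hle : K ≤ Subgroup.zpowers z := by
      intro x hx
      by_cases hx1 : x = 1
      · rw [hx1]; exact Subgroup.one_mem _
      · have hxr : x ^ r = 1 := by
          have := pow_card_eq_one' (x := (⟨x, hx⟩ : K))
          rw [hK] at this
          have := congrArg Subtype.val this
          simpa using this
        exact hu r hr.out x z (hzc x) hxr hzr hx1 hz1
    exact Subgroup.eq_of_le_of_card_ge hle (by rw [hK, hcardz])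
  have huniq : ∀ H K : Subgroup G, Nat.card H = r → Nat.card K = r → H = K := by
    intro H K hH hK
    rw [huq H hH, huq K hK]
  rcases Cfsg.Agent.S0016.result r hG huniq with hcyc | ⟨hr2, n, ⟨e⟩⟩
  · exfalso
    apply hna
    intro x y
    haveI := hcyc
    haveI : IsMulCommutative G := IsCyclic.isMulCommutative
    exact mul_comm' x y
  · -- class two in the quaternion group
    haveI : NeZero (2 ^ n) := ⟨by positivity⟩
    have hq : ∀ u v w : QuaternionGroup (2 ^ n),
        (u * v * u⁻¹ * v⁻¹) * w = w * (u * v * u⁻¹ * v⁻¹) := by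
      intro u v w
      have := hc2 (e.symm u) (e.symm v) (e.symm w)
      apply e.symm.injective
      simp only [map_mul, map_inv]
      exact this
    have hdvd := quat_class_two (2 ^ n) hq
    have hn1 : n ≤ 1 := by
      by_contra hcon
      push Not at hcon
      have h4 : 2 ^ 2 ∣ 2 ^ n := pow_dvd_pow 2 hcon
      have : (4 : ℕ) ∣ 2 := by
        have h4' : (4 : ℕ) ∣ 2 ^ n := by simpa using h4
        exact h4'.trans hdvd
      omega
    rcases Nat.eq_zero_or_pos n with h0 | hpos
    · exfalso
      subst h0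
      have hcard : Nat.card G = 2 ^ 2 := by
        rw [Nat.card_congr e.toEquiv, Nat.card_eq_fintype_card, QuaternionGroup.card]
        norm_num
      haveI : Fact (Nat.Prime 2) := ⟨Nat.prime_two⟩
      haveI : IsMulCommutative G := IsPGroup.isMulCommutative_of_card_eq_prime_sq hcard
      exact hna (fun x y => mul_comm' x y)
    · have hn : n = 1 := by omega
      subst hn
      exact ⟨e⟩

end Cfsg.Agent.H62.Z686
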