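import Mathlib
import Cfsg.Agent.H1.Zass
import Cfsg.Agent.H62.Zas686a

/-!
# S0686 modulo Zassenhaus' theorem on perfect fixed-point-free groups

`core`: the statement of S0686, with the theorem "a perfect non-trivial fixed-point-free group of
automorphisms is `SL(2,5)`" (S0690) as a hypothesis for the multiplicative copy of `V`.
-/

set_option autoImplicit false
set_option linter.style.haveILetI false
set_option linter.unusedSimpArgs false
set_option linter.unusedSectionVars false
set_option linter.unusedVariables false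

namespace Cfsg.Agent.H62.Z686

/-- linear automorphisms as automorphisms of the multiplicative copy. -/
def actHom (p : ℕ) [Fact p.Prime] (V : Type*) [AddCommGroup V] [Module (ZMod p) V] :
    (V ≃ₗ[ZMod p] V) →* MulAut (Multiplicative V) where
  toFun f := AddEquiv.toMultiplicative f.toAddEquiv
  map_one' := rfl
  map_mul' _ _ := rfl

section
variable {p : ℕ} [Fact p.Prime] {V : Type*} [AddCommGroup V] [Module (ZMod p) V]

theorem actHom_apply (f : V ≃ₗ[ZMod p] V) (k : Multiplicative V) :
    actHom p V f k = Multiplicative.ofAdd (f (Multiplicative.toAdd k)) := rfl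

theorem actHom_injective : Function.Injective (actHom p V) := by
  intro f g hfg
  ext v
  have := congrArg (fun φ : MulAut (Multiplicative V) =>
    Multiplicative.toAdd (φ (Multiplicative.ofAdd v))) hfg
  simpa [actHom_apply] using this

theorem perfect_case (H : Subgroup (V ≃ₗ[ZMod p] V))
    (hreg : ∀ v w : V, v ≠ 0 → w ≠ 0 → ∃! h : H, (h : V ≃ₗ[ZMod p] V) v = w)
    (h690 : ∀ (G : Subgroup (MulAut (Multiplicative V))),
      (∀ φ ∈ G, φ ≠ 1 → ∀ k : Multiplicative V, φ k = k → k = 1) → commutator G = ⊤ → G ≠ ⊥ →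
      Nonempty (G ≃* Matrix.SpecialLinearGroup (Fin 2) (ZMod 5)))
    (N : Subgroup H) (hperf : commutator N = ⊤) (hne : N ≠ ⊥) :
    Nonempty (N ≃* Matrix.SpecialLinearGroup (Fin 2) (ZMod 5)) := by
  obtain ⟨f, hf⟩ : ∃ f : N →* MulAut (Multiplicative V),
      f = (actHom p V).comp (H.subtype.comp N.subtype) := ⟨_, rfl⟩
  have hfa : ∀ n : N, f n = actHom p V ((n : H) : V ≃ₗ[ZMod p] V) := by
    intro n; rw [hf]; rfl
  have hinj : Function.Injective f := by
    intro a b hab
    rw [hfa, hfa] at hab
    exact Subtype.ext (Subtype.ext (actHom_injective hab))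
  obtain ⟨e⟩ : Nonempty (N ≃* f.range) := ⟨MonoidHom.ofInjective hinj⟩
  have g1 : ∀ φ ∈ f.range, φ ≠ 1 → ∀ k : Multiplicative V, φ k = k → k = 1 := by
    rintro φ ⟨n, rfl⟩ hne1 k hk
    by_contra hk1
    apply hne1
    have hv : Multiplicative.toAdd k ≠ 0 := by
      intro h0
      apply hk1
      exact Multiplicative.toAdd.injective h0
    have hfix : ((n : H) : V ≃ₗ[ZMod p] V) (Multiplicative.toAdd k) = Multiplicative.toAdd k := by
      rw [hfa, actHom_apply] at hk
      exact congrArg Multiplicative.toAdd hk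
    have h1 : (n : H) = 1 := Cfsg.Agent.H1.Zass.fpf H hreg (n : H) _ hv hfix
    have h2 : n = 1 := Subtype.ext h1
    rw [h2, map_one]
  have g2 : commutator f.range = ⊤ := by
    have hsurj : Function.Surjective e.toMonoidHom := e.surjective
    rw [commutator_def, ← Subgroup.map_top_of_surjective e.toMonoidHom hsurj,
      ← Subgroup.map_commutator, ← commutator_def, hperf]
  have g3 : f.range ≠ ⊥ := by
    intro hbot
    apply hne
    rw [Subgroup.eq_bot_iff_forall]
    intro n hn
    have h1 : f ⟨n, hn⟩ ∈ f.range := ⟨_, rfl⟩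
    rw [hbot, Subgroup.mem_bot] at h1
    have h2 : (⟨n, hn⟩ : N) = 1 := hinj (by rw [h1, map_one])
    exact congrArg Subtype.val h2
  obtain ⟨e'⟩ := h690 f.range g1 g2 g3
  exact ⟨e.trans e'⟩

theorem core [Finite V] (H : Subgroup (V ≃ₗ[ZMod p] V))
    (hreg : ∀ v w : V, v ≠ 0 → w ≠ 0 → ∃! h : H, (h : V ≃ₗ[ZMod p] V) v = w)
    (h690 : ∀ (G : Subgroup (MulAut (Multiplicative V))),
      (∀ φ ∈ G, φ ≠ 1 → ∀ k : Multiplicative V, φ k = k → k = 1) → commutator G = ⊤ → G ≠ ⊥ →
      Nonempty (G ≃* Matrix.SpecialLinearGroup (Fin 2) (ZMod 5)))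
    (A : Subgroup H) (hAn : A.Normal) (hAc : IsMulCommutative A)
    (hAmax : ∀ B : Subgroup H, B.Normal → IsMulCommutative B → A ≤ B → B = A)
    (N : Subgroup H) (hNn : N.Normal) (hNle : N ≤ Subgroup.centralizer (A : Set H))
    (hNna : ¬ IsMulCommutative N)
    (hNmin : ∀ M : Subgroup H, M.Normal → M ≤ N → ¬ IsMulCommutative M → M = N) :
    Nonempty (N ≃* QuaternionGroup 2) ∨
      Nonempty (N ≃* Matrix.SpecialLinearGroup (Fin 2) (ZMod 5)) := by
  classical
  haveI : Finite (V ≃ₗ[ZMod p] V) :=
    Finite.of_injective (fun f : V ≃ₗ[ZMod p] V => (f : V → V)) DFunLike.coe_injective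
  haveI := hNn
  haveI := hAn
  obtain ⟨D, hD⟩ : ∃ D : Subgroup H, D = (commutator N).map N.subtype := ⟨_, rfl⟩
  have hDn : D.Normal := by
    rw [hD]; exact ConjAct.normal_of_characteristic_of_normal
  have hDle : D ≤ N := by
    rw [hD]; exact Subgroup.map_subtype_le _
  have htop : (⊤ : Subgroup N).map N.subtype = N := by
    rw [← MonoidHom.range_eq_map, Subgroup.range_subtype]
  by_cases hDc : IsMulCommutative D
  · left
    have hA' : ∀ x ∈ A, ∀ y ∈ A, x * y = y * x := by
      intro x hx y hy
      exact congrArg Subtype.val (mul_comm' (⟨x, hx⟩ : A) ⟨y, hy⟩)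
    have hD' : ∀ x ∈ D, ∀ y ∈ D, x * y = y * x := by
      intro x hx y hy
      exact congrArg Subtype.val (mul_comm' (⟨x, hx⟩ : D) ⟨y, hy⟩)
    have hAD' : ∀ x ∈ A, ∀ y ∈ D, x * y = y * x := by
      intro x hx y hy
      exact Subgroup.mem_centralizer_iff.mp (hNle (hDle hy)) x hx
    have hsc := sup_comm_of A D hA' hD' hAD'
    haveI := hDn
    have hBn : (A ⊔ D).Normal := inferInstance
    have hBc : IsMulCommutative ↥(A ⊔ D) :=
      ⟨⟨fun a b => Subtype.ext (hsc a a.2 b b.2)⟩⟩
    have hBA : A ⊔ D = A := hAmax (A ⊔ D) hBn hBc le_sup_left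
    have hDA : D ≤ A := by
      rw [← hBA]; exact le_sup_right
    -- data for the nilpotent case
    have hu : ∀ r : ℕ, r.Prime → ∀ x y : N, x * y = y * x → x ^ r = 1 → y ^ r = 1 → x ≠ 1 →
        y ≠ 1 → x ∈ Subgroup.zpowers y := by
      intro r hr x y hxy hxr hyr hx1 hy1
      have h := Cfsg.Agent.H1.Zass.uprop H hreg r hr (x : H) (y : H)
        (by exact_mod_cast congrArg Subtype.val hxy)
        (by exact_mod_cast congrArg Subtype.val hxr)
        (by exact_mod_cast congrArg Subtype.val hyr)
        (fun h1 => hx1 (Subtype.ext h1)) (fun h1 => hy1 (Subtype.ext h1))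
      obtain ⟨k, hk⟩ := Subgroup.mem_zpowers_iff.mp h
      refine Subgroup.mem_zpowers_iff.mpr ⟨k, ?_⟩
      apply Subtype.ext
      rw [← hk]
      simp
    have hc2 : ∀ x y z : N, (x * y * x⁻¹ * y⁻¹) * z = z * (x * y * x⁻¹ * y⁻¹) := by
      intro x y z
      have hc : x * y * x⁻¹ * y⁻¹ ∈ commutator N := by
        rw [commutator_def, ← commutatorElement_def]
        exact Subgroup.commutator_mem_commutator (Subgroup.mem_top x) (Subgroup.mem_top y)
      have hcD : ((x * y * x⁻¹ * y⁻¹ : N) : H) ∈ D := by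
        rw [hD]; exact Subgroup.mem_map_of_mem N.subtype hc
      have h1 := Subgroup.mem_centralizer_iff.mp (hNle z.2) _ (hDA hcD)
      exact Subtype.ext h1
    have hna : ¬ ∀ x y : N, x * y = y * x := fun h => hNna ⟨⟨h⟩⟩
    have hmin : ∀ K : Subgroup N, K.Characteristic →
        (∀ x ∈ K, ∀ y ∈ K, x * y = y * x) ∨ K = ⊤ := by
      intro K hK
      haveI := hK
      have hKn : (K.map N.subtype).Normal := ConjAct.normal_of_characteristic_of_normal
      by_cases hc : IsMulCommutative ↥(K.map N.subtype)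
      · left
        intro x hx y hy
        have := mul_comm' (⟨(x : H), Subgroup.mem_map_of_mem N.subtype hx⟩ : K.map N.subtype)
          ⟨(y : H), Subgroup.mem_map_of_mem N.subtype hy⟩
        have h2 : (x : H) * (y : H) = (y : H) * (x : H) := congrArg Subtype.val this
        exact Subtype.ext h2
      · right
        have h1 := hNmin _ hKn (Subgroup.map_subtype_le K) hc
        apply Subgroup.map_injective N.subtype_injective
        rw [h1, htop]
    exact nilp_case hu hc2 hna hmin
  · right
    have hDN : D = N := hNmin D hDn hDle hDc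
    have hperf : commutator N = ⊤ := by
      apply Subgroup.map_injective N.subtype_injective
      rw [← hD, hDN, htop]
    refine perfect_case H hreg h690 N hperf ?_
    rintro rfl
    exact hNna ⟨⟨fun a b => Subsingleton.elim _ _⟩⟩

end

end Cfsg.Agent.H62.Z686
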